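import Mathlib
import Cfsg.Agent.Helper71.SQDefs

/-!
# CALL S5867 (helper71), piece NZ
-/

set_option autoImplicit false
set_option linter.unusedVariables false

namespace Cfsg.Agent.Helper73.SQNZ

open Matrix Cfsg.Agent.Helper71.T4 Cfsg.Agent.Helper71.SO Cfsg.Agent.Helper71.SQ
open scoped Kronecker

variable {F : Type*} [Field F] {m n : ℕ}

theorem nz_bl_self (h2 : (2 : F) ≠ 0) (J : Matrix (Fin m) (Fin m) F) (hJ : Jᵀ = -J)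
    (a : Fin m → F) : (J *ᵥ a) ⬝ᵥ a = 0 := by
  have h1 : (J *ᵥ a) ⬝ᵥ a = -((J *ᵥ a) ⬝ᵥ a) := by
    calc (J *ᵥ a) ⬝ᵥ a = a ⬝ᵥ (J *ᵥ a) := dotProduct_comm _ _
      _ = (a ᵥ* J) ⬝ᵥ a := Matrix.dotProduct_mulVec _ _ _
      _ = (Jᵀ *ᵥ a) ⬝ᵥ a := by rw [Matrix.mulVec_transpose]
      _ = -((J *ᵥ a) ⬝ᵥ a) := by rw [hJ, Matrix.neg_mulVec, neg_dotProduct]
  have h3 : (2 : F) * ((J *ᵥ a) ⬝ᵥ a) = 0 := by linear_combination h1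
  exact (mul_eq_zero.mp h3).resolve_left h2

theorem nz_E_sq (h2 : (2 : F) ≠ 0) (J : Matrix (Fin m) (Fin m) F) (hJ : Jᵀ = -J)
    (a : Fin m → F) : vecMulVec a (J *ᵥ a) * vecMulVec a (J *ᵥ a) = 0 := by
  rw [vecMulVec_mul_vecMulVec, nz_bl_self h2 J hJ a, zero_smul]
  ext i j
  simp [vecMulVec_apply]

theorem nz_prod (h2 : (2 : F) ≠ 0) (J : Matrix (Fin m) (Fin m) F) (hJ : Jᵀ = -J)
    (a : Fin m → F) (D D' : Matrix (Fin n) (Fin n) F) :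
    (1 + vecMulVec a (J *ᵥ a) ⊗ₖ D) * (1 + vecMulVec a (J *ᵥ a) ⊗ₖ D') =
      1 + vecMulVec a (J *ᵥ a) ⊗ₖ (D + D') := by
  rw [mul_add, mul_one, add_mul, one_mul, ← mul_kronecker_mul, nz_E_sq h2 J hJ a, zero_kronecker,
    add_zero, kronecker_add, add_assoc]

theorem nz_add (h2 : (2 : F) ≠ 0) (J : Matrix (Fin m) (Fin m) F) (hJ : Jᵀ = -J)
    (M : Subgroup (GL (Fin m × Fin n) F)) (a : Fin m → F) (D D' : Matrix (Fin n) (Fin n) F)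
    (h : InM M (1 + vecMulVec a (J *ᵥ a) ⊗ₖ D)) (h' : InM M (1 + vecMulVec a (J *ᵥ a) ⊗ₖ D')) :
    InM M (1 + vecMulVec a (J *ᵥ a) ⊗ₖ (D + D')) := by
  obtain ⟨g, hg, hgm⟩ := h
  obtain ⟨g', hg', hgm'⟩ := h'
  exact ⟨g * g', M.mul_mem hg hg', by rw [Units.val_mul, hgm, hgm', nz_prod h2 J hJ a D D']⟩

theorem nz_neg (h2 : (2 : F) ≠ 0) (J : Matrix (Fin m) (Fin m) F) (hJ : Jᵀ = -J)
    (M : Subgroup (GL (Fin m × Fin n) F)) (a : Fin m → F) (D : Matrix (Fin n) (Fin n) F)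
    (h : InM M (1 + vecMulVec a (J *ᵥ a) ⊗ₖ D)) :
    InM M (1 + vecMulVec a (J *ᵥ a) ⊗ₖ (-D)) := by
  obtain ⟨g, hg, hgm⟩ := h
  refine ⟨g⁻¹, M.inv_mem hg, ?_⟩
  have h1 : (g : Matrix (Fin m × Fin n) (Fin m × Fin n) F) *
      (1 + vecMulVec a (J *ᵥ a) ⊗ₖ (-D)) = 1 := by
    rw [hgm, nz_prod h2 J hJ a, add_neg_cancel, kronecker_zero, add_zero]
  calc ((g⁻¹ : GL (Fin m × Fin n) F) : Matrix (Fin m × Fin n) (Fin m × Fin n) F)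
      = ((g⁻¹ : GL (Fin m × Fin n) F) : Matrix (Fin m × Fin n) (Fin m × Fin n) F) *
        ((g : Matrix (Fin m × Fin n) (Fin m × Fin n) F) *
          (1 + vecMulVec a (J *ᵥ a) ⊗ₖ (-D))) := by rw [h1, mul_one]
    _ = 1 + vecMulVec a (J *ᵥ a) ⊗ₖ (-D) := by
      rw [← mul_assoc, ← Units.val_mul, inv_mul_cancel, Units.val_one, one_mul]

theorem nz_sq (h2 : (2 : F) ≠ 0) (J : Matrix (Fin m) (Fin m) F) (hJ : Jᵀ = -J)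
    (S : Matrix (Fin n) (Fin n) F) (M : Subgroup (GL (Fin m × Fin n) F)) (hH : HasHG J S M)
    (htr : ∀ a a' : Fin m → F, a ≠ 0 → a' ≠ 0 →
      ∃ A : Matrix (Fin m) (Fin m) F, Aᵀ * J * A = J ∧ A *ᵥ a' = a)
    (a : Fin m → F) (ha : a ≠ 0) (D : Matrix (Fin n) (Fin n) F)
    (h : InM M (1 + vecMulVec a (J *ᵥ a) ⊗ₖ D)) (s : F) :
    InM M (1 + vecMulVec a (J *ᵥ a) ⊗ₖ (s ^ 2 • D)) := by
  by_cases hs : s = 0
  · subst hs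
    refine ⟨1, M.one_mem, ?_⟩
    simp
  · obtain ⟨A, hA, hAa⟩ := htr (s • a) a (smul_ne_zero hs ha) ha
    obtain ⟨k, hk, hkm⟩ := hH A 1 1 1 (by rw [hA, one_smul]) (by simp) (by ring)
    obtain ⟨g, hg, hgm⟩ := h
    refine ⟨k * g * k⁻¹, M.mul_mem (M.mul_mem hk hg) (M.inv_mem hk), ?_⟩
    have hAE : A * vecMulVec a (J *ᵥ a) = s • vecMulVec a (J *ᵥ a) := by
      rw [mul_vecMulVec, hAa, smul_vecMulVec]
    have hEA : vecMulVec a (J *ᵥ a) * A = s⁻¹ • vecMulVec a (J *ᵥ a) := by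
      rw [vecMulVec_mul]
      have h3 : (J *ᵥ a) ᵥ* A = s⁻¹ • (J *ᵥ a) := by
        rw [← Matrix.mulVec_transpose]
        have h4 : Aᵀ *ᵥ (J *ᵥ (A *ᵥ a)) = J *ᵥ a := by
          rw [Matrix.mulVec_mulVec, Matrix.mulVec_mulVec, hA]
        rw [hAa, Matrix.mulVec_smul, Matrix.mulVec_smul] at h4
        calc Aᵀ *ᵥ (J *ᵥ a) = s⁻¹ • (s • Aᵀ *ᵥ (J *ᵥ a)) := by
              rw [smul_smul, inv_mul_cancel₀ hs, one_smul]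
          _ = s⁻¹ • (J *ᵥ a) := by rw [h4]
      rw [h3, vecMulVec_smul]
    have hL : (A ⊗ₖ (1 : Matrix (Fin n) (Fin n) F)) * (1 + vecMulVec a (J *ᵥ a) ⊗ₖ D) =
        A ⊗ₖ (1 : Matrix (Fin n) (Fin n) F) + s • (vecMulVec a (J *ᵥ a) ⊗ₖ D) := by
      rw [mul_add, mul_one, ← mul_kronecker_mul, hAE, one_mul, smul_kronecker]
    have hR : (1 + vecMulVec a (J *ᵥ a) ⊗ₖ (s ^ 2 • D)) * (A ⊗ₖ (1 : Matrix (Fin n) (Fin n) F)) =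
        A ⊗ₖ (1 : Matrix (Fin n) (Fin n) F) + s • (vecMulVec a (J *ᵥ a) ⊗ₖ D) := by
      rw [add_mul, one_mul, ← mul_kronecker_mul, hEA, mul_one, smul_kronecker, kronecker_smul,
        smul_smul]
      congr 2
      field_simp
    rw [Units.val_mul, Units.val_mul, hkm, hgm, hL, ← hR, ← hkm, Units.mul_inv_cancel_right]

/-- PIECE NZ -/
theorem nz_smul (h2 : (2 : F) ≠ 0) (J : Matrix (Fin m) (Fin m) F) (hJ : Jᵀ = -J)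
    (S : Matrix (Fin n) (Fin n) F) (M : Subgroup (GL (Fin m × Fin n) F)) (hH : HasHG J S M)
    (htr : ∀ a a' : Fin m → F, a ≠ 0 → a' ≠ 0 →
      ∃ A : Matrix (Fin m) (Fin m) F, Aᵀ * J * A = J ∧ A *ᵥ a' = a)
    (a : Fin m → F) (ha : a ≠ 0) (D : Matrix (Fin n) (Fin n) F)
    (h : InM M (1 + vecMulVec a (J *ᵥ a) ⊗ₖ D)) (c : F) :
    InM M (1 + vecMulVec a (J *ᵥ a) ⊗ₖ (c • D)) := by
  have h1 := nz_sq h2 J hJ S M hH htr a ha D h ((c + 1) / 2)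
  have h2' := nz_neg h2 J hJ M a _ (nz_sq h2 J hJ S M hH htr a ha D h ((c - 1) / 2))
  have h3 := nz_add h2 J hJ M a _ _ h1 h2'
  have e : ((c + 1) / 2) ^ 2 • D + -(((c - 1) / 2) ^ 2 • D) = c • D := by
    rw [← neg_smul, ← add_smul]
    congr 1
    field_simp
    ring
  rw [e] at h3
  exact h3

theorem nz_conj (J : Matrix (Fin m) (Fin m) F) (S : Matrix (Fin n) (Fin n) F)
    (M : Subgroup (GL (Fin m × Fin n) F)) (hH : HasHG J S M)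
    (a : Fin m → F) (D B B' : Matrix (Fin n) (Fin n) F) (hB : Bᵀ * S * B = S)
    (hBB' : B * B' = 1) (h : InM M (1 + vecMulVec a (J *ᵥ a) ⊗ₖ D)) :
    InM M (1 + vecMulVec a (J *ᵥ a) ⊗ₖ (B * D * B')) := by
  obtain ⟨k, hk, hkm⟩ := hH 1 B 1 1 (by simp) (by rw [hB, one_smul]) (by ring)
  obtain ⟨g, hg, hgm⟩ := h
  refine ⟨k * g * k⁻¹, M.mul_mem (M.mul_mem hk hg) (M.inv_mem hk), ?_⟩
  have hkinv : ((k⁻¹ : GL (Fin m × Fin n) F) : Matrix (Fin m × Fin n) (Fin m × Fin n) F) =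
      (1 : Matrix (Fin m) (Fin m) F) ⊗ₖ B' := by
    have h1 : (k : Matrix (Fin m × Fin n) (Fin m × Fin n) F) *
        ((1 : Matrix (Fin m) (Fin m) F) ⊗ₖ B') = 1 := by
      rw [hkm, ← mul_kronecker_mul, one_mul, hBB', one_kronecker_one]
    calc ((k⁻¹ : GL (Fin m × Fin n) F) : Matrix (Fin m × Fin n) (Fin m × Fin n) F)
        = ((k⁻¹ : GL (Fin m × Fin n) F) : Matrix (Fin m × Fin n) (Fin m × Fin n) F) *
          ((k : Matrix (Fin m × Fin n) (Fin m × Fin n) F) *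
            ((1 : Matrix (Fin m) (Fin m) F) ⊗ₖ B')) := by rw [h1, mul_one]
      _ = (1 : Matrix (Fin m) (Fin m) F) ⊗ₖ B' := by
        rw [← mul_assoc, ← Units.val_mul, inv_mul_cancel, Units.val_one, one_mul]
  rw [Units.val_mul, Units.val_mul, hkm, hgm, hkinv, mul_add, mul_one, add_mul,
    ← mul_kronecker_mul, ← mul_kronecker_mul, ← mul_kronecker_mul]
  simp only [one_mul, mul_one, hBB', one_kronecker_one]

theorem nz_sym (h2 : (2 : F) ≠ 0) (J : Matrix (Fin m) (Fin m) F) (hJ : Jᵀ = -J)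
    (hdetJ : J.det ≠ 0) (S : Matrix (Fin n) (Fin n) F) (hS : Sᵀ = S)
    (a : Fin m → F) (ha : a ≠ 0) (D : Matrix (Fin n) (Fin n) F)
    (h : IsSpG J S (1 + vecMulVec a (J *ᵥ a) ⊗ₖ D)) : (S * D)ᵀ = S * D := by
  unfold IsSpG OmG at h
  have hJa : J *ᵥ a ≠ 0 := by
    intro h0
    exact ha (Matrix.eq_zero_of_mulVec_eq_zero hdetJ h0)
  have hET : (vecMulVec a (J *ᵥ a))ᵀ = vecMulVec (J *ᵥ a) a := transpose_vecMulVec _ _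
  have h1 : (vecMulVec a (J *ᵥ a))ᵀ * J = -vecMulVec (J *ᵥ a) (J *ᵥ a) := by
    rw [hET, vecMulVec_mul]
    have h0 : a ᵥ* J = -(J *ᵥ a) := by
      rw [← Matrix.mulVec_transpose, hJ, Matrix.neg_mulVec]
    rw [h0]
    ext i j
    simp [vecMulVec_apply]
  have h2' : J * vecMulVec a (J *ᵥ a) = vecMulVec (J *ᵥ a) (J *ᵥ a) := by
    rw [mul_vecMulVec]
  have h3 : (vecMulVec a (J *ᵥ a))ᵀ * J * vecMulVec a (J *ᵥ a) = 0 := by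
    rw [h1, neg_mul, vecMulVec_mul_vecMulVec, nz_bl_self h2 J hJ a, zero_smul]
    ext i j
    simp [vecMulVec_apply]
  have t1 : ((vecMulVec a (J *ᵥ a))ᵀ ⊗ₖ Dᵀ) * (J ⊗ₖ S) =
      (-vecMulVec (J *ᵥ a) (J *ᵥ a)) ⊗ₖ (Dᵀ * S) := by
    rw [← mul_kronecker_mul, h1]
  have t2 : (J ⊗ₖ S) * (vecMulVec a (J *ᵥ a) ⊗ₖ D) =
      vecMulVec (J *ᵥ a) (J *ᵥ a) ⊗ₖ (S * D) := by
    rw [← mul_kronecker_mul, h2']
  have t3 : ((vecMulVec a (J *ᵥ a))ᵀ ⊗ₖ Dᵀ) * (J ⊗ₖ S) * (vecMulVec a (J *ᵥ a) ⊗ₖ D) = 0 := by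
    rw [← mul_kronecker_mul, ← mul_kronecker_mul, h3, zero_kronecker]
  have h' : J ⊗ₖ S + ((vecMulVec a (J *ᵥ a))ᵀ ⊗ₖ Dᵀ) * (J ⊗ₖ S) +
      ((J ⊗ₖ S) * (vecMulVec a (J *ᵥ a) ⊗ₖ D) +
        ((vecMulVec a (J *ᵥ a))ᵀ ⊗ₖ Dᵀ) * (J ⊗ₖ S) * (vecMulVec a (J *ᵥ a) ⊗ₖ D)) = J ⊗ₖ S := by
    rw [transpose_add, transpose_one, ← kroneckerMap_transpose] at h
    calc J ⊗ₖ S + ((vecMulVec a (J *ᵥ a))ᵀ ⊗ₖ Dᵀ) * (J ⊗ₖ S) +
        ((J ⊗ₖ S) * (vecMulVec a (J *ᵥ a) ⊗ₖ D) +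
          ((vecMulVec a (J *ᵥ a))ᵀ ⊗ₖ Dᵀ) * (J ⊗ₖ S) * (vecMulVec a (J *ᵥ a) ⊗ₖ D))
        = (1 + (vecMulVec a (J *ᵥ a))ᵀ ⊗ₖ Dᵀ) * (J ⊗ₖ S) *
            (1 + vecMulVec a (J *ᵥ a) ⊗ₖ D) := by noncomm_ring
      _ = J ⊗ₖ S := h
  rw [t3, t1, t2, add_zero] at h'
  obtain ⟨i, hi⟩ : ∃ i, (J *ᵥ a) i ≠ 0 := by
    by_contra hcon
    push Not at hcon
    exact hJa (funext hcon)
  rw [Matrix.transpose_mul, hS]
  ext k l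
  have h5 := congrFun (congrFun h' (i, k)) (i, l)
  simp only [Matrix.add_apply, kroneckerMap_apply, Matrix.neg_apply, vecMulVec_apply] at h5
  have hP : (J *ᵥ a) i * (J *ᵥ a) i ≠ 0 := mul_ne_zero hi hi
  have h6 : ((J *ᵥ a) i * (J *ᵥ a) i) * ((S * D) k l - (Dᵀ * S) k l) = 0 := by
    linear_combination h5
  have h7 := (mul_eq_zero.mp h6).resolve_left hP
  exact (sub_eq_zero.mp h7).symm

end Cfsg.Agent.Helper73.SQNZ
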