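-- helper73 library: piece UPERP (double) of helper13's CALL S5954.
import Mathlib
import Cfsg.Agent.Helper13.TLDefs

set_option autoImplicit false

namespace Cfsg.Agent.Helper73.TI5954

open Module Polynomial
open Cfsg.Agent.Helper13.TIu Cfsg.Agent.Helper13.TIsp

variable {F : Type*} [Field F] {σ : F →+* F} {V : Type*} [AddCommGroup V] [Module F V]
  [FiniteDimensional F V] (B : V →ₛₗ[σ] V →ₗ[F] F)

/-- UPERP: the perp of a nondegenerate invariant `M₁` inside a nondegenerate invariant `M`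
(mirror `nd_perp` / `ti_orth`). -/
theorem u_perp (hσ2 : ∀ a, σ (σ a) = a) (hS : B.IsSymm) (T : Module.End F V) (hT : UPres B T)
    (r : ℕ) (hr0 : 0 < r) (hTr : T ^ r = 1) (M M₁ : Submodule F V) (hM : UNd B M)
    (hM₁ : UNd B M₁) (hle : M₁ ≤ M) (hMT : M.map T ≤ M) (hM₁T : M₁.map T ≤ M₁) :
    ∃ P : Submodule F V, P ≤ M ∧ P.map T ≤ P ∧ UNd B P ∧ M₁ ⊓ P = ⊥ ∧ M₁ ⊔ P = M ∧
      (∀ u ∈ M₁, ∀ v ∈ P, B u v = 0) ∧ (∀ u ∈ P, ∀ v ∈ M₁, B u v = 0) ∧
      finrank F P + finrank F M₁ = finrank F M := by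
  classical
  have hinv : ∀ v, T ((T ^ (r - 1)) v) = v := by
    intro v
    have h : T * T ^ (r - 1) = 1 := by
      rw [← pow_succ', Nat.sub_add_cancel hr0, hTr]
    have h2 := congrArg (fun S : Module.End F V => S v) h
    simpa using h2
  have hsym0 : ∀ u v, B u v = 0 → B v u = 0 := by
    intro u v h
    rw [← hS.eq, h, map_zero]
  let b := Module.finBasis F M₁
  let Ψ : M →ₗ[F] (Fin (finrank F M₁) → F) :=
    LinearMap.pi (fun i => (B (b i : V)).comp M.subtype)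
  have hΨ : ∀ (x : M) (i : Fin (finrank F M₁)), Ψ x i = B (b i : V) (x : V) := fun x i => rfl
  have hP : ∀ v, v ∈ (LinearMap.ker Ψ).map M.subtype ↔ v ∈ M ∧ ∀ w ∈ M₁, B w v = 0 := by
    intro v
    constructor
    · rintro ⟨x, hx, rfl⟩
      refine ⟨x.2, fun w hw => ?_⟩
      have hx' : Ψ x = 0 := LinearMap.mem_ker.mp hx
      have hw' : w = ∑ i, (b.repr ⟨w, hw⟩ i) • (b i : V) := by
        have h := congrArg Subtype.val (b.sum_repr ⟨w, hw⟩)
        simp only [Submodule.coe_sum, Submodule.coe_smul] at h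
        exact h.symm
      rw [hw', map_sum, LinearMap.sum_apply]
      apply Finset.sum_eq_zero
      intro i _
      have hi : B (b i : V) (x : V) = 0 := by
        rw [← hΨ, hx']
        rfl
      rw [LinearMap.map_smulₛₗ, LinearMap.smul_apply, Submodule.subtype_apply, hi, smul_zero]
    · rintro ⟨hvM, hv⟩
      refine ⟨⟨v, hvM⟩, ?_, rfl⟩
      show Ψ ⟨v, hvM⟩ = 0
      funext i
      rw [hΨ]
      exact hv _ (b i).2
  have hPM : (LinearMap.ker Ψ).map M.subtype ≤ M := fun v hv => ((hP v).mp hv).1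
  have hoP : ∀ u ∈ M₁, ∀ v ∈ (LinearMap.ker Ψ).map M.subtype, B u v = 0 :=
    fun u hu v hv => ((hP v).mp hv).2 u hu
  have hPo : ∀ u ∈ (LinearMap.ker Ψ).map M.subtype, ∀ v ∈ M₁, B u v = 0 :=
    fun u hu v hv => hsym0 _ _ (hoP v hv u hu)
  have hdisj : M₁ ⊓ (LinearMap.ker Ψ).map M.subtype = ⊥ := by
    rw [eq_bot_iff]
    rintro v ⟨hv1, hv2⟩
    exact (Submodule.mem_bot F).mpr (hM₁ v hv1 (fun w hw => hPo v hv2 w hw))
  have hdimP : finrank F ((LinearMap.ker Ψ).map M.subtype) + finrank F M₁ = finrank F M := by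
    have h1 : finrank F ((LinearMap.ker Ψ).map M.subtype) = finrank F (LinearMap.ker Ψ) :=
      Submodule.finrank_map_subtype_eq M (LinearMap.ker Ψ)
    have h2 := LinearMap.finrank_range_add_finrank_ker Ψ
    have h3 : finrank F (LinearMap.range Ψ) ≤ finrank F M₁ := by
      have h := Submodule.finrank_le (LinearMap.range Ψ)
      rw [Module.finrank_fin_fun] at h
      exact h
    have h4 := Submodule.finrank_sup_add_finrank_inf_eq M₁ ((LinearMap.ker Ψ).map M.subtype)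
    rw [hdisj, finrank_bot] at h4
    have h5 : finrank F ↥(M₁ ⊔ (LinearMap.ker Ψ).map M.subtype) ≤ finrank F M :=
      Submodule.finrank_mono (sup_le hle hPM)
    omega
  have hsup : M₁ ⊔ (LinearMap.ker Ψ).map M.subtype = M := by
    apply Submodule.eq_of_le_of_finrank_eq (sup_le hle hPM)
    have h := Submodule.finrank_sup_add_finrank_inf_eq M₁ ((LinearMap.ker Ψ).map M.subtype)
    rw [hdisj, finrank_bot] at h
    omega
  refine ⟨(LinearMap.ker Ψ).map M.subtype, hPM, ?_, ?_, hdisj, hsup, hoP, hPo, hdimP⟩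
  · rintro _ ⟨v, hv, rfl⟩
    obtain ⟨hvM, hvW⟩ := (hP v).mp hv
    refine (hP _).mpr ⟨hMT ⟨v, hvM, rfl⟩, fun w hw => ?_⟩
    have h1 : B w (T v) = B (T ((T ^ (r - 1)) w)) (T v) := by rw [hinv]
    rw [h1, hT]
    exact hvW _ (ti_pow_mem T M₁ hM₁T (r - 1) w hw)
  · intro v hv h
    apply hM v (hPM hv)
    intro w hw
    rw [← hsup] at hw
    obtain ⟨x, hx, y, hy, rfl⟩ := Submodule.mem_sup.mp hw
    rw [map_add, hPo v hv x hx, h y hy, add_zero]

end Cfsg.Agent.Helper73.TI5954
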