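-- helper73 library: piece UGROW of helper13's CALL S5954.
import Mathlib
import Cfsg.Agent.Helper13.TLDefs
import Cfsg.Agent.Helper73.TLUPERP
import Cfsg.Agent.Helper73.TLUSUM

set_option autoImplicit false

namespace Cfsg.Agent.Helper73.TI5954

open Module Polynomial
open Cfsg.Agent.Helper13.TIu Cfsg.Agent.Helper13.TIsp

variable {F : Type*} [Field F] {σ : F →+* F} {V : Type*} [AddCommGroup V] [Module F V]
  [FiniteDimensional F V] (B : V →ₛₗ[σ] V →ₗ[F] F)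

/-- UGROW (uses UPERP, USUM; induction on `h₁`; copy `Cfsg.Agent.Helper13.TIsp.nd_grow`). -/
theorem u_grow (hσ2 : ∀ a, σ (σ a) = a) (hS : B.IsSymm) (T : Module.End F V) (hT : UPres B T)
    (r : ℕ) (hr0 : 0 < r) (hTr : T ^ r = 1) (c₀ : ℕ) (hc₀ : 0 < c₀) (M₀ : Submodule F V)
    (hatom : ∀ N : Submodule F V, N ≤ M₀ → N.map T ≤ N → UNd B N → N ≠ ⊥ →
      ∃ E : Submodule F V, E ≤ N ∧ E.map T ≤ E ∧ UNd B E ∧ finrank F E = c₀)
    (N : Submodule F V) (hNM : N ≤ M₀) (hNT : N.map T ≤ N) (hN : UNd B N) (h₁ : ℕ)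
    (hh : c₀ * h₁ ≤ finrank F N) :
    ∃ N₁ : Submodule F V, N₁ ≤ N ∧ N₁.map T ≤ N₁ ∧ UNd B N₁ ∧ finrank F N₁ = c₀ * h₁ := by
  induction h₁ with
  | zero =>
    exact ⟨⊥, bot_le, by simp, fun v hv _ => (Submodule.mem_bot F).mp hv, by simp⟩
  | succ h₁ ih =>
    have h0 : c₀ * (h₁ + 1) = c₀ * h₁ + c₀ := by ring
    obtain ⟨N₁, hN₁le, hN₁T, hN₁nd, hN₁dim⟩ := ih (by omega)
    obtain ⟨P, hPle, hPT, hPnd, hdisj, hsup, horth, horth', hPdim⟩ :=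
      u_perp B hσ2 hS T hT r hr0 hTr N N₁ hN hN₁nd hN₁le hNT hN₁T
    have hP0 : P ≠ ⊥ := by
      rintro rfl
      rw [finrank_bot] at hPdim
      omega
    obtain ⟨E, hEle, hET, hEnd, hEdim⟩ := hatom P (hPle.trans hNM) hPT hPnd hP0
    obtain ⟨hnd', hdisj', hdim'⟩ := u_sum B N₁ E hN₁nd hEnd
      (fun u hu v hv => horth u hu v (hEle hv)) (fun u hu v hv => horth' u (hEle hu) v hv)
    refine ⟨N₁ ⊔ E, sup_le hN₁le (hEle.trans hPle), ?_, hnd', by rw [hdim', hN₁dim, hEdim, h0]⟩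
    rw [Submodule.map_sup]
    exact sup_le_sup hN₁T hET

end Cfsg.Agent.Helper73.TI5954
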