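-- helper73 library: piece UEXND (double) of helper13's CALL S5954.
import Mathlib
import Cfsg.Agent.Helper13.TLDefs
import Cfsg.Agent.Helper26.TLUISO
import Cfsg.Agent.Helper73.TLUGROW

set_option autoImplicit false

namespace Cfsg.Agent.Helper73.TI5954

open Module Polynomial
open Cfsg.Agent.Helper13.TIu Cfsg.Agent.Helper13.TIsp

variable {F : Type*} [Field F] {σ : F →+* F} {V : Type*} [AddCommGroup V] [Module F V]
  [FiniteDimensional F V] (B : V →ₛₗ[σ] V →ₗ[F] F)

/-- UEXND (uses UGROW with `T = 1`, `c₀ = 1`, UISO: `span {v}` with `B v v ≠ 0`). -/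
theorem u_exists_nd (hσ2 : ∀ a, σ (σ a) = a) (hσne : σ ≠ RingHom.id F) (hS : B.IsSymm)
    (E : Submodule F V) (hE : UNd B E) (m : ℕ) (hm : m ≤ finrank F E) :
    ∃ W : Submodule F V, W ≤ E ∧ UNd B W ∧ finrank F W = m := by
  have hmap : ∀ N : Submodule F V, N.map (1 : Module.End F V) ≤ N := by
    rintro N _ ⟨v, hv, rfl⟩
    simpa using hv
  obtain ⟨W, hWE, -, hWnd, hWdim⟩ := u_grow B hσ2 hS 1 (fun u v => rfl) 1 Nat.one_pos
    (pow_one 1) 1 Nat.one_pos E
    (fun N hNE _ hNnd hN0 => by
      obtain ⟨v, hvN, hv⟩ := Cfsg.Agent.Helper26.TI5954.u_noniso B hσ2 hσne hS N hNnd hN0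
      have hv0 : v ≠ 0 := by
        rintro rfl
        exact hv (by simp)
      refine ⟨Submodule.span F {v}, ?_, hmap _, ?_, finrank_span_singleton hv0⟩
      · rw [Submodule.span_singleton_le_iff_mem]
        exact hvN
      · intro x hx h
        obtain ⟨c, rfl⟩ := Submodule.mem_span_singleton.mp hx
        have h1 := h v (Submodule.mem_span_singleton_self v)
        rw [LinearMap.map_smulₛₗ, LinearMap.smul_apply, smul_eq_mul] at h1
        have h2 : σ c = 0 := by
          rcases mul_eq_zero.mp h1 with h | h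
          · exact h
          · exact absurd h hv
        have h3 : c = 0 := by
          have h4 := hσ2 c
          rw [h2, map_zero] at h4
          exact h4.symm
        rw [h3, zero_smul])
    E le_rfl (hmap E) hE m (by rw [one_mul]; exact hm)
  exact ⟨W, hWE, hWnd, by rw [hWdim, one_mul]⟩

end Cfsg.Agent.Helper73.TI5954
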