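import Mathlib

/-!
# The socle of a local symmetric algebra (helper73, PIECE B3 of CALL S4648)
-/

set_option autoImplicit false

namespace Cfsg.Agent.Helper73

universe u v w

variable {k : Type v} [Field k] {A : Type u} [Ring A] [Algebra k A]

theorem kul_socle [FiniteDimensional k A] (lam : A →ₗ[k] k)
    (hsym : ∀ x y, lam (x * y) = lam (y * x))
    (hnd : ∀ x, (∀ y, lam (x * y) = 0) → x = 0)
    (π : A →ₐ[k] k) :
    ∃ s : A, lam s ≠ 0 ∧ (∀ j, π j = 0 → s * j = 0) ∧
      ∀ s' : A, (∀ j, π j = 0 → s' * j = 0) → ∃ c : k, s' = c • s := by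
  let Φ : A →ₗ[k] Module.Dual k A := (LinearMap.llcomp k A A k lam).comp (LinearMap.mul k A)
  have hΦ : ∀ c y, Φ c y = lam (c * y) := fun c y => rfl
  have hinj : Function.Injective Φ := by
    rw [injective_iff_map_eq_zero]
    intro c hc
    apply hnd
    intro y
    rw [← hΦ, hc]
    rfl
  have hsurj : Function.Surjective Φ :=
    (LinearMap.injective_iff_surjective_of_finrank_eq_finrank
      (Subspace.dual_finrank_eq (K := k) (V := A)).symm).mp hinj
  obtain ⟨s, hs⟩ := hsurj π.toLinearMap
  have hsπ : ∀ a, lam (s * a) = π a := fun a => by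
    rw [← hΦ, hs]
    rfl
  have hs1 : lam s = 1 := by
    have := hsπ 1
    rwa [mul_one, map_one] at this
  refine ⟨s, by rw [hs1]; exact one_ne_zero, ?_, ?_⟩
  · intro j hj
    apply hnd
    intro y
    rw [mul_assoc, hsπ, map_mul, hj, zero_mul]
  · intro s' hs'
    refine ⟨lam s', ?_⟩
    have h0 : s' - lam s' • s = 0 := by
      apply hnd
      intro a
      have ha : a = algebraMap k A (π a) + (a - algebraMap k A (π a)) := by abel
      have hj : π (a - algebraMap k A (π a)) = 0 := by
        rw [map_sub, AlgHom.commutes, Algebra.algebraMap_self_apply, sub_self]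
      have h1 : s' * a = π a • s' := by
        conv_lhs => rw [ha]
        rw [mul_add, hs' _ hj, add_zero, Algebra.algebraMap_eq_smul_one, mul_smul_comm, mul_one]
      rw [sub_mul, map_sub, h1, map_smul, smul_mul_assoc, map_smul, hsπ, smul_eq_mul, smul_eq_mul,
        mul_comm, sub_self]
    exact sub_eq_zero.mp h0

end Cfsg.Agent.Helper73
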