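import Mathlib
import Cfsg.Agent.Helper27.SameOrderA

set_option autoImplicit false

namespace Cfsg.Agent.Helper73

open Cfsg.Agent.Helper27.SO

variable {H : Type*} [Group H] [Finite H]

/-- PIECE INV2 -/
theorem not_four_dvd_card (C : Subgroup H)
    (h2 : Nat.card {y : H // orderOf y = 2 ∧ y ∈ C} ≤ 1) (h4 : ∀ y ∈ C, orderOf y ≠ 4) :
    ¬ 4 ∣ Nat.card C := by
  classical
  intro hdvd
  have : Fact (Nat.Prime 2) := ⟨Nat.prime_two⟩
  obtain ⟨K, hK⟩ := Sylow.exists_subgroup_card_pow_prime (G := ↥C) 2 (n := 2) (by simpa using hdvd)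
  have hK4 : Nat.card K = 4 := by rw [hK]; norm_num
  -- every non-identity element of `K` has order 2
  have hord : ∀ k : ↥C, k ∈ K → k ≠ 1 → orderOf (k : H) = 2 := by
    intro k hk hk1
    have h1 : orderOf (⟨k, hk⟩ : ↥K) ∣ 4 := hK4 ▸ orderOf_dvd_natCard _
    have h2' : orderOf (⟨k, hk⟩ : ↥K) = orderOf (k : H) := by
      rw [← Subgroup.orderOf_coe, ← Subgroup.orderOf_coe]
    rw [h2'] at h1
    have hne4 := h4 (k : H) k.2
    have hne1 : orderOf (k : H) ≠ 1 := by
      intro h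
      rw [orderOf_eq_one_iff] at h
      exact hk1 (Subtype.ext h)
    have hle : orderOf (k : H) ≤ 4 := Nat.le_of_dvd (by norm_num) h1
    have hpos : 0 < orderOf (k : H) := orderOf_pos _
    interval_cases h : orderOf (k : H) <;> simp_all
  -- three distinct elements of `K`
  have hfin : Fintype ↥K := Fintype.ofFinite _
  have hc : 2 < Fintype.card ↥K := by
    rw [← Nat.card_eq_fintype_card, hK4]; norm_num
  obtain ⟨a, b, c, hab, hac, hbc⟩ := Fintype.two_lt_card_iff.mp hc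
  -- two distinct non-identity elements
  obtain ⟨x, y, hx1, hy1, hxy⟩ : ∃ x y : ↥K, x ≠ 1 ∧ y ≠ 1 ∧ x ≠ y := by
    by_cases ha : a = 1
    · refine ⟨b, c, ?_, ?_, hbc⟩
      · rintro rfl; exact hab ha
      · rintro rfl; exact hac ha
    · by_cases hb : b = 1
      · refine ⟨a, c, ha, ?_, hac⟩
        rintro rfl; exact hbc hb
      · exact ⟨a, b, ha, hb, hab⟩
  have hsub : Subsingleton {y : H // orderOf y = 2 ∧ y ∈ C} :=
    (Finite.card_le_one_iff_subsingleton).mp h2
  have hx : orderOf ((x : ↥C) : H) = 2 := hord x.1 x.2 (fun h => hx1 (Subtype.ext h))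
  have hy : orderOf ((y : ↥C) : H) = 2 := hord y.1 y.2 (fun h => hy1 (Subtype.ext h))
  have heq : (⟨((x : ↥C) : H), hx, (x : ↥C).2⟩ : {y : H // orderOf y = 2 ∧ y ∈ C})
      = ⟨((y : ↥C) : H), hy, (y : ↥C).2⟩ := Subsingleton.elim _ _
  have h3 : ((x : ↥C) : H) = ((y : ↥C) : H) := by
    have := congrArg (fun z : {y : H // orderOf y = 2 ∧ y ∈ C} => (z : H)) heq
    exact this
  exact hxy (Subtype.ext (Subtype.ext h3))

end Cfsg.Agent.Helper73
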