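import Mathlib
import Cfsg.Agent.Helper27.SameOrderA

set_option autoImplicit false

namespace Cfsg.Agent.Helper73

open Cfsg.Agent.Helper27.SO

variable {H : Type*} [Group H] [Finite H]

/-- an element whose order is coprime to the index of a normal subgroup lies in it -/
theorem nse_mem_normal_of_coprime_index (N : Subgroup H) [N.Normal] (g : H)
    (h : (orderOf g).Coprime N.index) : g ∈ N := by
  have h1 : orderOf (QuotientGroup.mk' N g) ∣ orderOf g := orderOf_map_dvd _ g
  have h2 : orderOf (QuotientGroup.mk' N g) ∣ N.index := by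
    rw [Subgroup.index]
    exact orderOf_dvd_natCard _
  have h3 : orderOf (QuotientGroup.mk' N g) = 1 := by
    have h4 := Nat.dvd_gcd h1 h2
    rw [Nat.Coprime.gcd_eq_one h] at h4
    exact Nat.dvd_one.mp h4
  rw [orderOf_eq_one_iff] at h3
  rw [← QuotientGroup.ker_mk' N]
  exact h3

/-- a subgroup containing all the elements of the orders in `F` has at least that many elements -/
theorem nse_sum_sc_le_card (N : Subgroup H) (F : Finset ℕ)
    (hF : ∀ d ∈ F, ∀ g : H, orderOf g = d → g ∈ N) : ∑ d ∈ F, sc H d ≤ Nat.card N := by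
  classical
  have : Fintype H := Fintype.ofFinite H
  simp only [sc_eq_card_filter]
  rw [← Finset.card_biUnion]
  · have h1 : Nat.card N = (Finset.univ.filter (fun x : H => x ∈ N)).card := by
      rw [Nat.card_eq_fintype_card, Fintype.card_subtype]
    rw [h1]
    apply Finset.card_le_card
    intro g hg
    simp only [Finset.mem_biUnion, Finset.mem_filter, Finset.mem_univ, true_and] at hg ⊢
    obtain ⟨d, hd, hgd⟩ := hg
    exact hF d hd g hgd
  · intro x _ y _ hxy
    show Disjoint _ _
    rw [Finset.disjoint_left]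
    intro g hg hg'
    simp only [Finset.mem_filter, Finset.mem_univ, true_and] at hg hg'
    exact hxy (hg.symm.trans hg')

/-- if the numbers of elements of the orders in `F` add up to `|H|`, every order is in `F` -/
theorem nse_orderOf_mem (F : Finset ℕ) (hF : ∑ d ∈ F, sc H d = Nat.card H) (g : H) :
    orderOf g ∈ F := by
  by_contra hg
  have h1 := sum_sc_le (H := H) (insert (orderOf g) F)
  rw [Finset.sum_insert hg, hF] at h1
  have h2 : sc H (orderOf g) ≠ 0 := sc_ne_zero g rfl
  omega

/-- an element of prime order `p` centralises some element of any conjugation-stable finite set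
whose cardinality is prime to `p` -/
theorem nse_exists_commute (y : H) {p : ℕ} [Fact p.Prime] (hy : orderOf y = p) (S : Set H)
    (hS : ∀ x ∈ S, y * x * y⁻¹ ∈ S) (hcard : ¬ p ∣ S.ncard) : ∃ x ∈ S, Commute y x := by
  classical
  have : Fintype H := Fintype.ofFinite H
  have hfin : Fintype ↥S := Fintype.ofFinite _
  let f : Function.End ↥S := fun x => ⟨y * x.1 * y⁻¹, hS x.1 x.2⟩
  have hpow : ∀ n : ℕ, ∀ x : ↥S, ((f ^ n) x : H) = y ^ n * x.1 * (y ^ n)⁻¹ := by
    intro n
    induction n with
    | zero =>
      intro x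
      rw [pow_zero, pow_zero]
      show (x : H) = 1 * (x : H) * 1⁻¹
      simp
    | succ n ih =>
      intro x
      have h1 : (f ^ (n + 1)) x = (f ^ n) (f x) := by rw [pow_succ]; rfl
      rw [h1, ih]
      show y ^ n * (y * x.1 * y⁻¹) * (y ^ n)⁻¹ = y ^ (n + 1) * x.1 * (y ^ (n + 1))⁻¹
      rw [pow_succ, mul_inv_rev]
      group
  have hf : f ^ p ^ 1 = 1 := by
    funext x
    apply Subtype.ext
    rw [pow_one, hpow, ← hy, pow_orderOf_eq_one]
    simp
    rfl
  have hmod := Equiv.Perm.card_fixedPoints_modEq (f := f) (p := p) (n := 1) hf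
  have hcard' : Fintype.card ↥S = S.ncard := by
    rw [← Nat.card_eq_fintype_card, Nat.card_coe_set_eq]
  rw [hcard'] at hmod
  have hne : Fintype.card (Function.fixedPoints f) ≠ 0 := by
    intro h0
    rw [h0] at hmod
    exact hcard ((Nat.modEq_zero_iff_dvd).mp hmod)
  obtain ⟨⟨x, hx⟩⟩ := Fintype.card_pos_iff.mp (Nat.pos_of_ne_zero hne)
  refine ⟨x.1, x.2, ?_⟩
  have h1 : y * x.1 * y⁻¹ = x.1 := congrArg Subtype.val hx
  show y * x.1 = x.1 * y
  calc y * x.1 = (y * x.1 * y⁻¹) * y := by group
    _ = x.1 * y := by rw [h1]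

/-- the non-identity elements of a subgroup -/
theorem nse_ncard_diff_one (N : Subgroup H) :
    ((N : Set H) \ {1}).ncard = Nat.card N - 1 := by
  rw [Set.ncard_sdiff_singleton_of_mem N.one_mem, ← Nat.card_coe_set_eq]
  rfl

/-- two commuting elements of coprime orders whose product of orders is not an element order -/
theorem nse_contra_of_commute (F : Finset ℕ) (hord : ∀ g : H, orderOf g ∈ F) (y x : H)
    (hc : Commute y x) (hcop : (orderOf y).Coprime (orderOf x))
    (hF : orderOf y * orderOf x ∉ F) : False := by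
  have h1 := hc.orderOf_mul_eq_mul_orderOf_of_coprime hcop
  exact hF (h1 ▸ hord (y * x))

/-- an element of prime order `p` centralises some element of order `q` of a normal subgroup
that has such elements, but fewer than `p` of them -/
theorem nse_exists_commute_order (N : Subgroup H) [hN : N.Normal] (y : H) {p : ℕ} [Fact p.Prime]
    (hy : orderOf y = p) (q : ℕ) (hne : ∃ x ∈ N, orderOf x = q)
    (hcard : {x : H | x ∈ N ∧ orderOf x = q}.ncard < p) :
    ∃ x ∈ N, orderOf x = q ∧ Commute y x := by
  obtain ⟨x0, hx0, hx0q⟩ := hne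
  have hpos : 0 < {x : H | x ∈ N ∧ orderOf x = q}.ncard :=
    (Set.ncard_pos (Set.toFinite _)).mpr ⟨x0, hx0, hx0q⟩
  obtain ⟨x, hx, hxy⟩ := nse_exists_commute y hy {x : H | x ∈ N ∧ orderOf x = q}
    (by
      intro x hx
      refine ⟨hN.conj_mem x hx.1 y, ?_⟩
      rw [orderOf_conj']
      exact hx.2)
    (by
      intro h
      have := Nat.le_of_dvd hpos h
      omega)
  exact ⟨x, hx.1, hx.2, hxy⟩

/-- the conjugates of the non-identity elements of a normal subgroup -/
theorem nse_conj_mem_diff_one (N : Subgroup H) [hN : N.Normal] (y : H) :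
    ∀ x ∈ ((N : Set H) \ {1}), y * x * y⁻¹ ∈ ((N : Set H) \ {1}) := by
  intro x hx
  refine ⟨hN.conj_mem x hx.1 y, ?_⟩
  intro h
  apply hx.2
  have h1 : y * x * y⁻¹ = 1 := h
  exact conj_eq_one_iff.mp h1

end Cfsg.Agent.Helper73
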