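import Mathlib
import Cfsg.Agent.Helper27.SameOrderA
import Cfsg.Agent.Helper73.NseSimpAux

set_option autoImplicit false

namespace Cfsg.Agent.Helper73

open Cfsg.Agent.Helper27.SO

variable {H : Type*} [Group H] [Finite H]

theorem nse360_arith_a (n i : ℕ) (h : n * i = 360) (h145 : 145 ≤ n) (h1 : i ≠ 1) :
    n = 180 ∧ i = 2 := by
  have hi : i ≤ 2 := by
    by_contra hcon
    push Not at hcon
    nlinarith
  interval_cases i <;> omega

theorem nse360_arith_b (n i : ℕ) (h : n * i = 360) (h5 : ¬ 5 ∣ n) (h1 : n ≠ 1)
    (h51 : 5 ∣ n - 1) : (n = 6 ∧ i = 60) ∨ (n = 36 ∧ i = 10) := by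
  have h72 : n ∣ 72 := by
    have hcop : Nat.Coprime n 5 :=
      ((Nat.Prime.coprime_iff_not_dvd Nat.prime_five).mpr h5).symm
    have hd : n ∣ 72 * 5 := ⟨i, by omega⟩
    exact hcop.dvd_of_dvd_mul_right hd
  have hn : n ≤ 72 := Nat.le_of_dvd (by norm_num) h72
  interval_cases n <;> omega

/-- PIECE SIMP360 of CALL S3431 -/
theorem simple_of_sc_360 (hc : Nat.card H = 360) (h2 : sc H 2 = 45) (h3 : sc H 3 = 80)
    (h4 : sc H 4 = 90) (h5 : sc H 5 = 144) : IsSimpleGroup H := by
  classical
  have hord : ∀ g : H, orderOf g ∈ ({1, 2, 3, 4, 5} : Finset ℕ) := by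
    intro g
    apply nse_orderOf_mem
    rw [Finset.sum_insert (by decide), Finset.sum_insert (by decide),
      Finset.sum_insert (by decide), Finset.sum_insert (by decide), Finset.sum_singleton,
      sc_one, h2, h3, h4, h5, hc]
    norm_num
  have hnt : Nontrivial H := by
    apply (Finite.one_lt_card_iff_nontrivial).mp
    rw [hc]; norm_num
  refine { toNontrivial := hnt, eq_bot_or_eq_top_of_normal := fun N hN => ?_ }
  by_contra hcon
  push Not at hcon
  obtain ⟨hbot, htop⟩ := hcon
  have hmul : Nat.card N * N.index = 360 := by rw [Subgroup.card_mul_index, hc]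
  have hn1 : Nat.card N ≠ 1 := fun h => hbot (Subgroup.card_eq_one.mp h)
  have hi1 : N.index ≠ 1 := fun h => htop (Subgroup.index_eq_one.mp h)
  obtain ⟨y, hy⟩ : ∃ y : H, orderOf y = 5 := exists_of_sc_ne_zero (by rw [h5]; norm_num)
  have hmem : ∀ d : ℕ, d.Coprime N.index → ∀ g : H, orderOf g = d → g ∈ N := by
    intro d hd g hg
    exact nse_mem_normal_of_coprime_index N g (by rw [hg]; exact hd)
  have : Fact (Nat.Prime 5) := ⟨Nat.prime_five⟩
  by_cases h5n : 5 ∣ Nat.card N
  · have hcop : Nat.Coprime 5 N.index := by
      rw [Nat.Prime.coprime_iff_not_dvd Nat.prime_five]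
      intro h
      have h25 := Nat.mul_dvd_mul h5n h
      rw [hmul] at h25
      omega
    have h145 : 145 ≤ Nat.card N := by
      have hle := nse_sum_sc_le_card N {1, 5} (by
        intro d hd g hg
        simp only [Finset.mem_insert, Finset.mem_singleton] at hd
        rcases hd with rfl | rfl
        · exact hmem 1 (Nat.coprime_one_left _) g hg
        · exact hmem 5 hcop g hg)
      rw [Finset.sum_insert (by decide), Finset.sum_singleton, sc_one, h5] at hle
      omega
    obtain ⟨hn, hi⟩ := nse360_arith_a _ _ hmul h145 hi1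
    have hle := nse_sum_sc_le_card N {1, 3, 5} (by
      intro d hd g hg
      simp only [Finset.mem_insert, Finset.mem_singleton] at hd
      rcases hd with rfl | rfl | rfl
      · exact hmem 1 (Nat.coprime_one_left _) g hg
      · exact hmem 3 (by rw [hi]; decide) g hg
      · exact hmem 5 hcop g hg)
    rw [Finset.sum_insert (by decide), Finset.sum_insert (by decide), Finset.sum_singleton,
      sc_one, h3, h5] at hle
    omega
  · -- a non-identity element of `N` commuting with `y` is impossible
    have hkey : ∀ x ∈ N, x ≠ 1 → Commute y x → False := by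
      intro x hxN hx1 hxy
      have hdvd : orderOf x ∣ Nat.card N := Subgroup.orderOf_dvd_natCard N hxN
      have hox := hord x
      simp only [Finset.mem_insert, Finset.mem_singleton] at hox
      rcases hox with h | h | h | h | h
      · exact hx1 (orderOf_eq_one_iff.mp h)
      · exact nse_contra_of_commute _ hord y x hxy (by rw [hy, h]; decide)
          (by rw [hy, h]; decide)
      · exact nse_contra_of_commute _ hord y x hxy (by rw [hy, h]; decide)
          (by rw [hy, h]; decide)
      · exact nse_contra_of_commute _ hord y x hxy (by rw [hy, h]; decide)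
          (by rw [hy, h]; decide)
      · rw [h] at hdvd
        exact h5n hdvd
    by_cases h51 : 5 ∣ Nat.card N - 1
    · rcases nse360_arith_b _ _ hmul h5n hn1 h51 with ⟨hn, hi⟩ | ⟨hn, hi⟩
      · -- `|N| = 6`
        obtain ⟨z, hz⟩ := exists_prime_orderOf_dvd_card' (G := N) 2 (by rw [hn]; decide)
        obtain ⟨t, ht⟩ := exists_prime_orderOf_dvd_card' (G := N) 3 (by rw [hn]; decide)
        rw [← Subgroup.orderOf_coe] at hz ht
        have hsub : {x : H | x ∈ N ∧ orderOf x = 3} ⊆ (((N : Set H) \ {1}) \ {(z : H)}) := by
          intro x hx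
          refine ⟨⟨hx.1, ?_⟩, ?_⟩
          · intro h
            have h1 : x = 1 := h
            have h3' : orderOf x = 3 := hx.2
            rw [h1, orderOf_one] at h3'
            exact absurd h3' (by norm_num)
          · intro h
            have h1 : x = (z : H) := h
            have h3' : orderOf x = 3 := hx.2
            rw [h1, hz] at h3'
            exact absurd h3' (by norm_num)
        have hz1 : (z : H) ∈ ((N : Set H) \ {1}) := by
          refine ⟨z.2, ?_⟩
          intro h
          have h1 : (z : H) = 1 := h
          rw [h1, orderOf_one] at hz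
          exact absurd hz (by norm_num)
        have hle := Set.ncard_le_ncard hsub (Set.toFinite _)
        rw [Set.ncard_sdiff_singleton_of_mem hz1, nse_ncard_diff_one, hn] at hle
        obtain ⟨x, hxN, hx3, hxy⟩ := nse_exists_commute_order N y hy 3 ⟨t, t.2, ht⟩
          (by omega)
        refine hkey x hxN ?_ hxy
        intro h
        rw [h, orderOf_one] at hx3
        exact absurd hx3 (by norm_num)
      · -- `|N| = 36`
        have hle := nse_sum_sc_le_card N {1, 3} (by
          intro d hd g hg
          simp only [Finset.mem_insert, Finset.mem_singleton] at hd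
          rcases hd with rfl | rfl
          · exact hmem 1 (Nat.coprime_one_left _) g hg
          · exact hmem 3 (by rw [hi]; decide) g hg)
        rw [Finset.sum_insert (by decide), Finset.sum_singleton, sc_one, h3] at hle
        omega
    · obtain ⟨x, hxS, hxy⟩ := nse_exists_commute y hy ((N : Set H) \ {1})
        (nse_conj_mem_diff_one N y) (by rw [nse_ncard_diff_one]; exact h51)
      exact hkey x hxS.1 hxS.2 hxy

end Cfsg.Agent.Helper73
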