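import Mathlib
import Cfsg.Agent.Helper27.SameOrderA
import Cfsg.Agent.Helper73.NseSimpAux

set_option autoImplicit false

namespace Cfsg.Agent.Helper73

open Cfsg.Agent.Helper27.SO

variable {H : Type*} [Group H] [Finite H]

theorem nse60_arith_a (n i : ℕ) (h : n * i = 60) (h25 : 25 ≤ n) (h1 : i ≠ 1) :
    n = 30 ∧ i = 2 := by
  have hn : n ≤ 60 := Nat.le_of_dvd (by norm_num) ⟨i, h.symm⟩
  interval_cases n <;> omega

theorem nse60_arith_b (n i : ℕ) (h : n * i = 60) (h5 : ¬ 5 ∣ n) : n ≤ 12 := by
  have hn : n ≤ 60 := Nat.le_of_dvd (by norm_num) ⟨i, h.symm⟩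
  interval_cases n <;> omega

theorem nse60_arith_c (n i : ℕ) (h : n * i = 60) (h5 : ¬ 5 ∣ n) (h3 : ¬ 3 ∣ n) (h1 : n ≠ 1) :
    n = 2 ∨ n = 4 := by
  have hn : n ≤ 60 := Nat.le_of_dvd (by norm_num) ⟨i, h.symm⟩
  interval_cases n <;> omega

/-- PIECE SIMP60 of CALL S3431 -/
theorem simple_of_sc_60 (hc : Nat.card H = 60) (h2 : sc H 2 = 15) (h3 : sc H 3 = 20)
    (h5 : sc H 5 = 24) : IsSimpleGroup H := by
  classical
  have hord : ∀ g : H, orderOf g ∈ ({1, 2, 3, 5} : Finset ℕ) := by
    intro g
    apply nse_orderOf_mem
    rw [Finset.sum_insert (by decide), Finset.sum_insert (by decide),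
      Finset.sum_insert (by decide), Finset.sum_singleton, sc_one, h2, h3, h5, hc]
    norm_num
  have hnt : Nontrivial H := by
    apply (Finite.one_lt_card_iff_nontrivial).mp
    rw [hc]; norm_num
  refine { toNontrivial := hnt, eq_bot_or_eq_top_of_normal := fun N hN => ?_ }
  by_contra hcon
  push Not at hcon
  obtain ⟨hbot, htop⟩ := hcon
  have hmul : Nat.card N * N.index = 60 := by rw [Subgroup.card_mul_index, hc]
  have hn1 : Nat.card N ≠ 1 := fun h => hbot (Subgroup.card_eq_one.mp h)
  have hi1 : N.index ≠ 1 := fun h => htop (Subgroup.index_eq_one.mp h)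
  obtain ⟨y, hy⟩ : ∃ y : H, orderOf y = 5 := exists_of_sc_ne_zero (by rw [h5]; norm_num)
  have hmem : ∀ d : ℕ, d.Coprime N.index → ∀ g : H, orderOf g = d → g ∈ N := by
    intro d hd g hg
    exact nse_mem_normal_of_coprime_index N g (by rw [hg]; exact hd)
  by_cases h5n : 5 ∣ Nat.card N
  · have hcop : Nat.Coprime 5 N.index := by
      rw [Nat.Prime.coprime_iff_not_dvd Nat.prime_five]
      intro h
      have h25 := Nat.mul_dvd_mul h5n h
      rw [hmul] at h25
      omega
    have h25 : 25 ≤ Nat.card N := by
      have hle := nse_sum_sc_le_card N {1, 5} (by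
        intro d hd g hg
        simp only [Finset.mem_insert, Finset.mem_singleton] at hd
        rcases hd with rfl | rfl
        · exact hmem 1 (Nat.coprime_one_left _) g hg
        · exact hmem 5 hcop g hg)
      rw [Finset.sum_insert (by decide), Finset.sum_singleton, sc_one, h5] at hle
      omega
    obtain ⟨hn, hi⟩ := nse60_arith_a _ _ hmul h25 hi1
    have hle := nse_sum_sc_le_card N {1, 3, 5} (by
      intro d hd g hg
      simp only [Finset.mem_insert, Finset.mem_singleton] at hd
      rcases hd with rfl | rfl | rfl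
      · exact hmem 1 (Nat.coprime_one_left _) g hg
      · exact hmem 3 (by rw [hi]; decide) g hg
      · exact hmem 5 hcop g hg)
    rw [Finset.sum_insert (by decide), Finset.sum_insert (by decide), Finset.sum_singleton,
      sc_one, h3, h5] at hle
    omega
  · by_cases h3n : 3 ∣ Nat.card N
    · have hcop : Nat.Coprime 3 N.index := by
        rw [Nat.Prime.coprime_iff_not_dvd Nat.prime_three]
        intro h
        have h9 := Nat.mul_dvd_mul h3n h
        rw [hmul] at h9
        omega
      have hle := nse_sum_sc_le_card N {1, 3} (by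
        intro d hd g hg
        simp only [Finset.mem_insert, Finset.mem_singleton] at hd
        rcases hd with rfl | rfl
        · exact hmem 1 (Nat.coprime_one_left _) g hg
        · exact hmem 3 hcop g hg)
      rw [Finset.sum_insert (by decide), Finset.sum_singleton, sc_one, h3] at hle
      have h12 := nse60_arith_b _ _ hmul h5n
      omega
    · have hn24 := nse60_arith_c _ _ hmul h5n h3n hn1
      have : Fact (Nat.Prime 5) := ⟨Nat.prime_five⟩
      obtain ⟨x, hxS, hxy⟩ := nse_exists_commute y hy ((N : Set H) \ {1})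
        (nse_conj_mem_diff_one N y) (by
          rw [nse_ncard_diff_one]
          rcases hn24 with h | h <;> rw [h] <;> omega)
      have hxN : x ∈ N := hxS.1
      have hx1 : x ≠ 1 := hxS.2
      have hdvd : orderOf x ∣ Nat.card N := Subgroup.orderOf_dvd_natCard N hxN
      have hox := hord x
      simp only [Finset.mem_insert, Finset.mem_singleton] at hox
      rcases hox with h | h | h | h
      · exact hx1 (orderOf_eq_one_iff.mp h)
      · exact nse_contra_of_commute _ hord y x hxy (by rw [hy, h]; decide)
          (by rw [hy, h]; decide)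
      · rw [h] at hdvd
        exact h3n hdvd
      · rw [h] at hdvd
        exact h5n hdvd

end Cfsg.Agent.Helper73
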