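import Cfsg.Agent.Helper73.HKExist
import Cfsg.Agent.Helper79.KnorrD

/-!
# Harris–Knörr: uniqueness

* `hk_induced_unique`: a block induces at most one block.
* `hk_induced_trans`: transitivity of block induction through an intermediate subgroup.
* `hk_gfmt_defect`, `hk_gfmt_unique`: Brauer's first main theorem for a subgroup `H ⊇ N_G(P)`:
  a block of `H` with defect group `P` induces a block of `G` with defect group `P`, and two
  blocks of `H` with defect group `P` inducing the same block coincide.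
* `hk_knorr_H`: a block of `N_G(Q)` covering the block `e` of `N_N(Q)` with defect group `Q` has
  a defect group `P` with `P ∩ N = Q` (Knörr).
* `hk_unique`: two blocks of `N_G(Q)` covering `e` and inducing the same block of `G` coincide.
-/

set_option autoImplicit false
open Cfsg

namespace Cfsg.Agent.Helper73

universe u

variable {G : Type u} [Group G] [Fintype G]

omit [Fintype G] in
/-- The induced block is unique. -/
theorem hk_induced_unique {M : Ideal Cfsg.AlgInt} (hM : M.IsMaximal) (H : Subgroup G)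
    {c : Set (Cfsg.IrrCharacter H)} {B₁ B₂ : Set (Cfsg.IrrCharacter G)}
    (h₁ : Cfsg.IsInducedBlock M H c B₁) (h₂ : Cfsg.IsInducedBlock M H c B₂) : B₁ = B₂ := by
  obtain ⟨ξ, hξ⟩ := Helper16.exists_mem_of_isPBlock hM h₁.1
  obtain ⟨χ₁, hχ₁⟩ := Helper16.exists_mem_of_isPBlock hM h₁.2.1
  obtain ⟨χ₂, hχ₂⟩ := Helper16.exists_mem_of_isPBlock hM h₂.2.1
  have hs : Cfsg.SameBlock M (χ₁ : G → ℂ) (χ₂ : G → ℂ) := by
    intro g
    have a := h₁.2.2 ξ hξ χ₁ hχ₁ g
    have b := h₂.2.2 ξ hξ χ₂ hχ₂ g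
    have := Helper77.memLocalIdeal_sub hM b a
    rwa [sub_sub_sub_cancel_left] at this
  rw [Helper16.eq_blockOf_of_mem hM h₁.2.1 hχ₁, Helper16.eq_blockOf_of_mem hM h₂.2.1 hχ₂]
  exact (Helper16.blockOf_eq_of_mem hM hs).symm

/-- Transitivity of block induction through an intermediate subgroup. -/
theorem hk_induced_trans {M : Ideal Cfsg.AlgInt} (hM : M.IsMaximal) {H L : Subgroup G}
    (hLH : L ≤ H) [Fintype H] [Fintype L]
    {b' : Set (Cfsg.IrrCharacter ↥(L.subgroupOf H))} {c : Set (Cfsg.IrrCharacter H)}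
    {B : Set (Cfsg.IrrCharacter G)}
    (h₁ : Cfsg.IsInducedBlock M (L.subgroupOf H) b' c) (h₂ : Cfsg.IsInducedBlock M H c B) :
    Cfsg.IsInducedBlock M L
      (Helper75.irrComp (Subgroup.subgroupOfEquivOfLe hLH).symm '' b') B := by
  classical
  refine ⟨Helper75.isPBlock_image_irrComp _ h₁.1, h₂.2.1, ?_⟩
  rintro _ ⟨ξ', hξ', rfl⟩ χ hχ g
  obtain ⟨ψ, hψ⟩ := Helper16.exists_mem_of_isPBlock hM h₂.1
  have : Fintype ↥(L.subgroupOf H) := Fintype.ofFinite _
  have key := Helper16.inducedCentralChar_trans hM hLH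
    (Helper75.irrComp (Subgroup.subgroupOfEquivOfLe hLH).symm ξ' : L → ℂ) ψ ?_ g
  · have := Helper77.memLocalIdeal_add hM key (h₂.2.2 ψ hψ χ hχ g)
    rwa [sub_add_sub_cancel] at this
  · intro n
    have e1 : (fun k : ↥(L.subgroupOf H) =>
        (Helper75.irrComp (Subgroup.subgroupOfEquivOfLe hLH).symm ξ' : L → ℂ)
          (Subgroup.subgroupOfEquivOfLe hLH k)) = (ξ' : ↥(L.subgroupOf H) → ℂ) := by
      funext k
      rw [Helper75.irrComp_apply, MulEquiv.symm_apply_apply]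
    rw [e1]
    exact h₁.2.2 ξ' hξ' ψ hψ n

omit [Fintype G] in
theorem hk_subgroupOf_normalizer {H P : Subgroup G} (hPH : P ≤ H) :
    (Subgroup.normalizer (P : Set G)).subgroupOf H
      = Subgroup.normalizer ((P.subgroupOf H : Subgroup H) : Set H) := by
  ext x
  rw [Subgroup.mem_subgroupOf, Subgroup.mem_normalizer_iff, Subgroup.mem_normalizer_iff]
  constructor
  · intro h y
    rw [Subgroup.mem_subgroupOf, Subgroup.mem_subgroupOf]
    exact h y
  · intro h g
    constructor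
    · intro hg
      have := (h ⟨g, hPH hg⟩).mp (by rw [Subgroup.mem_subgroupOf]; exact hg)
      rw [Subgroup.mem_subgroupOf] at this
      exact this
    · intro hg
      have hgH : g ∈ H := by
        have h1 : (x : G) * g * (x : G)⁻¹ ∈ H := hPH hg
        have h2 := H.mul_mem (H.mul_mem (H.inv_mem x.2) h1) x.2
        have e : (x : G)⁻¹ * ((x : G) * g * (x : G)⁻¹) * (x : G) = g := by group
        rwa [e] at h2
      have := (h ⟨g, hgH⟩).mpr (by rw [Subgroup.mem_subgroupOf]; exact hg)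
      rw [Subgroup.mem_subgroupOf] at this
      exact this

/-- `fmt_exists` for a subgroup equal to the normalizer. -/
theorem hk_fmt_exists_gen {p : ℕ} [Fact p.Prime] {M : Ideal Cfsg.AlgInt}
    (hM : Cfsg.IsPModular p M) (D : Subgroup G) (K' : Subgroup G)
    (hK' : K' = Subgroup.normalizer (D : Set G)) [Fintype K']
    {B : Set (Cfsg.IrrCharacter G)} (hB : Cfsg.IsPBlock M B)
    (hDB : Cfsg.IsDefectGroup p M B D) :
    ∃ b : Set (Cfsg.IrrCharacter K'), Cfsg.IsPBlock M b ∧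
      Cfsg.IsDefectGroup p M b (D.subgroupOf K') ∧ Cfsg.IsInducedBlock M K' b B := by
  subst hK'
  exact Helper16.fmt_exists hM D hB hDB

/-- The Brauer correspondent in `N_G(P)` of a block of `H ⊇ N_G(P)` with defect group `P`. -/
theorem hk_gfmt_data {p : ℕ} [Fact p.Prime] {M : Ideal Cfsg.AlgInt}
    (hM : Cfsg.IsPModular p M) {H P : Subgroup G} [Fintype H] (hPH : P ≤ H)
    (hNH : Subgroup.normalizer (P : Set G) ≤ H) [Fintype ↥(Subgroup.normalizer (P : Set G))]
    {c : Set (Cfsg.IrrCharacter H)} (hc : Cfsg.IsPBlock M c)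
    (hP : Cfsg.IsDefectGroup p M c (P.subgroupOf H)) :
    ∃ b' : Set (Cfsg.IrrCharacter ↥((Subgroup.normalizer (P : Set G)).subgroupOf H)),
      Cfsg.IsInducedBlock M ((Subgroup.normalizer (P : Set G)).subgroupOf H) b' c ∧
      Cfsg.IsDefectGroup p M (Helper75.irrComp (Subgroup.subgroupOfEquivOfLe hNH).symm '' b')
        (P.subgroupOf (Subgroup.normalizer (P : Set G))) := by
  classical
  have : Fintype ↥((Subgroup.normalizer (P : Set G)).subgroupOf H) := Fintype.ofFinite _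
  obtain ⟨b', hb', hD', hind'⟩ := hk_fmt_exists_gen hM (P.subgroupOf H) _
    (hk_subgroupOf_normalizer hPH) hc hP
  refine ⟨b', hind', ?_⟩
  have h1 := Helper75.isDefectGroup_image_irrComp (Subgroup.subgroupOfEquivOfLe hNH).symm hD'
  have h2 : ((P.subgroupOf H).subgroupOf ((Subgroup.normalizer (P : Set G)).subgroupOf H)).comap
      (Subgroup.subgroupOfEquivOfLe hNH).symm.toMonoidHom
        = P.subgroupOf (Subgroup.normalizer (P : Set G)) := by
    ext x
    rfl
  rw [h2] at h1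
  exact h1

/-- **First main theorem for `H ⊇ N_G(P)`, defect groups.** -/
theorem hk_gfmt_defect {p : ℕ} [Fact p.Prime] {M : Ideal Cfsg.AlgInt}
    (hM : Cfsg.IsPModular p M) {H P : Subgroup G} [Fintype H] (hPp : IsPGroup p P) (hPH : P ≤ H)
    (hNH : Subgroup.normalizer (P : Set G) ≤ H)
    {c : Set (Cfsg.IrrCharacter H)} {B : Set (Cfsg.IrrCharacter G)}
    (hP : Cfsg.IsDefectGroup p M c (P.subgroupOf H)) (hind : Cfsg.IsInducedBlock M H c B) :
    Cfsg.IsDefectGroup p M B P := by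
  classical
  have : Fintype ↥(Subgroup.normalizer (P : Set G)) := Fintype.ofFinite _
  obtain ⟨b', hb', hD⟩ := hk_gfmt_data hM hPH hNH hind.1 hP
  exact Helper16.fmt_defectGroup hM P hPp (hk_induced_trans hM.2.1 hNH hb' hind) hD

/-- **First main theorem for `H ⊇ N_G(P)`, uniqueness.** -/
theorem hk_gfmt_unique {p : ℕ} [Fact p.Prime] {M : Ideal Cfsg.AlgInt}
    (hM : Cfsg.IsPModular p M) {H P : Subgroup G} [Fintype H] (hPp : IsPGroup p P) (hPH : P ≤ H)
    (hNH : Subgroup.normalizer (P : Set G) ≤ H)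
    {c₁ c₂ : Set (Cfsg.IrrCharacter H)} {B : Set (Cfsg.IrrCharacter G)}
    (hP₁ : Cfsg.IsDefectGroup p M c₁ (P.subgroupOf H))
    (hP₂ : Cfsg.IsDefectGroup p M c₂ (P.subgroupOf H))
    (hind₁ : Cfsg.IsInducedBlock M H c₁ B) (hind₂ : Cfsg.IsInducedBlock M H c₂ B) :
    c₂ = c₁ := by
  classical
  have : Fintype ↥(Subgroup.normalizer (P : Set G)) := Fintype.ofFinite _
  obtain ⟨b₁, hb₁, hD₁⟩ := hk_gfmt_data hM hPH hNH hind₁.1 hP₁
  obtain ⟨b₂, hb₂, hD₂⟩ := hk_gfmt_data hM hPH hNH hind₂.1 hP₂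
  have h1 := Helper16.fmt_unique hM P hPp hD₁ (hk_induced_trans hM.2.1 hNH hb₁ hind₁)
    (hk_induced_trans hM.2.1 hNH hb₂ hind₂)
  have h2 : b₂ = b₁ := (Helper75.irrComp_injective _).image_injective h1
  subst h2
  exact hk_induced_unique hM.2.1 _ hb₂ hb₁

omit [Fintype G] in
theorem hk_normalizer_le (N : Subgroup G) [hN : N.Normal] {P Q : Subgroup G} (h : P ⊓ N = Q) :
    Subgroup.normalizer (P : Set G) ≤ Subgroup.normalizer (Q : Set G) := by
  intro g hg
  rw [Subgroup.mem_normalizer_iff] at hg ⊢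
  intro x
  rw [← h, Subgroup.mem_inf, Subgroup.mem_inf, hg x]
  constructor
  · rintro ⟨h1, h2⟩
    exact ⟨h1, hN.conj_mem x h2 g⟩
  · rintro ⟨h1, h2⟩
    refine ⟨h1, ?_⟩
    have := hN.conj_mem _ h2 g⁻¹
    simpa [mul_assoc] using this

/-- **Knörr inside `N_G(Q)`**: a block of `N_G(Q)` covering the block `e` of `N_N(Q)` with defect
group `Q` has a defect group `P` with `P ∩ N = Q`. -/
theorem hk_knorr_H {p : ℕ} [Fact p.Prime] {M : Ideal Cfsg.AlgInt} (hM : Cfsg.IsPModular p M)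
    (N : Subgroup G) [hN : N.Normal] (Q : Subgroup G) (hQN : Q ≤ N)
    [Fintype ↥(Subgroup.normalizer (Q : Set G) ⊓ N)]
    [Fintype ↥(Subgroup.normalizer (Q : Set G))]
    {e : Set (Cfsg.IrrCharacter ↥(Subgroup.normalizer (Q : Set G) ⊓ N))}
    (he : Cfsg.IsPBlock M e)
    (heQ : Cfsg.IsDefectGroup p M e (Q.subgroupOf (Subgroup.normalizer (Q : Set G) ⊓ N)))
    {c : Set (Cfsg.IrrCharacter ↥(Subgroup.normalizer (Q : Set G)))} (hc : Cfsg.IsPBlock M c)
    (hcov : ∃ ψ ∈ c, ∃ ξ ∈ e, Cfsg.classInner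
      (fun l : ↥(Subgroup.normalizer (Q : Set G) ⊓ N) =>
        (ψ : ↥(Subgroup.normalizer (Q : Set G)) → ℂ) (Subgroup.inclusion inf_le_left l))
      (ξ : ↥(Subgroup.normalizer (Q : Set G) ⊓ N) → ℂ) ≠ 0) :
    ∃ P : Subgroup G, IsPGroup p P ∧ P ≤ Subgroup.normalizer (Q : Set G) ∧ P ⊓ N = Q ∧
      Cfsg.IsDefectGroup p M c (P.subgroupOf (Subgroup.normalizer (Q : Set G))) := by
  classical
  have hKH : Subgroup.normalizer (Q : Set G) ⊓ N ≤ Subgroup.normalizer (Q : Set G) := inf_le_left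
  have hnorm : ((Subgroup.normalizer (Q : Set G) ⊓ N).subgroupOf
      (Subgroup.normalizer (Q : Set G))).Normal := by
    have e1 : (Subgroup.normalizer (Q : Set G) ⊓ N).subgroupOf (Subgroup.normalizer (Q : Set G))
        = N.subgroupOf (Subgroup.normalizer (Q : Set G)) := by
      ext x
      rw [Subgroup.mem_subgroupOf, Subgroup.mem_subgroupOf, Subgroup.mem_inf]
      exact ⟨fun h => h.2, fun h => ⟨x.2, h⟩⟩
    rw [e1]
    exact hN.subgroupOf _
  have : Fintype ↥((Subgroup.normalizer (Q : Set G) ⊓ N).subgroupOf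
      (Subgroup.normalizer (Q : Set G))) := Fintype.ofFinite _
  have he' := Helper75.isPBlock_image_irrComp (Subgroup.subgroupOfEquivOfLe hKH) he
  have hD' := Helper75.isDefectGroup_image_irrComp (Subgroup.subgroupOfEquivOfLe hKH) heQ
  have e2 : (Q.subgroupOf (Subgroup.normalizer (Q : Set G) ⊓ N)).comap
      (Subgroup.subgroupOfEquivOfLe hKH).toMonoidHom
        = (Q.subgroupOf (Subgroup.normalizer (Q : Set G))).subgroupOf
          ((Subgroup.normalizer (Q : Set G) ⊓ N).subgroupOf (Subgroup.normalizer (Q : Set G))) := by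
    ext x
    rfl
  rw [e2] at hD'
  have hQK' : Q.subgroupOf (Subgroup.normalizer (Q : Set G))
      ≤ (Subgroup.normalizer (Q : Set G) ⊓ N).subgroupOf (Subgroup.normalizer (Q : Set G)) := by
    intro x hx
    rw [Subgroup.mem_subgroupOf] at hx ⊢
    exact ⟨x.2, hQN hx⟩
  have hcov' : ∃ ψ ∈ c, ∃ θ ∈ Helper75.irrComp (Subgroup.subgroupOfEquivOfLe hKH) '' e,
      Cfsg.classInner (fun n : ↥((Subgroup.normalizer (Q : Set G) ⊓ N).subgroupOf
        (Subgroup.normalizer (Q : Set G))) =>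
          (ψ : ↥(Subgroup.normalizer (Q : Set G)) → ℂ) n) (θ : _ → ℂ) ≠ 0 := by
    obtain ⟨ψ, hψ, ξ, hξ, hne⟩ := hcov
    refine ⟨ψ, hψ, _, ⟨ξ, hξ, rfl⟩, ?_⟩
    rw [← hk_classInner_comp (Subgroup.subgroupOfEquivOfLe hKH)] at hne
    exact hne
  obtain ⟨P', hP', hP'K⟩ := Helper79.knorr_exists
    ((Subgroup.normalizer (Q : Set G) ⊓ N).subgroupOf (Subgroup.normalizer (Q : Set G)))
    hM he' hc hcov' hQK' hD'
  refine ⟨P'.map (Subgroup.normalizer (Q : Set G)).subtype, ?_, ?_, ?_, ?_⟩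
  · obtain ⟨-, -, -, -, hp⟩ := Helper16.isDefectGroup_exists_data hP'
    exact hp.map _
  · rintro _ ⟨y, -, rfl⟩
    exact y.2
  · ext x
    constructor
    · rintro ⟨⟨y, hy, rfl⟩, hxN⟩
      have h1 : y ∈ P' ⊓ (Subgroup.normalizer (Q : Set G) ⊓ N).subgroupOf
          (Subgroup.normalizer (Q : Set G)) :=
        ⟨hy, Subgroup.mem_subgroupOf.mpr
          (show (y : G) ∈ Subgroup.normalizer (Q : Set G) ⊓ N from ⟨y.2, hxN⟩)⟩
      rw [hP'K, Subgroup.mem_subgroupOf] at h1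
      exact h1
    · intro hx
      have hxH : x ∈ Subgroup.normalizer (Q : Set G) := Subgroup.le_normalizer hx
      have h1 : (⟨x, hxH⟩ : ↥(Subgroup.normalizer (Q : Set G))) ∈
          P' ⊓ (Subgroup.normalizer (Q : Set G) ⊓ N).subgroupOf
            (Subgroup.normalizer (Q : Set G)) := by
        rw [hP'K, Subgroup.mem_subgroupOf]
        exact hx
      exact ⟨⟨⟨x, hxH⟩, h1.1, rfl⟩, hQN hx⟩
  · have h1 : (P'.map (Subgroup.normalizer (Q : Set G)).subtype).subgroupOf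
        (Subgroup.normalizer (Q : Set G)) = P' :=
      Subgroup.comap_map_eq_self_of_injective (Subgroup.subtype_injective _) P'
    rw [h1]
    exact hP'

/-- **Harris–Knörr, uniqueness.**  Two blocks of `N_G(Q)` covering `e` and inducing the same
block of `G` coincide. -/
theorem hk_unique {p : ℕ} [Fact p.Prime] {M : Ideal Cfsg.AlgInt} (hM : Cfsg.IsPModular p M)
    (N : Subgroup G) [hN : N.Normal] (Q : Subgroup G) (hQN : Q ≤ N)
    [Fintype ↥(Subgroup.normalizer (Q : Set G) ⊓ N)]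
    [Fintype ↥(Subgroup.normalizer (Q : Set G))]
    {e : Set (Cfsg.IrrCharacter ↥(Subgroup.normalizer (Q : Set G) ⊓ N))}
    (he : Cfsg.IsPBlock M e)
    (heQ : Cfsg.IsDefectGroup p M e (Q.subgroupOf (Subgroup.normalizer (Q : Set G) ⊓ N)))
    {B : Set (Cfsg.IrrCharacter G)}
    {c₁ c₂ : Set (Cfsg.IrrCharacter ↥(Subgroup.normalizer (Q : Set G)))}
    (hcov₁ : ∃ ψ ∈ c₁, ∃ ξ ∈ e, Cfsg.classInner
      (fun l : ↥(Subgroup.normalizer (Q : Set G) ⊓ N) =>
        (ψ : ↥(Subgroup.normalizer (Q : Set G)) → ℂ) (Subgroup.inclusion inf_le_left l))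
      (ξ : ↥(Subgroup.normalizer (Q : Set G) ⊓ N) → ℂ) ≠ 0)
    (hcov₂ : ∃ ψ ∈ c₂, ∃ ξ ∈ e, Cfsg.classInner
      (fun l : ↥(Subgroup.normalizer (Q : Set G) ⊓ N) =>
        (ψ : ↥(Subgroup.normalizer (Q : Set G)) → ℂ) (Subgroup.inclusion inf_le_left l))
      (ξ : ↥(Subgroup.normalizer (Q : Set G) ⊓ N) → ℂ) ≠ 0)
    (hind₁ : Cfsg.IsInducedBlock M (Subgroup.normalizer (Q : Set G)) c₁ B)
    (hind₂ : Cfsg.IsInducedBlock M (Subgroup.normalizer (Q : Set G)) c₂ B) : c₂ = c₁ := by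
  classical
  obtain ⟨P₁, hP₁p, hP₁H, hP₁N, hD₁⟩ := hk_knorr_H hM N Q hQN he heQ hind₁.1 hcov₁
  obtain ⟨P₂, hP₂p, hP₂H, hP₂N, hD₂⟩ := hk_knorr_H hM N Q hQN he heQ hind₂.1 hcov₂
  have hN₁ : Subgroup.normalizer (P₁ : Set G) ≤ Subgroup.normalizer (Q : Set G) :=
    hk_normalizer_le N hP₁N
  have hN₂ : Subgroup.normalizer (P₂ : Set G) ≤ Subgroup.normalizer (Q : Set G) :=
    hk_normalizer_le N hP₂N
  have hB := hind₁.2.1
  have hB₁ := hk_gfmt_defect hM hP₁p hP₁H hN₁ hD₁ hind₁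
  have hB₂ := hk_gfmt_defect hM hP₂p hP₂H hN₂ hD₂ hind₂
  obtain ⟨x, hx⟩ := Helper16.isDefectGroup_conjLE hM hB hB₁ hB₂
  have hcard := Helper16.isDefectGroup_card_eq hM hB hB₁ hB₂
  have hxQ : x ∈ Subgroup.normalizer (Q : Set G) := by
    apply hk_mem_normalizer_of_conj_le Q x
    intro q hq
    rw [← hP₁N] at hq
    rw [← hP₂N]
    exact ⟨hx q hq.1, hN.conj_mem q hq.2 x⟩
  have hPeq : P₁.map (MulAut.conj x).toMonoidHom = P₂ := by
    apply Subgroup.eq_of_le_of_card_ge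
    · rintro _ ⟨q, hq, rfl⟩
      exact hx q hq
    · rw [Subgroup.card_map_of_injective (MulAut.conj x).injective, hcard]
  have hD₁' : Cfsg.IsDefectGroup p M c₁ (P₂.subgroupOf (Subgroup.normalizer (Q : Set G))) := by
    have h1 := Helper16.isDefectGroup_conj hD₁ (⟨x, hxQ⟩ : ↥(Subgroup.normalizer (Q : Set G)))
    have h2 : (P₁.subgroupOf (Subgroup.normalizer (Q : Set G))).map
        (MulAut.conj (⟨x, hxQ⟩ : ↥(Subgroup.normalizer (Q : Set G)))).toMonoidHom
          = P₂.subgroupOf (Subgroup.normalizer (Q : Set G)) := by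
      ext y
      rw [Subgroup.mem_map, Subgroup.mem_subgroupOf, ← hPeq, Subgroup.mem_map]
      constructor
      · rintro ⟨z, hz, rfl⟩
        exact ⟨(z : G), Subgroup.mem_subgroupOf.mp hz, rfl⟩
      · rintro ⟨q, hq, hqy⟩
        exact ⟨⟨q, hP₁H hq⟩, Subgroup.mem_subgroupOf.mpr hq, Subtype.ext hqy⟩
    rw [h2] at h1
    exact h1
  exact hk_gfmt_unique hM hP₂p hP₂H hN₂ hD₁' hD₂ hind₁ hind₂

end Cfsg.Agent.Helper73
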