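import Mathlib
import Cfsg.Agent.Helper3.FHDefs

/-!
CALL S1142-LA, piece P14 (owner helper3): the central element `z` of a rank 2 Hecke
configuration has many eigenvalues: a nonzero polynomial killing `z` has degree `> m / 2`.
-/

set_option autoImplicit false

namespace Cfsg.Agent.Helper73

open Cfsg.Agent.Helper3.FH Real

variable {Ω : Type*} [Fintype Ω] [DecidableEq Ω]

namespace FH14

/-- Frobenius inner product of two real matrices -/
def ip (M N : Matrix Ω Ω ℝ) : ℝ := (M.transpose * N).trace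

theorem ip_eq (M N : Matrix Ω Ω ℝ) : ip M N = ∑ x, ∑ y, M y x * N y x := by
  simp [ip, Matrix.trace, Matrix.mul_apply, Matrix.transpose_apply]

theorem ip_add (M N N' : Matrix Ω Ω ℝ) : ip M (N + N') = ip M N + ip M N' := by
  simp [ip, Matrix.mul_add, Matrix.trace_add]

theorem ip_smul (M N : Matrix Ω Ω ℝ) (c : ℝ) : ip M (c • N) = c * ip M N := by
  simp [ip, Matrix.mul_smul, Matrix.trace_smul]

theorem ip_zero (M : Matrix Ω Ω ℝ) : ip M 0 = 0 := by simp [ip]

theorem ip_sum {ι : Type*} (s : Finset ι) (M : Matrix Ω Ω ℝ) (f : ι → Matrix Ω Ω ℝ) :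
    ip M (∑ i ∈ s, f i) = ∑ i ∈ s, ip M (f i) := by
  classical
  induction s using Finset.induction_on with
  | empty => simp [ip_zero]
  | insert a s ha ih => rw [Finset.sum_insert ha, Finset.sum_insert ha, ip_add, ih]

/-- entrywise nonnegative matrices -/
def NN (M : Matrix Ω Ω ℝ) : Prop := ∀ x y, 0 ≤ M x y

theorem NN.mul {M N : Matrix Ω Ω ℝ} (hM : NN M) (hN : NN N) : NN (M * N) := by
  intro x y
  rw [Matrix.mul_apply]
  exact Finset.sum_nonneg (fun k _ => mul_nonneg (hM x k) (hN k y))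

theorem NN.add {M N : Matrix Ω Ω ℝ} (hM : NN M) (hN : NN N) : NN (M + N) := by
  intro x y
  rw [Matrix.add_apply]
  exact add_nonneg (hM x y) (hN x y)

theorem NN_one : NN (1 : Matrix Ω Ω ℝ) := by
  intro x y
  rw [Matrix.one_apply]
  split_ifs <;> norm_num

theorem NN.pow {M : Matrix Ω Ω ℝ} (hM : NN M) (d : ℕ) : NN (M ^ d) := by
  induction d with
  | zero => rw [pow_zero]; exact NN_one
  | succ d ih => rw [pow_succ]; exact ih.mul hM

theorem ip_nonneg {M N : Matrix Ω Ω ℝ} (hM : NN M) (hN : NN N) : 0 ≤ ip M N := by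
  rw [ip_eq]
  exact Finset.sum_nonneg (fun x _ => Finset.sum_nonneg (fun y _ => mul_nonneg (hM y x) (hN y x)))

/-- span of the alternating products of length at most `i` -/
def F (a b : Matrix Ω Ω ℝ) (i : ℕ) : Submodule ℝ (Matrix Ω Ω ℝ) :=
  Submodule.span ℝ ({M | ∃ l ≤ i, M = altProd a b l} ∪ {M | ∃ l ≤ i, M = altProd b a l})

theorem F_comm (a b : Matrix Ω Ω ℝ) (i : ℕ) : F a b i = F b a i := by
  unfold F; rw [Set.union_comm]

theorem altA_mem_F (a b : Matrix Ω Ω ℝ) {l i : ℕ} (h : l ≤ i) : altProd a b l ∈ F a b i :=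
  Submodule.subset_span (Or.inl ⟨l, h, rfl⟩)

theorem altB_mem_F (a b : Matrix Ω Ω ℝ) {l i : ℕ} (h : l ≤ i) : altProd b a l ∈ F a b i :=
  Submodule.subset_span (Or.inr ⟨l, h, rfl⟩)

theorem mul_mem_F (a b : Matrix Ω Ω ℝ) (s : ℝ)
    (ha : a * a = s • (1 : Matrix Ω Ω ℝ) + (s - 1) • a)
    (i : ℕ) (M : Matrix Ω Ω ℝ) (hM : M ∈ F a b i) : a * M ∈ F a b (i + 1) := by
  unfold F at hM
  induction hM using Submodule.span_induction with
  | mem M hM =>
    rcases hM with ⟨l, hl, rfl⟩ | ⟨l, hl, rfl⟩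
    · cases l with
      | zero =>
        have h1 : a * altProd a b 0 = altProd a b 1 := by simp
        rw [h1]; exact altA_mem_F a b (by omega)
      | succ k =>
        have h1 : a * altProd a b (k + 1) = s • altProd b a k + (s - 1) • altProd a b (k + 1) := by
          rw [altProd_succ, ← mul_assoc, ha, add_mul, Matrix.smul_mul, Matrix.smul_mul, one_mul]
        rw [h1]
        exact Submodule.add_mem _ (Submodule.smul_mem _ _ (altB_mem_F a b (by omega)))
          (Submodule.smul_mem _ _ (altA_mem_F a b (by omega)))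
    · have h1 : a * altProd b a l = altProd a b (l + 1) := (altProd_succ a b l).symm
      rw [h1]; exact altA_mem_F a b (by omega)
  | zero => rw [mul_zero]; exact Submodule.zero_mem _
  | add M N _ _ hM hN => rw [mul_add]; exact Submodule.add_mem _ hM hN
  | smul c M _ hM => rw [Matrix.mul_smul]; exact Submodule.smul_mem _ _ hM

theorem pow_mem_F (a b : Matrix Ω Ω ℝ) (s t : ℝ)
    (ha : a * a = s • (1 : Matrix Ω Ω ℝ) + (s - 1) • a)
    (hb : b * b = t • (1 : Matrix Ω Ω ℝ) + (t - 1) • b) (i : ℕ) : (a + b) ^ i ∈ F a b i := by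
  induction i with
  | zero =>
    have h := altA_mem_F a b (le_refl 0)
    rw [altProd_zero] at h
    rw [pow_zero]; exact h
  | succ i ih =>
    rw [pow_succ', add_mul]
    refine Submodule.add_mem _ (mul_mem_F a b s ha i _ ih) ?_
    rw [F_comm a b (i + 1)]
    exact mul_mem_F b a t hb i _ (by rw [← F_comm a b i]; exact ih)

theorem altProd_pos {s t : ℝ} (hs : 0 < s) (ht : 0 < t) (j : ℕ) : 0 < altProd s t j := by
  induction j generalizing s t with
  | zero => simp
  | succ j ih => rw [altProd_succ]; exact mul_pos hs (ih ht hs)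

theorem pow_ge (a b : Matrix Ω Ω ℝ) (ha : NN a) (hb : NN b) (d : ℕ) :
    ∃ R : Matrix Ω Ω ℝ, NN R ∧ (a + b) ^ d = altProd a b d + R := by
  induction d generalizing a b with
  | zero => exact ⟨0, fun _ _ => le_refl _, by simp⟩
  | succ d ih =>
    obtain ⟨R, hR, hRe⟩ := ih b a hb ha
    refine ⟨a * R + b * (a + b) ^ d, (ha.mul hR).add (hb.mul ((ha.add hb).pow d)), ?_⟩
    have h1 : a * (a + b) ^ d = a * altProd b a d + a * R := by
      rw [add_comm a b, hRe, mul_add]
    rw [pow_succ', add_mul, h1, altProd_succ]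
    abel

theorem ip_F_eq_zero (C : HeckeCfg Ω)
    (haa : ∀ i j, i ≤ C.m → j ≤ C.m →
      ((altProd C.a C.b i).transpose * altProd C.a C.b j).trace =
        if i = j then (Fintype.card Ω : ℝ) * altProd (C.s : ℝ) (C.t : ℝ) i else 0)
    (hab : ∀ i j, 1 ≤ i → i ≤ C.m → 1 ≤ j → j < C.m →
      ((altProd C.a C.b i).transpose * altProd C.b C.a j).trace = 0)
    {d i : ℕ} (hd : d ≤ C.m) (hi : i < d) (M : Matrix Ω Ω ℝ) (hM : M ∈ F C.a C.b i) :
    ip (altProd C.a C.b d) M = 0 := by
  unfold F at hM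
  induction hM using Submodule.span_induction with
  | mem M hM =>
    rcases hM with ⟨l, hl, rfl⟩ | ⟨l, hl, rfl⟩
    · have h := haa d l hd (by omega)
      rw [if_neg (by omega)] at h
      exact h
    · rcases Nat.eq_zero_or_pos l with h0 | hpos
      · subst h0
        have h := haa d 0 hd (by omega)
        rw [if_neg (by omega)] at h
        rw [altProd_zero] at h ⊢
        exact h
      · exact hab d l (by omega) hd hpos (by omega)
  | zero => exact ip_zero _
  | add M N _ _ hM hN => rw [ip_add, hM, hN, add_zero]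
  | smul c M _ hM => rw [ip_smul, hM, mul_zero]

end FH14

open FH14 in
theorem fh_count_poly (C : HeckeCfg Ω) [Nonempty Ω]
    (haa : ∀ i j, i ≤ C.m → j ≤ C.m →
      ((altProd C.a C.b i).transpose * altProd C.a C.b j).trace =
        if i = j then (Fintype.card Ω : ℝ) * altProd (C.s : ℝ) (C.t : ℝ) i else 0)
    (hab : ∀ i j, 1 ≤ i → i ≤ C.m → 1 ≤ j → j < C.m →
      ((altProd C.a C.b i).transpose * altProd C.b C.a j).trace = 0)
    (p : Polynomial ℝ) (hp : p ≠ 0) (hz : Polynomial.aeval C.z p = 0) :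
    C.m + 1 ≤ 2 * p.natDegree := by
  classical
  by_contra hcon
  push Not at hcon
  obtain ⟨w, hw⟩ : ∃ w : Matrix Ω Ω ℝ, w = C.a + C.b := ⟨_, rfl⟩
  obtain ⟨g, hg⟩ : ∃ g : Polynomial ℝ, g = Polynomial.C (1 : ℝ) * Polynomial.X ^ 2 +
      Polynomial.C (-((C.s : ℝ) + C.t - 2)) * Polynomial.X + Polynomial.C (-((C.s : ℝ) + C.t)) :=
    ⟨_, rfl⟩
  have hgdeg : g.natDegree = 2 := by
    rw [hg]; exact Polynomial.natDegree_quadratic one_ne_zero
  have hzw : Polynomial.aeval w g = C.z := by
    have h1 : w ^ 2 = C.a * C.a + C.a * C.b + C.b * C.a + C.b * C.b := by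
      rw [hw, pow_two, add_mul, mul_add, mul_add]; abel
    rw [hg]
    simp only [map_add, map_mul, map_pow, Polynomial.aeval_X, Polynomial.aeval_C,
      Algebra.algebraMap_eq_smul_one, Matrix.smul_mul, one_mul]
    rw [h1, C.a_sq, C.b_sq, hw]
    unfold HeckeCfg.z
    module
  obtain ⟨r, hr⟩ : ∃ r : Polynomial ℝ, r = p.comp g := ⟨_, rfl⟩
  have hrw : Polynomial.aeval w r = 0 := by
    rw [hr, Polynomial.aeval_comp, hzw, hz]
  have hrdeg : r.natDegree = p.natDegree * 2 := by
    rw [hr, Polynomial.natDegree_comp, hgdeg]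
  have hr0 : r ≠ 0 := by
    rw [hr]
    intro h0
    rcases Polynomial.comp_eq_zero_iff.mp h0 with h | ⟨_, h⟩
    · exact hp h
    · have : g.natDegree = 0 := by rw [h]; exact Polynomial.natDegree_C _
      omega
  obtain ⟨d, hd⟩ : ∃ d : ℕ, d = r.natDegree := ⟨_, rfl⟩
  have hdm : d ≤ C.m := by omega
  have hNa : NN C.a := by
    intro x y
    have h := C.zero_one_a 1 (by have := C.hm; omega) x y
    rw [altProd_one] at h
    rcases h with h | h <;> rw [h] <;> norm_num
  have hNb : NN C.b := by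
    intro x y
    have h := C.zero_one_b 1 (by have := C.hm; omega) x y
    rw [altProd_one] at h
    rcases h with h | h <;> rw [h] <;> norm_num
  have hsum : Polynomial.aeval w r = ∑ i ∈ Finset.range (d + 1), r.coeff i • w ^ i := by
    rw [hd]; exact Polynomial.aeval_eq_sum_range w
  have hip : ip (altProd C.a C.b d) (Polynomial.aeval w r) =
      r.coeff d * ip (altProd C.a C.b d) (w ^ d) := by
    rw [hsum, ip_sum, Finset.sum_range_succ, ip_smul]
    have hz' : ∑ i ∈ Finset.range d, ip (altProd C.a C.b d) (r.coeff i • w ^ i) = 0 := by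
      apply Finset.sum_eq_zero
      intro i hi
      rw [ip_smul, hw, ip_F_eq_zero C haa hab hdm (Finset.mem_range.mp hi) _
        (pow_mem_F C.a C.b _ _ C.a_sq C.b_sq i), mul_zero]
    rw [hz', zero_add]
  have hpos : 0 < ip (altProd C.a C.b d) (w ^ d) := by
    obtain ⟨R, hR, hRe⟩ := pow_ge C.a C.b hNa hNb d
    rw [hw, hRe, ip_add]
    have h1 : ip (altProd C.a C.b d) (altProd C.a C.b d) =
        (Fintype.card Ω : ℝ) * altProd (C.s : ℝ) (C.t : ℝ) d := by
      have h := haa d d hdm hdm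
      rw [if_pos rfl] at h
      exact h
    have h2 : 0 ≤ ip (altProd C.a C.b d) R :=
      ip_nonneg (by
        intro x y
        rcases C.zero_one_a d hdm x y with h | h <;> rw [h] <;> norm_num) hR
    have h3 : 0 < (Fintype.card Ω : ℝ) * altProd (C.s : ℝ) (C.t : ℝ) d := by
      apply mul_pos
      · exact_mod_cast Fintype.card_pos
      · apply altProd_pos
        · have := C.hs; exact_mod_cast (by omega : 0 < C.s)
        · have := C.ht; exact_mod_cast (by omega : 0 < C.t)
    rw [h1]; linarith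
  have hlead : r.coeff d ≠ 0 := by
    rw [hd]
    exact Polynomial.leadingCoeff_ne_zero.mpr hr0
  rw [hrw, ip_zero] at hip
  rcases mul_eq_zero.mp hip.symm with h | h
  · exact hlead h
  · exact absurd h hpos.ne'

end Cfsg.Agent.Helper73
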