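import Mathlib
import Cfsg.Prelude.Def_Characters
import Cfsg.Agent.Helper73.BrauerA
import Cfsg.Agent.Helper73.BrauerLocal

/-!
# List form of membership in the Brauer span (helper73)

Everything is in `namespace Cfsg.Agent.Helper73`.
-/

set_option autoImplicit false

namespace Cfsg.Agent.Helper73

variable {G : Type*} [Group G] [Fintype G]

/-- The function on `G` attached to a list of triples (subgroup, function, integer). -/
noncomputable def brListSum (l : List ((E : Subgroup G) × ((E → ℂ) × ℤ))) : G → ℂ :=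
  (l.map fun t => (t.2.2 : ℂ) • Cfsg.indFun t.1 t.2.1).sum

theorem brListSum_nil : brListSum ([] : List ((E : Subgroup G) × ((E → ℂ) × ℤ))) = 0 := rfl

theorem brListSum_append (l₁ l₂ : List ((E : Subgroup G) × ((E → ℂ) × ℤ))) :
    brListSum (l₁ ++ l₂) = brListSum l₁ + brListSum l₂ := by
  unfold brListSum
  rw [List.map_append, List.sum_append]

theorem brListSum_scale (n : ℤ) (l : List ((E : Subgroup G) × ((E → ℂ) × ℤ))) :
    brListSum (l.map fun t => ⟨t.1, t.2.1, n * t.2.2⟩) = (n : ℂ) • brListSum l := by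
  unfold brListSum
  induction l with
  | nil => simp
  | cons a l ih =>
    rw [List.map_cons, List.map_cons, List.sum_cons, ih, List.map_cons, List.sum_cons, smul_add]
    congr 1
    rw [smul_smul]
    push_cast
    rfl

/-- Every element of the integer Brauer span is given by a list. -/
theorem exists_list_of_mem_brSpanZ {p : ℕ} {v : G → ℂ} (hv : v ∈ brSpanZ p G) :
    ∃ l : List ((E : Subgroup G) × ((E → ℂ) × ℤ)),
      (∀ t ∈ l, Cfsg.IsElementary p t.1 ∧ Cfsg.IsCharacter t.1 t.2.1) ∧ v = brListSum l := by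
  unfold brSpanZ at hv
  induction hv using Submodule.span_induction with
  | mem x hx =>
    obtain ⟨E, φ, hE, hφ, rfl⟩ := hx
    refine ⟨[⟨E, φ, 1⟩], ?_, ?_⟩
    · intro t ht
      rw [List.mem_singleton] at ht
      subst ht
      exact ⟨hE, hφ⟩
    · unfold brListSum
      simp
  | zero => exact ⟨[], by simp, rfl⟩
  | add x y hx hy h1 h2 =>
    obtain ⟨l₁, hl₁, rfl⟩ := h1
    obtain ⟨l₂, hl₂, rfl⟩ := h2
    refine ⟨l₁ ++ l₂, ?_, (brListSum_append l₁ l₂).symm⟩
    intro t ht
    rcases List.mem_append.mp ht with h | h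
    · exact hl₁ t h
    · exact hl₂ t h
  | smul n x hx h =>
    obtain ⟨l, hl, rfl⟩ := h
    refine ⟨l.map fun t => ⟨t.1, t.2.1, n * t.2.2⟩, ?_, ?_⟩
    · intro t ht
      obtain ⟨t', ht', rfl⟩ := List.mem_map.mp ht
      exact hl t' ht'
    · rw [brListSum_scale, Int.cast_smul_eq_zsmul]

/-- Conversely a list sum lies in the integer Brauer span. -/
theorem brListSum_mem_brSpanZ {p : ℕ} (l : List ((E : Subgroup G) × ((E → ℂ) × ℤ)))
    (hl : ∀ t ∈ l, Cfsg.IsElementary p t.1 ∧ Cfsg.IsCharacter t.1 t.2.1) :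
    brListSum l ∈ brSpanZ p G := by
  unfold brListSum
  apply list_sum_mem
  intro f hf
  obtain ⟨t, ht, rfl⟩ := List.mem_map.mp hf
  rw [Int.cast_smul_eq_zsmul]
  exact Submodule.smul_mem _ _ (Submodule.subset_span ⟨t.1, t.2.1, (hl t ht).1, (hl t ht).2, rfl⟩)

end Cfsg.Agent.Helper73
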