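import Mathlib
import Cfsg.Prelude.Def_GeometricClasses
import Cfsg.Prelude.Def_LieTypeDatum

set_option autoImplicit false

namespace Cfsg.Agent.Helper73

open Matrix Module

/-- the polar form of `quadFormOdd` in characteristic 2 -/
def oddPolar {F : Type*} [Field F] (m : ℕ) (x y : Unit ⊕ (Fin m ⊕ Fin m) → F) : F :=
  ∑ i : Fin m, (x (.inr (.inl i)) * y (.inr (.inr i)) + x (.inr (.inr i)) * y (.inr (.inl i)))

theorem quadFormOdd_add {F : Type*} [Field F] (h2 : (2 : F) = 0) (m : ℕ)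
    (x y : Unit ⊕ (Fin m ⊕ Fin m) → F) :
    Cfsg.quadFormOdd m F (x + y) = Cfsg.quadFormOdd m F x + Cfsg.quadFormOdd m F y
      + oddPolar m x y := by
  unfold Cfsg.quadFormOdd oddPolar
  simp only [Pi.add_apply]
  have e : (x (Sum.inl ()) + y (Sum.inl ())) ^ 2 = x (Sum.inl ()) ^ 2 + y (Sum.inl ()) ^ 2 := by
    linear_combination (x (Sum.inl ()) * y (Sum.inl ())) * h2
  rw [e, ← sub_eq_zero]
  have : ∀ i : Fin m, (x (Sum.inr (Sum.inl i)) + y (Sum.inr (Sum.inl i)))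
      * (x (Sum.inr (Sum.inr i)) + y (Sum.inr (Sum.inr i)))
      = x (Sum.inr (Sum.inl i)) * x (Sum.inr (Sum.inr i))
        + y (Sum.inr (Sum.inl i)) * y (Sum.inr (Sum.inr i))
        + (x (Sum.inr (Sum.inl i)) * y (Sum.inr (Sum.inr i))
          + x (Sum.inr (Sum.inr i)) * y (Sum.inr (Sum.inl i))) := fun i => by ring
  rw [Finset.sum_congr rfl (fun i _ => this i), Finset.sum_add_distrib, Finset.sum_add_distrib]
  ring

theorem oddPolar_sim {F : Type*} [Field F] (h2 : (2 : F) = 0) (m : ℕ)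
    (g : Matrix (Unit ⊕ (Fin m ⊕ Fin m)) (Unit ⊕ (Fin m ⊕ Fin m)) F) (c : F)
    (hc : ∀ v, Cfsg.quadFormOdd m F (g *ᵥ v) = c * Cfsg.quadFormOdd m F v)
    (x y : Unit ⊕ (Fin m ⊕ Fin m) → F) :
    oddPolar m (g *ᵥ x) (g *ᵥ y) = c * oddPolar m x y := by
  have h1 := hc (x + y)
  rw [Matrix.mulVec_add, quadFormOdd_add h2, quadFormOdd_add h2, hc, hc] at h1
  linear_combination h1

theorem tJ_apply {F : Type*} [Field F] (m : ℕ)
    (A : Matrix (Fin m ⊕ Fin m) (Fin m ⊕ Fin m) F) (k k' : Fin m ⊕ Fin m) :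
    (Aᵀ * Matrix.J (Fin m) F * A) k k'
      = ∑ j : Fin m, (A (Sum.inr j) k * A (Sum.inl j) k' - A (Sum.inl j) k * A (Sum.inr j) k') := by
  have h1 : ∀ j : Fin m, (Aᵀ * Matrix.J (Fin m) F) k (Sum.inl j) = A (Sum.inr j) k := by
    intro j
    simp [Matrix.mul_apply, Matrix.J, Fintype.sum_sum_type, Matrix.one_apply]
  have h2 : ∀ j : Fin m, (Aᵀ * Matrix.J (Fin m) F) k (Sum.inr j) = - A (Sum.inl j) k := by
    intro j
    simp [Matrix.mul_apply, Matrix.J, Fintype.sum_sum_type, Matrix.one_apply]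
  rw [Matrix.mul_apply, Fintype.sum_sum_type, Finset.sum_sub_distrib]
  simp only [h1, h2]
  rw [Finset.sum_congr rfl (fun j _ => neg_mul (A (Sum.inl j) k) (A (Sum.inr j) k')),
    Finset.sum_neg_distrib]
  ring

theorem oddPolar_eq_tJ {F : Type*} [Field F] (h2 : (2 : F) = 0) (m : ℕ)
    (A : Matrix (Fin m ⊕ Fin m) (Fin m ⊕ Fin m) F) (k k' : Fin m ⊕ Fin m)
    (x y : Unit ⊕ (Fin m ⊕ Fin m) → F) (hx : ∀ b, x (Sum.inr b) = A b k)
    (hy : ∀ b, y (Sum.inr b) = A b k') :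
    oddPolar m x y = (Aᵀ * Matrix.J (Fin m) F * A) k k' := by
  rw [tJ_apply]
  unfold oddPolar
  refine Finset.sum_congr rfl (fun j _ => ?_)
  rw [hx, hx, hy, hy]
  linear_combination (A (Sum.inl j) k * A (Sum.inr j) k') * h2

/-- OddBlock -/
theorem oddSim_block {F : Type*} [Field F] [Finite F] (h2 : (2 : F) = 0) (m : ℕ)
    (g : GL (Unit ⊕ (Fin m ⊕ Fin m)) F)
    (hg : g ∈ Cfsg.Geo.quadSimilarityGroup (Cfsg.quadFormOdd m F)) :
    (g : Matrix (Unit ⊕ (Fin m ⊕ Fin m)) (Unit ⊕ (Fin m ⊕ Fin m)) F).toBlocks₂₁ = 0 ∧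
    (g : Matrix (Unit ⊕ (Fin m ⊕ Fin m)) (Unit ⊕ (Fin m ⊕ Fin m)) F) (Sum.inl ()) (Sum.inl ()) ≠ 0 ∧
    ((g : Matrix (Unit ⊕ (Fin m ⊕ Fin m)) (Unit ⊕ (Fin m ⊕ Fin m)) F) (Sum.inl ()) (Sum.inl ()))⁻¹ •
      (g : Matrix (Unit ⊕ (Fin m ⊕ Fin m)) (Unit ⊕ (Fin m ⊕ Fin m)) F).toBlocks₂₂
        ∈ Matrix.symplecticGroup (Fin m) F := by
  classical
  obtain ⟨c, hc⟩ := hg
  have hP := oddPolar_sim h2 m g.1 (c : F) hc
  -- columns of `g`
  have hcol : ∀ (j b : Unit ⊕ (Fin m ⊕ Fin m)), (g.1 *ᵥ Pi.single j (1 : F)) b = g.1 b j := by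
    intro j b
    rw [Matrix.mulVec_single_one]
    rfl
  -- the polar form against `g e₀` vanishes
  have hzero : ∀ w : Unit ⊕ (Fin m ⊕ Fin m) → F,
      oddPolar m (g.1 *ᵥ Pi.single (Sum.inl ()) (1 : F)) w = 0 := by
    intro w
    have hw : g.1 *ᵥ ((g⁻¹ : GL _ F).1 *ᵥ w) = w := by
      rw [Matrix.mulVec_mulVec, ← Units.val_mul, mul_inv_cancel, Units.val_one, Matrix.one_mulVec]
    rw [← hw, hP]
    have : oddPolar m (Pi.single (Sum.inl ()) (1 : F)) ((g⁻¹ : GL _ F).1 *ᵥ w) = 0 := by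
      unfold oddPolar
      simp
    rw [this, mul_zero]
  have h21 : ∀ b : Fin m ⊕ Fin m, g.1 (Sum.inr b) (Sum.inl ()) = 0 := by
    intro b
    rcases b with i | i
    · have := hzero (Pi.single (Sum.inr (Sum.inr i)) (1 : F))
      unfold oddPolar at this
      simp only [hcol] at this
      simpa [Pi.single_apply] using this
    · have := hzero (Pi.single (Sum.inr (Sum.inl i)) (1 : F))
      unfold oddPolar at this
      simp only [hcol] at this
      simpa [Pi.single_apply] using this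
  have hblk : (g : Matrix (Unit ⊕ (Fin m ⊕ Fin m)) (Unit ⊕ (Fin m ⊕ Fin m)) F).toBlocks₂₁ = 0 := by
    ext b u
    cases u
    simp only [Matrix.toBlocks₂₁, Matrix.of_apply, Matrix.zero_apply]
    exact h21 b
  -- `a² = c`
  have hsq : (g.1 (Sum.inl ()) (Sum.inl ())) ^ 2 = (c : F) := by
    have := hc (Pi.single (Sum.inl ()) (1 : F))
    unfold Cfsg.quadFormOdd at this
    simp only [hcol, h21, zero_mul, Finset.sum_const_zero, add_zero] at this
    rw [this]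
    simp
  have ha : g.1 (Sum.inl ()) (Sum.inl ()) ≠ 0 := by
    intro h0
    rw [h0] at hsq
    exact c.ne_zero (by rw [← hsq]; ring)
  refine ⟨hblk, ha, ?_⟩
  -- the symplectic condition
  have hS : (g.1.toBlocks₂₂)ᵀ * Matrix.J (Fin m) F * g.1.toBlocks₂₂ = (c : F) • Matrix.J (Fin m) F := by
    ext k k'
    have e1 := hP (Pi.single (Sum.inr k) (1 : F)) (Pi.single (Sum.inr k') (1 : F))
    rw [oddPolar_eq_tJ h2 m g.1.toBlocks₂₂ k k' _ _ (fun b => by rw [hcol]; rfl)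
      (fun b => by rw [hcol]; rfl),
      oddPolar_eq_tJ h2 m (1 : Matrix (Fin m ⊕ Fin m) (Fin m ⊕ Fin m) F) k k' _ _
        (fun b => by
          rw [Matrix.one_apply, Pi.single_apply]
          simp only [Sum.inr.injEq])
        (fun b => by
          rw [Matrix.one_apply, Pi.single_apply]
          simp only [Sum.inr.injEq])] at e1
    rw [e1, Matrix.transpose_one, Matrix.one_mul, Matrix.mul_one, Matrix.smul_apply, smul_eq_mul]
  rw [SymplecticGroup.mem_iff']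
  rw [Matrix.transpose_smul, Matrix.smul_mul, Matrix.smul_mul, Matrix.mul_smul, hS, smul_smul,
    smul_smul, ← hsq]
  have : (g.1 (Sum.inl ()) (Sum.inl ()))⁻¹ * (g.1 (Sum.inl ()) (Sum.inl ()))⁻¹
      * (g.1 (Sum.inl ()) (Sum.inl ())) ^ 2 = 1 := by
    field_simp
  rw [this, one_smul]

end Cfsg.Agent.Helper73
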