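import Mathlib
import Cfsg.Prelude.Def_GeometricClasses
import Cfsg.Prelude.Def_LieTypeDatum
import Cfsg.Agent.Helper73.GBOddBlock

set_option autoImplicit false

namespace Cfsg.Agent.Helper73

open Matrix Module

/-- OddKer -/
theorem oddSim_ker {F : Type*} [Field F] [Finite F] (h2 : (2 : F) = 0) (m : ℕ)
    (g : GL (Unit ⊕ (Fin m ⊕ Fin m)) F)
    (hg : g ∈ Cfsg.Geo.quadSimilarityGroup (Cfsg.quadFormOdd m F))
    (h : (g : Matrix (Unit ⊕ (Fin m ⊕ Fin m)) (Unit ⊕ (Fin m ⊕ Fin m)) F).toBlocks₂₂ =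
      ((g : Matrix (Unit ⊕ (Fin m ⊕ Fin m)) (Unit ⊕ (Fin m ⊕ Fin m)) F) (Sum.inl ()) (Sum.inl ())) •
        (1 : Matrix (Fin m ⊕ Fin m) (Fin m ⊕ Fin m) F)) :
    (g : Matrix (Unit ⊕ (Fin m ⊕ Fin m)) (Unit ⊕ (Fin m ⊕ Fin m)) F) =
      ((g : Matrix (Unit ⊕ (Fin m ⊕ Fin m)) (Unit ⊕ (Fin m ⊕ Fin m)) F) (Sum.inl ()) (Sum.inl ())) •
        (1 : Matrix (Unit ⊕ (Fin m ⊕ Fin m)) (Unit ⊕ (Fin m ⊕ Fin m)) F) := by
  classical
  obtain ⟨h21, -, -⟩ := oddSim_block h2 m g hg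
  obtain ⟨c, hc⟩ := hg
  have hcol : ∀ (j b : Unit ⊕ (Fin m ⊕ Fin m)), (g.1 *ᵥ Pi.single j (1 : F)) b = g.1 b j := by
    intro j b
    rw [Matrix.mulVec_single_one]
    rfl
  have h21' : ∀ b : Fin m ⊕ Fin m, g.1 (Sum.inr b) (Sum.inl ()) = 0 := by
    intro b
    have := congrFun (congrFun h21 b) ()
    simpa [Matrix.toBlocks₂₁] using this
  have h22 : ∀ b k : Fin m ⊕ Fin m, g.1 (Sum.inr b) (Sum.inr k)
      = g.1 (Sum.inl ()) (Sum.inl ()) * (if b = k then 1 else 0) := by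
    intro b k
    have := congrFun (congrFun h b) k
    simpa [Matrix.toBlocks₂₂, Matrix.one_apply] using this
  -- the top-right block vanishes
  have h12 : ∀ k : Fin m ⊕ Fin m, g.1 (Sum.inl ()) (Sum.inr k) = 0 := by
    intro k
    have e := hc (Pi.single (Sum.inr k) (1 : F))
    unfold Cfsg.quadFormOdd at e
    simp only [hcol, h22] at e
    have hz : ∀ i : Fin m, g.1 (Sum.inl ()) (Sum.inl ()) * (if (Sum.inl i : Fin m ⊕ Fin m) = k then 1 else 0)
        * (g.1 (Sum.inl ()) (Sum.inl ()) * (if (Sum.inr i : Fin m ⊕ Fin m) = k then 1 else 0)) = 0 := by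
      intro i
      rcases k with j | j
      · simp
      · simp
    have hz2 : ∀ i : Fin m, (Pi.single (Sum.inr k) (1 : F) : Unit ⊕ (Fin m ⊕ Fin m) → F)
        (Sum.inr (Sum.inl i)) * (Pi.single (Sum.inr k) (1 : F) : Unit ⊕ (Fin m ⊕ Fin m) → F)
        (Sum.inr (Sum.inr i)) = 0 := by
      intro i
      rcases k with j | j
      · simp [Pi.single_apply]
      · simp [Pi.single_apply]
    rw [Finset.sum_congr rfl (fun i _ => hz i), Finset.sum_congr rfl (fun i _ => hz2 i)] at e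
    simp only [Finset.sum_const_zero, add_zero] at e
    have e0 : (Pi.single (Sum.inr k) (1 : F) : Unit ⊕ (Fin m ⊕ Fin m) → F) (Sum.inl ()) = 0 := by
      simp [Pi.single_apply]
    rw [e0] at e
    have : g.1 (Sum.inl ()) (Sum.inr k) ^ 2 = 0 := by rw [e]; ring
    exact pow_eq_zero_iff (two_ne_zero) |>.mp this
  ext a b
  rw [Matrix.smul_apply, Matrix.one_apply, smul_eq_mul]
  rcases a with u | a <;> rcases b with u' | b
  · simp
  · rw [h12 b]; simp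
  · rw [h21' a]; simp
  · rw [h22 a b]
    simp only [Sum.inr.injEq]

end Cfsg.Agent.Helper73
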