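import Cfsg.Agent.Helper45.OctE

set_option autoImplicit false
set_option linter.unusedSectionVars false
set_option linter.unusedSimpArgs false
set_option linter.unusedVariables false
set_option linter.style.haveILetI false

universe u

namespace Cfsg.Agent.Helper73.OctP

open Cfsg Matrix Module Cfsg.Agent.Helper45 Cfsg.Agent.Helper45.AO Cfsg.Agent.Helper45.OO
  Cfsg.Agent.Helper45.Oct

section Octo

variable {F : Type u} [Field F] [Fintype F] (Q : QuadraticForm F (Fin 4 ⊕ Fin 4 → F))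
  (hq : ⇑Q = quadFormPlus 4 F)

include hq in
/-- the reflection in the identity octonion is `x ↦ -x̄` -/
theorem gl_refl_one (x : Fin 4 ⊕ Fin 4 → F) :
    mv ⇑Q (reflO Q one8 (q_one8_ne Q hq)) x = (-1 : F) • cj x := by
  rw [mv_reflO, q_one8 Q hq, inv_one, one_mul, cj_eq, ← hq, QuadraticMap.polar_comm ⇑Q x one8]
  module

include hq in
/-- PIECE GL -/
theorem gamma_lmul_comm (hQ : (QuadraticMap.polarBilin Q).Nondegenerate)
    (γ : MulAut (POmega F ⇑Q))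
    (hγ : Ind ⇑Q ((reflO Q one8 (q_one8_ne Q hq) : ↥(isometryGroup F ⇑Q)) :
      GL (Fin 4 ⊕ Fin 4) F) γ)
    (a : Fin 4 ⊕ Fin 4 → F) (ha : Q a ≠ 0) (hca : Q (cj a) ≠ 0)
    (g : GL (Fin 4 ⊕ Fin 4) F) (hg : IsSemisimilarityPair ⇑Q g (RingEquiv.refl F))
    (hga : ∀ x, semiMap g (RingEquiv.refl F) x = om a x) :
    Ind ⇑Q ((reflO Q (cj a) hca * reflO Q one8 (q_one8_ne Q hq) : ↥(isometryGroup F ⇑Q)) :
      GL (Fin 4 ⊕ Fin 4) F)
      (γ * semiAut ⇑Q g (RingEquiv.refl F) hg * γ⁻¹ * (semiAut ⇑Q g (RingEquiv.refl F) hg)⁻¹) := by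
  have hS : Ind ⇑Q g (semiAut ⇑Q g (RingEquiv.refl F) hg) :=
    (semi_ind_iff ⇑Q g (RingEquiv.refl F) hg _).mpr rfl
  have hgsim : g ∈ Geo.quadSimilarityGroup (F := F) ⇑Q := (sim_iff_semi ⇑Q g).mpr hg
  obtain ⟨ρ, hρ⟩ : ∃ ρ : ↥(isometryGroup F ⇑Q), ρ = reflO Q one8 (q_one8_ne Q hq) := ⟨_, rfl⟩
  rw [← hρ] at hγ ⊢
  have hρsim : (ρ : GL (Fin 4 ⊕ Fin 4) F) ∈ Geo.quadSimilarityGroup (F := F) ⇑Q :=
    iso_le_sim ⇑Q ρ.2
  have h1 := ind_mul ⇑Q hgsim hγ hS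
  have h2 := ind_mul ⇑Q (inv_mem hρsim) h1 (ind_inv ⇑Q hρsim hγ)
  have h3 := ind_mul ⇑Q (inv_mem hgsim) h2 (ind_inv ⇑Q hgsim hS)
  -- the matrix identity
  have hgv : ∀ y : Fin 4 ⊕ Fin 4 → F, (g : Matrix (Fin 4 ⊕ Fin 4) (Fin 4 ⊕ Fin 4) F) *ᵥ y = om a y := by
    intro y
    have := hga y
    unfold semiMap at this
    simpa using this
  have hρv : ∀ x : Fin 4 ⊕ Fin 4 → F,
      ((ρ : GL (Fin 4 ⊕ Fin 4) F) : Matrix (Fin 4 ⊕ Fin 4) (Fin 4 ⊕ Fin 4) F) *ᵥ x = (-1 : F) • cj x := by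
    intro x
    rw [hρ]
    exact gl_refl_one Q hq x
  have hρinv : (ρ : GL (Fin 4 ⊕ Fin 4) F)⁻¹ = (ρ : GL (Fin 4 ⊕ Fin 4) F) := by
    have : ρ⁻¹ = ρ := by rw [hρ]; exact Helper44.reflO_inv Q one8 (q_one8_ne Q hq)
    have h := congrArg (fun z : ↥(isometryGroup F ⇑Q) => (z : GL (Fin 4 ⊕ Fin 4) F)) this
    exact h
  have hE : ∀ x : Fin 4 ⊕ Fin 4 → F,
      (((reflO Q (cj a) hca * ρ : ↥(isometryGroup F ⇑Q)) : GL (Fin 4 ⊕ Fin 4) F) :
        Matrix (Fin 4 ⊕ Fin 4) (Fin 4 ⊕ Fin 4) F) *ᵥ (om a x) = om x (cj a) := by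
    intro x
    have h := mv_refl_one Q hq (cj a) hca (om a x)
    rw [← hρ] at h
    have hflex : om (cj a) (om (om a x) (cj a)) = om (om (cj a) (om a x)) (cj a) := by
      have := moufang_mid (cj a) (om a x) one8
      rw [one_om, om_one] at this
      exact this.symm
    have hn : Q (cj a) = quadFormPlus 4 F a := by rw [hq]; exact nm_cj a
    have hn0 : quadFormPlus 4 F a ≠ 0 := by rw [← hn]; exact hca
    show mv ⇑Q (reflO Q (cj a) hca * ρ) (om a x) = om x (cj a)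
    rw [h, hflex, cj_om_om, om_smul_left, hn, smul_smul, inv_mul_cancel₀ hn0, one_smul]
  have hmat : ((reflO Q (cj a) hca * ρ : ↥(isometryGroup F ⇑Q)) : GL (Fin 4 ⊕ Fin 4) F)
      = (ρ : GL (Fin 4 ⊕ Fin 4) F) * g * (ρ : GL (Fin 4 ⊕ Fin 4) F)⁻¹ * g⁻¹ := by
    have key : ((reflO Q (cj a) hca * ρ : ↥(isometryGroup F ⇑Q)) : GL (Fin 4 ⊕ Fin 4) F) * g
        = (ρ : GL (Fin 4 ⊕ Fin 4) F) * g * (ρ : GL (Fin 4 ⊕ Fin 4) F) := by
      apply Units.ext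
      apply Matrix.mulVec_injective
      funext x
      rw [Units.val_mul, Units.val_mul, Units.val_mul, ← Matrix.mulVec_mulVec,
        ← Matrix.mulVec_mulVec, ← Matrix.mulVec_mulVec, hgv, hE, hρv, hgv, hρv, om_smul_right,
        cj_smul, smul_smul, cj_om, cj_cj]
      norm_num
    rw [hρinv, ← key]
    group
  rw [hmat]
  exact h3

end Octo

end Cfsg.Agent.Helper73.OctP
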