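import Mathlib
import Cfsg.Prelude.Def_LieTypeDatum

set_option autoImplicit false

namespace Cfsg.Agent.Helper73.FldP

open Cfsg

section Grp

variable {X : Type*} [Group X]

/-- PIECE G4 -/
theorem splitCount_eq_relIndex (H K : Subgroup X) (hKH : K ≤ H)
    (hN : ∀ h ∈ H, ∀ k ∈ K, h * k * h⁻¹ ∈ K) (x : X)
    (hC : ∀ c ∈ H, c * x = x * c → c ∈ K) :
    splitClassCount H K x = K.relIndex H := by
  classical
  have hN' : ∀ h ∈ H, ∀ k ∈ K, h⁻¹ * k * h ∈ K := by
    intro h hh k hk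
    have h1 := hN h⁻¹ (H.inv_mem hh) k hk
    rwa [inv_inv] at h1
  have hex : ∀ y : {y : X // IsConjUnder H x y}, ∃ g : X, g ∈ H ∧ y.1 = g * x * g⁻¹ :=
    fun y => y.2
  choose gy hgyH hgy using hex
  let fq : {y : X // IsConjUnder H x y} → H ⧸ K.subgroupOf H :=
    fun y => QuotientGroup.mk ⟨gy y, hgyH y⟩
  have key : ∀ (y : {y : X // IsConjUnder H x y}) (g : X) (hg : g ∈ H), y.1 = g * x * g⁻¹ →
      fq y = QuotientGroup.mk ⟨g, hg⟩ := by
    intro y g hg hyg
    show (QuotientGroup.mk ⟨gy y, hgyH y⟩ : H ⧸ K.subgroupOf H) = QuotientGroup.mk ⟨g, hg⟩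
    rw [QuotientGroup.eq, Subgroup.mem_subgroupOf]
    show (gy y)⁻¹ * g ∈ K
    apply hC _ (H.mul_mem (H.inv_mem (hgyH y)) hg)
    have h2 := (hgy y).symm.trans hyg
    calc (gy y)⁻¹ * g * x = (gy y)⁻¹ * (g * x * g⁻¹) * g := by group
      _ = (gy y)⁻¹ * (gy y * x * (gy y)⁻¹) * g := by rw [h2]
      _ = x * ((gy y)⁻¹ * g) := by group
  have hI : ∀ y z : {y : X // IsConjUnder H x y}, IsConjUnder K y.1 z.1 → fq y = fq z := by
    rintro y z ⟨t, ht, hz⟩
    have h1 : z.1 = (t * gy y) * x * (t * gy y)⁻¹ := by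
      rw [hz, hgy y]
      group
    rw [key z _ (H.mul_mem (hKH ht) (hgyH y)) h1]
    show (QuotientGroup.mk ⟨gy y, hgyH y⟩ : H ⧸ K.subgroupOf H) = QuotientGroup.mk ⟨t * gy y, _⟩
    rw [QuotientGroup.eq, Subgroup.mem_subgroupOf]
    show (gy y)⁻¹ * (t * gy y) ∈ K
    have h3 := hN' (gy y) (hgyH y) t ht
    rwa [mul_assoc] at h3
  unfold splitClassCount
  rw [Subgroup.relIndex, Subgroup.index]
  apply Nat.card_eq_of_bijective (Quot.lift fq hI)
  constructor
  · intro a b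
    induction a using Quot.ind with
    | _ y =>
    induction b using Quot.ind with
    | _ z =>
    intro hab
    apply Quot.sound
    change fq y = fq z at hab
    have h3 : (gy y)⁻¹ * gy z ∈ K := by
      have h4 := QuotientGroup.eq.mp hab
      exact Subgroup.mem_subgroupOf.mp h4
    refine ⟨gy z * (gy y)⁻¹, ?_, ?_⟩
    · have h5 := hN (gy y) (hgyH y) _ h3
      have h6 : gy y * ((gy y)⁻¹ * gy z) * (gy y)⁻¹ = gy z * (gy y)⁻¹ := by group
      rwa [h6] at h5
    · rw [hgy z]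
      conv_rhs => rw [hgy y]
      group
  · intro q
    induction q using QuotientGroup.induction_on with
    | H g =>
      refine ⟨Quot.mk _ ⟨g.1 * x * g.1⁻¹, g.1, g.2, rfl⟩, ?_⟩
      show fq _ = _
      exact key _ g.1 g.2 rfl

end Grp

end Cfsg.Agent.Helper73.FldP
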