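import Cfsg.Agent.Helper45.FldA

set_option autoImplicit false
set_option linter.unusedSectionVars false
set_option linter.unusedSimpArgs false
set_option linter.unusedVariables false
set_option linter.style.haveILetI false

universe u v

namespace Cfsg.Agent.Helper73.FldP

open Matrix Cfsg
open Cfsg.Agent.Helper45.OO (semiAut semiMap glMap)
open Cfsg.Agent.Helper44.POm
open Cfsg.Agent.Helper45.Fld
open Cfsg.Agent.Helper45.Oct (om one8 cj Tri q_one8_ne)
open Cfsg.Agent.Helper45

section Plus

variable {F : Type u} [Field F] [Fintype F] {m : ℕ}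

/-- PIECE O -/
theorem orderOf_pF (hm : 3 ≤ m) (σ : RingAut F) : orderOf (pF m σ) = orderOf σ := by
  have hQ := Helper45.plusQF_nondeg' (F := F) m
  have hn5 : 5 ≤ Fintype.card (Fin m ⊕ Fin m) := by
    rw [Fintype.card_sum, Fintype.card_fin]; omega
  obtain ⟨Θ, hΘ1, -, -⟩ := Oct.exists_thetaP (Helper43.plusQF m F) hQ hn5
  have hinj : Function.Injective (Oct.fieldHom (Helper43.plusQF m F) (Oct.plus_field m)) := by
    intro σ τ h
    have h1 : (⟨Oct.fieldHom (Helper43.plusQF m F) (Oct.plus_field m) σ,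
        Oct.fieldHom_mem _ _ σ⟩ : ↥(Oct.semiSub (Helper43.plusQF m F))) =
        ⟨Oct.fieldHom (Helper43.plusQF m F) (Oct.plus_field m) τ, Oct.fieldHom_mem _ _ τ⟩ :=
      Subtype.ext h
    have h2 := congrArg Θ h1
    have h3 := hΘ1 1 σ (Oct.plus_field m σ) (Oct.fieldHom_mem _ _ σ)
    have h4 := hΘ1 1 τ (Oct.plus_field m τ) (Oct.fieldHom_mem _ _ τ)
    exact h3.symm.trans (h2.trans h4)
  exact orderOf_injective (Oct.fieldHom (Helper43.plusQF m F) (Oct.plus_field m)) hinj σ

end Plus

end Cfsg.Agent.Helper73.FldP
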