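import Cfsg.Agent.Helper45.OctE

set_option autoImplicit false
set_option linter.unusedSectionVars false
set_option linter.unusedSimpArgs false
set_option linter.unusedVariables false
set_option linter.style.haveILetI false

universe u

namespace Cfsg.Agent.Helper73.OctP

open Cfsg Matrix Module Cfsg.Agent.Helper45 Cfsg.Agent.Helper45.AO Cfsg.Agent.Helper45.OO
  Cfsg.Agent.Helper45.Oct

section Generic

variable {ι : Type} [Fintype ι] [DecidableEq ι] {F : Type u} [Field F] [Fintype F]
  (Q : QuadraticForm F (ι → F))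

/-- PIECE PD -/
theorem pair_dichotomy (hR : reflGroup Q = ⊤) (a : ι → F) (ha : Q a ≠ 0)
    (g : ↥(isometryGroup F ⇑Q)) :
    g ∈ Helper44.pairGroup Q ∨ reflO Q a ha * g ∈ Helper44.pairGroup Q := by
  have hg : g ∈ reflGroup Q := by rw [hR]; trivial
  have hrr : reflO Q a ha * reflO Q a ha = 1 := reflO_mul_self Q a ha
  have hinv : (reflO Q a ha)⁻¹ = reflO Q a ha := Helper44.reflO_inv Q a ha
  refine Subgroup.closure_induction
    (p := fun g _ => g ∈ Helper44.pairGroup Q ∨ reflO Q a ha * g ∈ Helper44.pairGroup Q)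
    ?_ ?_ ?_ ?_ hg
  · rintro g ⟨v, hv, rfl⟩
    exact Or.inr (Helper44.pair_mem Q a v ha hv)
  · exact Or.inl (one_mem _)
  · intro x y _ _ hx hy
    rcases hx with hx | hx <;> rcases hy with hy | hy
    · exact Or.inl (mul_mem hx hy)
    · right
      have e : reflO Q a ha * (x * y)
          = (reflO Q a ha * x * (reflO Q a ha)⁻¹) * (reflO Q a ha * y) := by group
      rw [e]
      exact mul_mem (Helper44.pairGroup_conj Q _ x hx) hy
    · right
      rw [← mul_assoc]
      exact mul_mem hx hy
    · left
      have e : x * y = (reflO Q a ha * (reflO Q a ha * x) * (reflO Q a ha)⁻¹)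
          * (reflO Q a ha * y) := by
        have e2 : (reflO Q a ha * (reflO Q a ha * x) * (reflO Q a ha)⁻¹) * (reflO Q a ha * y)
            = (reflO Q a ha * reflO Q a ha) * (x * y) := by group
        rw [e2, hrr, one_mul]
      rw [e]
      exact mul_mem (Helper44.pairGroup_conj Q _ _ hx) hy
  · intro x _ hx
    rcases hx with hx | hx
    · exact Or.inl (inv_mem hx)
    · right
      have e : reflO Q a ha * x⁻¹
          = reflO Q a ha * (reflO Q a ha * x)⁻¹ * (reflO Q a ha)⁻¹ := by
        have e2 : reflO Q a ha * (reflO Q a ha * x)⁻¹ * (reflO Q a ha)⁻¹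
            = reflO Q a ha * x⁻¹ * ((reflO Q a ha)⁻¹ * (reflO Q a ha)⁻¹) := by group
        rw [e2, hinv, hrr, mul_one]
      rw [e]
      exact Helper44.pairGroup_conj Q _ _ (inv_mem hx)

end Generic

end Cfsg.Agent.Helper73.OctP
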