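import Cfsg.Agent.Helper45.OctE

set_option autoImplicit false
set_option linter.unusedSectionVars false
set_option linter.unusedSimpArgs false
set_option linter.unusedVariables false
set_option linter.style.haveILetI false

universe u

namespace Cfsg.Agent.Helper73.OctP

open Cfsg Matrix Module Cfsg.Agent.Helper45 Cfsg.Agent.Helper45.AO Cfsg.Agent.Helper45.OO
  Cfsg.Agent.Helper45.Oct

section Grp

/-- PIECE IX -/
theorem index_three {A : Type*} [Group A] (P : Subgroup A) (θ γ : A) (h1 : θ ∉ P) (h2 : γ ∈ P)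
    (h3 : θ⁻¹ * γ * θ ∉ P)
    (h : ∀ α : A, α ∈ P ∨ θ⁻¹ * α ∈ P ∨ θ⁻¹ * γ * α ∈ P) : P.index = 3 := by
  have h1' : θ⁻¹ ∉ P := fun hh => h1 (by simpa using P.inv_mem hh)
  have h3' : θ⁻¹ * (γ⁻¹ * θ) ∉ P := fun hh => h3 (by
    have := P.inv_mem hh
    simpa [mul_assoc] using this)
  have h4 : γ⁻¹ * θ ∉ P := fun hh => h1 (by
    have := P.mul_mem h2 hh
    simpa using this)
  have h4' : θ⁻¹ * γ ∉ P := fun hh => h4 (by
    have := P.inv_mem hh
    simpa using this)
  let f : Fin 3 → A ⧸ P := fun i => QuotientGroup.mk (![1, θ, γ⁻¹ * θ] i)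
  have hf : Function.Bijective f := by
    constructor
    · intro i j hij
      fin_cases i <;> fin_cases j
      · rfl
      · exfalso
        have : (1 : A)⁻¹ * θ ∈ P := QuotientGroup.eq.mp hij
        exact h1 (by simpa using this)
      · exfalso
        have : (1 : A)⁻¹ * (γ⁻¹ * θ) ∈ P := QuotientGroup.eq.mp hij
        exact h4 (by simpa using this)
      · exfalso
        have : θ⁻¹ * (1 : A) ∈ P := QuotientGroup.eq.mp hij
        exact h1' (by simpa using this)
      · rfl
      · exfalso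
        have : θ⁻¹ * (γ⁻¹ * θ) ∈ P := QuotientGroup.eq.mp hij
        exact h3' this
      · exfalso
        have : (γ⁻¹ * θ)⁻¹ * (1 : A) ∈ P := QuotientGroup.eq.mp hij
        exact h4' (by simpa using this)
      · exfalso
        have : (γ⁻¹ * θ)⁻¹ * θ ∈ P := QuotientGroup.eq.mp hij
        exact h3 (by simpa using this)
      · rfl
    · intro y
      obtain ⟨α, rfl⟩ := QuotientGroup.mk_surjective y
      rcases h α with h | h | h
      · refine ⟨0, ?_⟩
        show ((1 : A) : A ⧸ P) = (α : A ⧸ P)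
        rw [QuotientGroup.eq]; simpa using h
      · refine ⟨1, ?_⟩
        show ((θ : A) : A ⧸ P) = (α : A ⧸ P)
        rw [QuotientGroup.eq]; exact h
      · refine ⟨2, ?_⟩
        show ((γ⁻¹ * θ : A) : A ⧸ P) = (α : A ⧸ P)
        rw [QuotientGroup.eq]; simpa [mul_assoc] using h
  rw [Subgroup.index, ← Nat.card_congr (Equiv.ofBijective f hf)]
  simp

end Grp

end Cfsg.Agent.Helper73.OctP
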