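/-
helper73: CALL S88OE (helper43), pieces ZBLK (`oe_zero_blk`) and FLAG1 (`oe_flag_one`).
-/
import Mathlib
import Cfsg.Agent.Helper43.S88OEDefs

set_option autoImplicit false

namespace Cfsg.Agent.Helper73.S88OE

open Module Polynomial Cfsg.Agent.Helper43 Cfsg.Agent.Helper43.OrthEven Cfsg.Agent.Helper43.S88OE

universe u

section lin

variable {F : Type*} [Field F] {Va Vb : Type*} [AddCommGroup Va] [Module F Va] [AddCommGroup Vb]
  [Module F Vb]

/-- FLAG1 [S]: a nondegenerate space of dimension `i` has the flag of length `1`. -/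
theorem oe_flag_one [FiniteDimensional F Va] (Qa : QuadraticForm F Va) (T : Module.End F Va)
    (hnd : PolarNondeg Qa) (i : ℕ) (hdim : finrank F Va = i) : Flag Qa T i 1 := by
  intro s hs
  rcases Nat.lt_or_ge s 1 with h | h
  · have hs0 : s = 0 := by omega
    refine ⟨⊥, ?_, ?_, ?_⟩
    · rw [Submodule.map_bot]
    · intro v _
      exact Subtype.ext ((Submodule.mem_bot F).mp v.2)
    · rw [hs0, Nat.mul_zero]
      exact finrank_bot F Va
  · have hs1 : s = 1 := by omega
    refine ⟨⊤, le_top, ?_, ?_⟩
    · intro v hv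
      have h1 : (v : Va) = 0 := hnd v (fun w => by
        have h2 := hv ⟨w, Submodule.mem_top⟩
        simpa [QuadraticMap.polar] using h2)
      exact Subtype.ext h1
    · rw [hs1, Nat.mul_one, finrank_top, hdim]

end lin

section fin

variable {F : Type u} [Field F] [Fintype F]

/-- ZBLK [S]: the zero block. -/
theorem oe_zero_blk (r i : ℕ) :
    ∃ (V : Type u) (_ : AddCommGroup V) (_ : Module F V) (_ : FiniteDimensional F V)
      (Q : QuadraticForm F V) (T : Module.End F V),
      Blk r Q T ∧ T.charpoly = 1 ∧ finrank F V = 0 ∧ Flag Q T i 0 := by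
  refine ⟨PUnit.{u+1}, inferInstance, inferInstance, inferInstance, 0, 1, ⟨?_, ?_, ?_⟩, ?_, ?_, ?_⟩
  · intro v _
    exact Subsingleton.elim _ _
  · intro v
    rfl
  · apply LinearMap.ext
    intro v
    exact Subsingleton.elim _ _
  · have h1 : (1 : Module.End F PUnit.{u+1}).charpoly.natDegree = 0 := by
      rw [LinearMap.charpoly_natDegree]
      exact Module.finrank_zero_of_subsingleton
    exact (LinearMap.charpoly_monic _).natDegree_eq_zero.mp h1
  · exact Module.finrank_zero_of_subsingleton
  · intro s hs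
    have hs0 : s = 0 := by omega
    refine ⟨⊥, ?_, ?_, ?_⟩
    · rw [Submodule.map_bot]
    · intro v _
      exact Subsingleton.elim _ _
    · rw [hs0, Nat.mul_zero]
      exact finrank_bot F PUnit.{u+1}

end fin

end Cfsg.Agent.Helper73.S88OE
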