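import Mathlib
import Cfsg.Prelude.Def_GeometricClasses
import Cfsg.Agent.Helper69.E4Def

set_option autoImplicit false

namespace Cfsg.Agent.Helper73
open Cfsg.Agent.Helper69
open scoped Matrix

/-! ### NORMPOW -/

theorem e4_T1_pow_aux {F : Type*} [Field F] (ι : F) (hι : ι ^ 2 = -1) :
    (!![-(1 + ι), 0, -(1 + ι), 0; 0, -(1 + ι), 0, -(1 + ι);
      1 - ι, 0, -(1 - ι), 0; 0, 1 - ι, 0, -(1 - ι)] : Matrix (Fin 4) (Fin 4) F) ^ 3
      = (8 : F) • (1 : Matrix (Fin 4) (Fin 4) F) := by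
  have hι3 : ι ^ 3 = -ι := by linear_combination ι * hι
  ext i j
  fin_cases i <;> fin_cases j <;>
    simp [pow_succ, Matrix.mul_apply, Fin.sum_univ_four] <;>
    (try ring_nf) <;> (try simp only [hι, hι3]) <;> (try ring)

theorem e4_T1_pow {F : Type*} [Field F] (h2 : (2 : F) ≠ 0) (ι : F) (hι : ι ^ 2 = -1) :
    e4T1 ι ^ 3 = 1 := by
  unfold e4T1
  rw [smul_pow, e4_T1_pow_aux ι hι, smul_smul]
  have h8 : (2 : F)⁻¹ ^ 3 * 8 = 1 := by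
    field_simp
    norm_num
  rw [h8, one_smul]

theorem e4_T2_pow_aux {F : Type*} [Field F] (ι : F) (hι : ι ^ 2 = -1) :
    (!![ι, ι, ι, ι; -1, 1, -1, 1; -1, -1, 1, 1; -ι, ι, ι, -ι] : Matrix (Fin 4) (Fin 4) F) ^ 3
      = (8 : F) • (1 : Matrix (Fin 4) (Fin 4) F) := by
  have hι3 : ι ^ 3 = -ι := by linear_combination ι * hι
  ext i j
  fin_cases i <;> fin_cases j <;>
    simp [pow_succ, Matrix.mul_apply, Fin.sum_univ_four] <;>
    (try ring_nf) <;> (try simp only [hι, hι3]) <;> (try ring)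

theorem e4_T2_pow {F : Type*} [Field F] (h2 : (2 : F) ≠ 0) (ι : F) (hι : ι ^ 2 = -1) :
    e4T2 ι ^ 3 = 1 := by
  unfold e4T2
  rw [smul_pow, e4_T2_pow_aux ι hι, smul_smul]
  have h8 : (2 : F)⁻¹ ^ 3 * 8 = 1 := by
    field_simp
    norm_num
  rw [h8, one_smul]

theorem e4_Y5_pow_aux1 {F : Type*} [Field F] (ι : F) (hι : ι ^ 2 = -1) :
    (!![-ι, -ι, 1, -1; -ι, ι, 1, 1; -ι, -ι, -1, 1; -ι, ι, -1, -1] : Matrix (Fin 4) (Fin 4) F) ^ 2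
      = !![(-2), (-2)*ι, (-2)*ι, 2; (-2)*ι, (-2), (-2), 2*ι; (-2), 2*ι, (-2)*ι, (-2);
        2*ι, (-2), 2, 2*ι] := by
  ext i j
  fin_cases i <;> fin_cases j <;>
    simp [pow_succ, Matrix.mul_apply, Fin.sum_univ_four] <;>
    (try ring_nf) <;> (try simp only [hι]) <;> (try ring)

theorem e4_Y5_pow_aux2 {F : Type*} [Field F] (ι : F) (hι : ι ^ 2 = -1) :
    (!![(-2), (-2)*ι, (-2)*ι, 2; (-2)*ι, (-2), (-2), 2*ι; (-2), 2*ι, (-2)*ι, (-2);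
        2*ι, (-2), 2, 2*ι] : Matrix (Fin 4) (Fin 4) F) ^ 2
      = !![8*ι, 8*ι, 8*ι, 8*ι; 8*ι, (-8)*ι, 8*ι, (-8)*ι; 8, 8, (-8), (-8); (-8), 8, 8, (-8)] := by
  ext i j
  fin_cases i <;> fin_cases j <;>
    simp [pow_succ, Matrix.mul_apply, Fin.sum_univ_four] <;>
    (try ring_nf) <;> (try simp only [hι]) <;> (try ring)

theorem e4_Y5_pow_aux3 {F : Type*} [Field F] (ι : F) (hι : ι ^ 2 = -1) :
    (!![8*ι, 8*ι, 8*ι, 8*ι; 8*ι, (-8)*ι, 8*ι, (-8)*ι; 8, 8, (-8), (-8); (-8), 8, 8, (-8)] :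
        Matrix (Fin 4) (Fin 4) F) *
      !![-ι, -ι, 1, -1; -ι, ι, 1, 1; -ι, -ι, -1, 1; -ι, ι, -1, -1]
      = (32 : F) • (1 : Matrix (Fin 4) (Fin 4) F) := by
  ext i j
  fin_cases i <;> fin_cases j <;>
    simp [Matrix.mul_apply, Fin.sum_univ_four] <;>
    (try ring_nf) <;> (try simp only [hι]) <;> (try ring)

theorem e4_Y5_pow {F : Type*} [Field F] (h2 : (2 : F) ≠ 0) (ι : F) (hι : ι ^ 2 = -1) :
    e4Y5 ι ^ 5 = 1 := by
  unfold e4Y5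
  have h5 : ∀ M : Matrix (Fin 4) (Fin 4) F, M ^ 5 = (M ^ 2) ^ 2 * M := by
    intro M
    rw [← pow_mul, ← pow_succ]
  rw [smul_pow, h5, e4_Y5_pow_aux1 ι hι, e4_Y5_pow_aux2 ι hι, e4_Y5_pow_aux3 ι hι, smul_smul]
  have h32 : (2 : F)⁻¹ ^ 5 * 32 = 1 := by
    field_simp
    norm_num
  rw [h32, one_smul]

theorem e4_T1_trace {F : Type*} [Field F] (h2 : (2 : F) ≠ 0) (ι : F) :
    (e4T1 ι).trace = -2 := by
  unfold e4T1
  rw [Matrix.trace_smul]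
  simp [Matrix.trace, Fin.sum_univ_four]
  field_simp
  ring

theorem e4_T2_trace {F : Type*} [Field F] (h2 : (2 : F) ≠ 0) (ι : F) :
    (e4T2 ι).trace = 1 := by
  unfold e4T2
  rw [Matrix.trace_smul]
  simp [Matrix.trace, Fin.sum_univ_four]
  field_simp
  ring

theorem e4_Y5_ne_one {F : Type*} [Field F] (h2 : (2 : F) ≠ 0) (ι : F) :
    e4Y5 ι ≠ 1 := by
  intro h
  have h02 := congrFun (congrFun h 0) 2
  simp [e4Y5] at h02
  exact h2 h02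

end Cfsg.Agent.Helper73
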