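import Mathlib
import Cfsg.Prelude.Def_GeometricClasses
import Cfsg.Agent.Helper69.E4Def

set_option autoImplicit false

namespace Cfsg.Agent.Helper73
open Cfsg.Agent.Helper69
open scoped Matrix

/-! ### BAD5 -/

theorem e4_bad_five {F : Type*} [Field F] (h3 : (3 : F) ≠ 0) (h5 : (5 : F) ≠ 0) (t : F)
    (ht : t ^ 2 + t - 1 = 0) :
    ∃ x xi : Matrix (Fin 4) (Fin 4) F, x * xi = 1 ∧ x ^ 5 = 1 ∧ x.det = 1 ∧
      (∀ c : F, x ≠ c • (1 : Matrix (Fin 4) (Fin 4) F)) ∧ x.trace * xi.trace ≠ 1 := by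
  have ht' : t ^ 2 = 1 - t := by linear_combination ht
  have hx2 : (!![0, -1, 0, 0; 1, t, 0, 0; 0, 0, 1, 0; 0, 0, 0, 1] : Matrix (Fin 4) (Fin 4) F) ^ 2
      = !![-1, -t, 0, 0; t, -t, 0, 0; 0, 0, 1, 0; 0, 0, 0, 1] := by
    ext i j
    fin_cases i <;> fin_cases j <;>
      simp [pow_succ, Matrix.mul_apply, Fin.sum_univ_four] <;>
      (try ring_nf) <;> (try simp only [ht']) <;> (try ring)
  have hx4 : (!![-1, -t, 0, 0; t, -t, 0, 0; 0, 0, 1, 0; 0, 0, 0, 1] : Matrix (Fin 4) (Fin 4) F) ^ 2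
      = !![t, 1, 0, 0; -1, 0, 0, 0; 0, 0, 1, 0; 0, 0, 0, 1] := by
    ext i j
    fin_cases i <;> fin_cases j <;>
      simp [pow_succ, Matrix.mul_apply, Fin.sum_univ_four] <;>
      (try ring_nf) <;> (try simp only [ht']) <;> (try ring)
  have hx5 : (!![t, 1, 0, 0; -1, 0, 0, 0; 0, 0, 1, 0; 0, 0, 0, 1] : Matrix (Fin 4) (Fin 4) F) *
      !![0, -1, 0, 0; 1, t, 0, 0; 0, 0, 1, 0; 0, 0, 0, 1] = 1 := by
    ext i j
    fin_cases i <;> fin_cases j <;>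
      simp [Matrix.mul_apply, Fin.sum_univ_four, Matrix.one_apply]
  have hxxi : (!![0, -1, 0, 0; 1, t, 0, 0; 0, 0, 1, 0; 0, 0, 0, 1] : Matrix (Fin 4) (Fin 4) F) *
      !![t, 1, 0, 0; -1, 0, 0, 0; 0, 0, 1, 0; 0, 0, 0, 1] = 1 := by
    ext i j
    fin_cases i <;> fin_cases j <;>
      simp [Matrix.mul_apply, Fin.sum_univ_four, Matrix.one_apply]
  refine ⟨!![0, -1, 0, 0; 1, t, 0, 0; 0, 0, 1, 0; 0, 0, 0, 1],
    !![t, 1, 0, 0; -1, 0, 0, 0; 0, 0, 1, 0; 0, 0, 0, 1], hxxi, ?_, ?_, ?_, ?_⟩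
  · have h5' : ∀ M : Matrix (Fin 4) (Fin 4) F, M ^ 5 = (M ^ 2) ^ 2 * M := by
      intro M
      rw [← pow_mul, ← pow_succ]
    rw [h5', hx2, hx4, hx5]
  · rw [Matrix.det_succ_row_zero]
    simp [Fin.sum_univ_four, Matrix.det_fin_three, Fin.succAbove]
  · intro c h
    have h01 := congrFun (congrFun h 0) 1
    simp at h01
  · intro h
    have htr : (!![0, -1, 0, 0; 1, t, 0, 0; 0, 0, 1, 0; 0, 0, 0, 1] :
          Matrix (Fin 4) (Fin 4) F).trace *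
        (!![t, 1, 0, 0; -1, 0, 0, 0; 0, 0, 1, 0; 0, 0, 0, 1] : Matrix (Fin 4) (Fin 4) F).trace
        = (t + 2) * (t + 2) := by
      simp [Matrix.trace, Fin.sum_univ_four]
      ring
    rw [htr] at h
    apply h5
    linear_combination (3 * t - 1) * h - (3 * t - 1) * ht - 9 * ht

end Cfsg.Agent.Helper73
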