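import Mathlib
import Cfsg.Prelude.Def_GeometricClasses
import Cfsg.Agent.Helper69.E4Def

set_option autoImplicit false

namespace Cfsg.Agent.Helper73
open Cfsg.Agent.Helper69
open scoped Matrix

/-! ### BADX -/

theorem e4_bad_diag_aux {F : Type*} [Field F] (ζ ξ : F) (hζ1 : ξ ≠ ζ) (r : ℕ)
    (hζr : ζ ^ r = 1) (hξr : ξ ^ r = 1) (hdet : ξ * ζ ^ 3 = 1) :
    ∃ (x : Matrix (Fin 4) (Fin 4) F) (a : Fin 4 → F) (μ : F), x.det = 1 ∧ x ^ r = 1 ∧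
      (∀ c : F, x ≠ c • (1 : Matrix (Fin 4) (Fin 4) F)) ∧ a ≠ 0 ∧
      ∀ v : Fin 4 → F, a ⬝ᵥ v = 0 → x *ᵥ v = μ • v := by
  refine ⟨Matrix.diagonal ![ξ, ζ, ζ, ζ], ![1, 0, 0, 0], ζ, ?_, ?_, ?_, ?_, ?_⟩
  · rw [Matrix.det_diagonal, Fin.prod_univ_four]
    simp only [Matrix.cons_val_zero, Matrix.cons_val_one, Matrix.cons_val]
    linear_combination hdet
  · rw [Matrix.diagonal_pow, ← Matrix.diagonal_one]
    congr 1
    ext i
    fin_cases i <;> simp [hζr, hξr]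
  · intro c h
    have h00 := congrFun (congrFun h 0) 0
    have h11 := congrFun (congrFun h 1) 1
    simp at h00 h11
    exact hζ1 (h00.trans h11.symm)
  · intro h
    have h0 := congrFun h 0
    simp at h0
  · intro v hv
    have hv0 : v 0 = 0 := by
      simpa [dotProduct, Fin.sum_univ_four] using hv
    ext i
    rw [Matrix.mulVec_diagonal]
    fin_cases i <;> simp [hv0]

theorem e4_bad_diag {F : Type*} [Field F] (ζ : F) (hζ1 : ζ ≠ 1) (r : ℕ) (hr : r = 3 ∨ r = 5)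
    (hζr : ζ ^ r = 1) :
    ∃ (x : Matrix (Fin 4) (Fin 4) F) (a : Fin 4 → F) (μ : F), x.det = 1 ∧ x ^ r = 1 ∧
      (∀ c : F, x ≠ c • (1 : Matrix (Fin 4) (Fin 4) F)) ∧ a ≠ 0 ∧
      ∀ v : Fin 4 → F, a ⬝ᵥ v = 0 → x *ᵥ v = μ • v := by
  rcases hr with rfl | rfl
  · exact e4_bad_diag_aux ζ 1 (fun h => hζ1 h.symm) 3 hζr (one_pow _)
      (by rw [one_mul]; exact hζr)
  · have hζ0 : ζ ≠ 0 := by
      intro h
      rw [h] at hζr
      simp at hζr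
    refine e4_bad_diag_aux ζ (ζ ^ 2) ?_ 5 hζr ?_ ?_
    · intro h
      apply hζ1
      have h1 : ζ * ζ = ζ * 1 := by rw [mul_one, ← pow_two]; exact h
      exact mul_left_cancel₀ hζ0 h1
    · rw [← pow_mul, mul_comm, pow_mul, hζr, one_pow]
    · rw [← pow_add]
      exact hζr

theorem e4_bad_transvection {F : Type*} [Field F] (h5 : (5 : F) = 0) :
    ∃ (x : Matrix (Fin 4) (Fin 4) F) (a : Fin 4 → F) (μ : F), x.det = 1 ∧ x ^ 5 = 1 ∧
      (∀ c : F, x ≠ c • (1 : Matrix (Fin 4) (Fin 4) F)) ∧ a ≠ 0 ∧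
      ∀ v : Fin 4 → F, a ⬝ᵥ v = 0 → x *ᵥ v = μ • v := by
  have hx2 : (!![1, 1, 0, 0; 0, 1, 0, 0; 0, 0, 1, 0; 0, 0, 0, 1] : Matrix (Fin 4) (Fin 4) F) ^ 2
      = !![1, 2, 0, 0; 0, 1, 0, 0; 0, 0, 1, 0; 0, 0, 0, 1] := by
    ext i j
    fin_cases i <;> fin_cases j <;>
      simp [pow_succ, Matrix.mul_apply, Fin.sum_univ_four] <;> (try ring)
  have hx4 : (!![1, 2, 0, 0; 0, 1, 0, 0; 0, 0, 1, 0; 0, 0, 0, 1] : Matrix (Fin 4) (Fin 4) F) ^ 2
      = !![1, 4, 0, 0; 0, 1, 0, 0; 0, 0, 1, 0; 0, 0, 0, 1] := by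
    ext i j
    fin_cases i <;> fin_cases j <;>
      simp [pow_succ, Matrix.mul_apply, Fin.sum_univ_four] <;> (try ring)
  have hx5 : (!![1, 4, 0, 0; 0, 1, 0, 0; 0, 0, 1, 0; 0, 0, 0, 1] : Matrix (Fin 4) (Fin 4) F) *
      !![1, 1, 0, 0; 0, 1, 0, 0; 0, 0, 1, 0; 0, 0, 0, 1] = 1 := by
    ext i j
    fin_cases i <;> fin_cases j <;>
      simp [Matrix.mul_apply, Fin.sum_univ_four] <;> (try linear_combination h5)
  refine ⟨!![1, 1, 0, 0; 0, 1, 0, 0; 0, 0, 1, 0; 0, 0, 0, 1], ![0, 1, 0, 0], 1, ?_, ?_, ?_, ?_, ?_⟩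
  · rw [Matrix.det_succ_row_zero]
    simp [Fin.sum_univ_four, Matrix.det_fin_three, Fin.succAbove]
  · have h5' : ∀ M : Matrix (Fin 4) (Fin 4) F, M ^ 5 = (M ^ 2) ^ 2 * M := by
      intro M
      rw [← pow_mul, ← pow_succ]
    rw [h5', hx2, hx4, hx5]
  · intro c h
    have h01 := congrFun (congrFun h 0) 1
    simp at h01
  · intro h
    have h1 := congrFun h 1
    simp at h1
  · intro v hv
    have hv1 : v 1 = 0 := by
      simpa [dotProduct, Fin.sum_univ_four] using hv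
    ext i
    fin_cases i <;> simp [Matrix.mulVec, dotProduct, Fin.sum_univ_four, hv1]

end Cfsg.Agent.Helper73
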