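import Mathlib
import Cfsg.Prelude.Def_GeometricClasses
import Cfsg.Agent.Helper69.E4Def

set_option autoImplicit false

namespace Cfsg.Agent.Helper73
open Cfsg.Agent.Helper69
open scoped Matrix

/-! ### ORD5 -/

theorem e4_orderOf_five (p : ℕ) : orderOf (p : ZMod 5) = 4 ↔ (p % 5 = 2 ∨ p % 5 = 3) := by
  have h : (p : ZMod 5) = ((p % 5 : ℕ) : ZMod 5) := by
    rw [ZMod.natCast_eq_natCast_iff']
    simp
  rw [h]
  have hlt : p % 5 < 5 := Nat.mod_lt _ (by norm_num)
  have h0 : orderOf ((0 : ℕ) : ZMod 5) = 0 := by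
    rw [orderOf_eq_zero_iff']
    intro n hn
    simp [hn.ne']
    decide
  have h1 : orderOf ((1 : ℕ) : ZMod 5) = 1 := by simp
  have h2 : orderOf ((2 : ℕ) : ZMod 5) = 4 := by
    rw [orderOf_eq_iff (by norm_num)]
    refine ⟨by decide, ?_⟩
    intro m hm hm0
    interval_cases m <;> decide
  have h3 : orderOf ((3 : ℕ) : ZMod 5) = 4 := by
    rw [orderOf_eq_iff (by norm_num)]
    refine ⟨by decide, ?_⟩
    intro m hm hm0
    interval_cases m <;> decide
  have h4 : orderOf ((4 : ℕ) : ZMod 5) = 2 := by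
    rw [orderOf_eq_iff (by norm_num)]
    refine ⟨by decide, ?_⟩
    intro m hm hm0
    interval_cases m <;> decide
  generalize p % 5 = k at hlt ⊢
  interval_cases k
  · rw [h0]; norm_num
  · rw [h1]; norm_num
  · rw [h2]; norm_num
  · rw [h3]; norm_num
  · rw [h4]; norm_num

end Cfsg.Agent.Helper73
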