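import Mathlib
import Cfsg.Prelude.Def_GeometricClasses
import Cfsg.Agent.Helper69.E4Def

set_option autoImplicit false

namespace Cfsg.Agent.Helper73
open Cfsg.Agent.Helper69
open scoped Matrix

/-! ### AVG -/

theorem e4_avg_aux2 {F : Type*} [Field F] (M : Matrix (Fin 4) (Fin 4) F) :
    ∑ d ∈ Finset.range 2, ∑ e ∈ Finset.range 2,
      (e4X2 F ^ d * e4Z2 F ^ e) * M * (e4Z2 F ^ e * e4X2 F ^ d) =
    !![2 * (M 0 0 + M 1 1), 0, 2 * (M 0 2 + M 1 3), 0;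
       0, 2 * (M 0 0 + M 1 1), 0, 2 * (M 0 2 + M 1 3);
       2 * (M 2 0 + M 3 1), 0, 2 * (M 2 2 + M 3 3), 0;
       0, 2 * (M 2 0 + M 3 1), 0, 2 * (M 2 2 + M 3 3)] := by
  simp only [Finset.sum_range_succ, Finset.sum_range_zero, zero_add, pow_zero, pow_one, one_mul,
    mul_one]
  ext i j
  fin_cases i <;> fin_cases j <;>
    simp [e4X2, e4Z2, Matrix.mul_apply, Matrix.vecMul, dotProduct, Fin.sum_univ_four] <;> ring

theorem e4_avg_aux1 {F : Type*} [Field F] (N : Matrix (Fin 4) (Fin 4) F) :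
    ∑ b ∈ Finset.range 2, ∑ c ∈ Finset.range 2,
      (e4X1 F ^ b * e4Z1 F ^ c) * N * (e4Z1 F ^ c * e4X1 F ^ b) =
    !![2 * (N 0 0 + N 2 2), 2 * (N 0 1 + N 2 3), 0, 0;
       2 * (N 1 0 + N 3 2), 2 * (N 1 1 + N 3 3), 0, 0;
       0, 0, 2 * (N 0 0 + N 2 2), 2 * (N 0 1 + N 2 3);
       0, 0, 2 * (N 1 0 + N 3 2), 2 * (N 1 1 + N 3 3)] := by
  simp only [Finset.sum_range_succ, Finset.sum_range_zero, zero_add, pow_zero, pow_one, one_mul,
    mul_one]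
  ext i j
  fin_cases i <;> fin_cases j <;>
    simp [e4X1, e4Z1, Matrix.mul_apply, Matrix.vecMul, dotProduct, Fin.sum_univ_four] <;> ring

theorem e4_avg {F : Type*} [Field F] (M : Matrix (Fin 4) (Fin 4) F) :
    ∑ b ∈ Finset.range 2, ∑ c ∈ Finset.range 2, ∑ d ∈ Finset.range 2, ∑ e ∈ Finset.range 2,
      e4Pauli F b c d e * M * (e4Z2 F ^ e * e4X2 F ^ d * e4Z1 F ^ c * e4X1 F ^ b) =
      (4 * M.trace) • (1 : Matrix (Fin 4) (Fin 4) F) := by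
  have h1 : ∀ b c : ℕ, ∑ d ∈ Finset.range 2, ∑ e ∈ Finset.range 2,
      e4Pauli F b c d e * M * (e4Z2 F ^ e * e4X2 F ^ d * e4Z1 F ^ c * e4X1 F ^ b) =
      (e4X1 F ^ b * e4Z1 F ^ c) * (∑ d ∈ Finset.range 2, ∑ e ∈ Finset.range 2,
        (e4X2 F ^ d * e4Z2 F ^ e) * M * (e4Z2 F ^ e * e4X2 F ^ d)) *
        (e4Z1 F ^ c * e4X1 F ^ b) := by
    intro b c
    rw [Finset.mul_sum, Finset.sum_mul]
    refine Finset.sum_congr rfl fun d _ => ?_
    rw [Finset.mul_sum, Finset.sum_mul]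
    refine Finset.sum_congr rfl fun e _ => ?_
    simp only [e4Pauli, mul_assoc]
  rw [Finset.sum_congr rfl fun b _ => Finset.sum_congr rfl fun c _ => h1 b c]
  rw [e4_avg_aux2, e4_avg_aux1]
  ext i j
  fin_cases i <;> fin_cases j <;>
    simp [Matrix.trace, Fin.sum_univ_four, Matrix.one_apply] <;> ring

end Cfsg.Agent.Helper73
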