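import Mathlib
import Cfsg.Prelude.Def_GeometricClasses
import Cfsg.Agent.Helper69.E4Def

set_option autoImplicit false

namespace Cfsg.Agent.Helper73
open Cfsg.Agent.Helper69
open scoped Matrix

/-! ### COORD -/

theorem e4_coord_aux {F : Type*} [Field F] (M N : Matrix (Fin 4) (Fin 4) F)
    (c : Fin 4 → Fin 4 → F) (h : ∀ j, M *ᵥ c j = ∑ k, N k j • c k) :
    M * (Matrix.of fun i j => c j i) = (Matrix.of fun i j => c j i) * N := by
  ext i j
  have h1 := congrFun (h j) i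
  simp only [Matrix.mul_apply, Matrix.of_apply]
  have h2 : ∑ k, M i k * c j k = (M *ᵥ c j) i := rfl
  rw [h2, h1]
  simp [Finset.sum_apply, mul_comm]

theorem e4_coord {F : Type*} [Field F] (h2 : (2 : F) ≠ 0)
    (x1 z1 x2 z2 : Matrix (Fin 4) (Fin 4) F)
    (hx1 : x1 ^ 2 = 1) (hz1 : z1 ^ 2 = 1) (hx2 : x2 ^ 2 = 1) (hz2 : z2 ^ 2 = 1)
    (h11 : x1 * z1 = -(z1 * x1)) (h22 : x2 * z2 = -(z2 * x2))
    (hxx : x1 * x2 = x2 * x1) (hxz : x1 * z2 = z2 * x1) (hzx : z1 * x2 = x2 * z1)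
    (hzz : z1 * z2 = z2 * z1) :
    ∃ P : GL (Fin 4) F, x1 * (P : Matrix (Fin 4) (Fin 4) F) = (P : Matrix (Fin 4) (Fin 4) F) * e4X1 F ∧
      z1 * (P : Matrix (Fin 4) (Fin 4) F) = (P : Matrix (Fin 4) (Fin 4) F) * e4Z1 F ∧
      x2 * (P : Matrix (Fin 4) (Fin 4) F) = (P : Matrix (Fin 4) (Fin 4) F) * e4X2 F ∧
      z2 * (P : Matrix (Fin 4) (Fin 4) F) = (P : Matrix (Fin 4) (Fin 4) F) * e4Z2 F := by
  have hx1' : x1 * x1 = 1 := by rw [← pow_two]; exact hx1
  have hz1' : z1 * z1 = 1 := by rw [← pow_two]; exact hz1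
  have hx2' : x2 * x2 = 1 := by rw [← pow_two]; exact hx2
  have hz2' : z2 * z2 = 1 := by rw [← pow_two]; exact hz2
  have h11' : z1 * x1 = -(x1 * z1) := by rw [h11, neg_neg]
  have h22' : z2 * x2 = -(x2 * z2) := by rw [h22, neg_neg]
  have h4 : (4 : F) ≠ 0 := by
    have : (4 : F) = 2 * 2 := by norm_num
    rw [this]
    exact mul_ne_zero h2 h2
  set E : Matrix (Fin 4) (Fin 4) F := (1 + z1) * (1 + z2) with hE
  have hz1E : z1 * E = E := by
    have h : z1 * E = E + (z1 * z1 - 1) * (1 + z2) := by rw [hE]; noncomm_ring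
    rw [h, hz1', sub_self, zero_mul, add_zero]
  have hz2E : z2 * E = E := by
    have h : z2 * E = E + (z2 * z1 - z1 * z2) * (1 + z2) + (1 + z1) * (z2 * z2 - 1) := by
      rw [hE]; noncomm_ring
    rw [h, hzz, hz2', sub_self, sub_self, zero_mul, mul_zero, add_zero, add_zero]
  have hEne : E ≠ 0 := by
    intro h0
    have h1 : x1 * E * x1 = (1 - z1) * (1 + z2) * (x1 * x1) +
        (1 - z1) * (x1 * z2 - z2 * x1) * x1 + (x1 * z1 + z1 * x1) * (1 + z2) * x1 := by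
      rw [hE]; noncomm_ring
    rw [h0, hx1', hxz, sub_self, h11, neg_add_cancel, mul_zero, zero_mul, zero_mul, zero_mul,
      mul_zero, zero_mul, add_zero, add_zero, mul_one] at h1
    have h3 : (2 : F) • (1 + z2) = E + (1 - z1) * (1 + z2) := by
      rw [hE, two_smul]; noncomm_ring
    rw [h0, ← h1, add_zero] at h3
    have h5 : 1 + z2 = 0 := by
      rcases smul_eq_zero.mp h3 with h | h
      · exact absurd h h2
      · exact h
    have h6 : z2 = -1 := eq_neg_of_add_eq_zero_right h5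
    rw [h6] at h22
    have h7 : (2 : F) • x2 = 0 := by
      rw [two_smul]
      have h8 : x2 * -1 = -(-1 * x2) := h22
      rw [mul_neg, mul_one, neg_mul, one_mul, neg_neg] at h8
      nth_rewrite 1 [← h8]
      exact neg_add_cancel x2
    have h9 : x2 = 0 := by
      rcases smul_eq_zero.mp h7 with h | h
      · exact absurd h h2
      · exact h
    rw [h9, mul_zero] at hx2'
    exact zero_ne_one hx2'
  obtain ⟨w, hw⟩ : ∃ w : Fin 4 → F, E *ᵥ w ≠ 0 := by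
    by_contra hcon
    push Not at hcon
    apply hEne
    ext i j
    have := congrFun (hcon (Pi.single j 1)) i
    simpa using this
  obtain ⟨v, hv⟩ : ∃ v : Fin 4 → F, v = E *ᵥ w := ⟨_, rfl⟩
  rw [← hv] at hw
  have hz1v : z1 *ᵥ v = v := by rw [hv, Matrix.mulVec_mulVec, hz1E]
  have hz2v : z2 *ᵥ v = v := by rw [hv, Matrix.mulVec_mulVec, hz2E]
  -- the four columns
  obtain ⟨u1, hu1⟩ : ∃ u1 : Fin 4 → F, u1 = x2 *ᵥ v := ⟨_, rfl⟩
  obtain ⟨u2, hu2⟩ : ∃ u2 : Fin 4 → F, u2 = x1 *ᵥ v := ⟨_, rfl⟩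
  obtain ⟨u3, hu3⟩ : ∃ u3 : Fin 4 → F, u3 = x1 *ᵥ (x2 *ᵥ v) := ⟨_, rfl⟩
  -- relations
  have r_x1_0 : x1 *ᵥ v = u2 := hu2.symm
  have r_x1_1 : x1 *ᵥ u1 = u3 := by rw [hu1, hu3]
  have r_x1_2 : x1 *ᵥ u2 = v := by rw [hu2, Matrix.mulVec_mulVec, hx1', Matrix.one_mulVec]
  have r_x1_3 : x1 *ᵥ u3 = u1 := by
    rw [hu3, hu1, Matrix.mulVec_mulVec, hx1', Matrix.one_mulVec]
  have r_x2_0 : x2 *ᵥ v = u1 := hu1.symm
  have r_x2_1 : x2 *ᵥ u1 = v := by rw [hu1, Matrix.mulVec_mulVec, hx2', Matrix.one_mulVec]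
  have r_x2_2 : x2 *ᵥ u2 = u3 := by
    rw [hu2, hu3, Matrix.mulVec_mulVec, Matrix.mulVec_mulVec, hxx]
  have r_x2_3 : x2 *ᵥ u3 = u2 := by
    rw [hu3, hu2, Matrix.mulVec_mulVec, Matrix.mulVec_mulVec, ← hxx, mul_assoc, hx2', mul_one]
  have r_z1_1 : z1 *ᵥ u1 = u1 := by
    rw [hu1, Matrix.mulVec_mulVec, hzx, ← Matrix.mulVec_mulVec, hz1v]
  have r_z1_2 : z1 *ᵥ u2 = -u2 := by
    rw [hu2, Matrix.mulVec_mulVec, h11', Matrix.neg_mulVec, ← Matrix.mulVec_mulVec, hz1v]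
  have r_z1_3 : z1 *ᵥ u3 = -u3 := by
    rw [hu3, ← hu1, Matrix.mulVec_mulVec, h11', Matrix.neg_mulVec, ← Matrix.mulVec_mulVec,
      r_z1_1]
  have r_z2_1 : z2 *ᵥ u1 = -u1 := by
    rw [hu1, Matrix.mulVec_mulVec, h22', Matrix.neg_mulVec, ← Matrix.mulVec_mulVec, hz2v]
  have r_z2_2 : z2 *ᵥ u2 = u2 := by
    rw [hu2, Matrix.mulVec_mulVec, ← hxz, ← Matrix.mulVec_mulVec, hz2v]
  have r_z2_3 : z2 *ᵥ u3 = -u3 := by
    rw [hu3, ← hu1, Matrix.mulVec_mulVec, ← hxz, ← Matrix.mulVec_mulVec, r_z2_1,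
      Matrix.mulVec_neg]
  have hv0 : v ≠ 0 := hw
  have hu1ne : u1 ≠ 0 := by
    intro h
    rw [h, Matrix.mulVec_zero] at r_x2_1
    exact hv0 r_x2_1.symm
  have hu2ne : u2 ≠ 0 := by
    intro h
    rw [h, Matrix.mulVec_zero] at r_x1_2
    exact hv0 r_x1_2.symm
  have hu3ne : u3 ≠ 0 := by
    intro h
    rw [h, Matrix.mulVec_zero] at r_x1_3
    exact hu1ne r_x1_3.symm
  have hli : LinearIndependent F ![v, u1, u2, u3] := by
    rw [Fintype.linearIndependent_iff]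
    intro g hg
    rw [Fin.sum_univ_four] at hg
    simp only [Matrix.cons_val_zero, Matrix.cons_val_one, Matrix.cons_val] at hg
    have hg1 := congrArg (fun t => z1 *ᵥ t) hg
    have hg2 := congrArg (fun t => z2 *ᵥ t) hg
    have hg12 := congrArg (fun t => z1 *ᵥ (z2 *ᵥ t)) hg
    simp only [Matrix.mulVec_add, Matrix.mulVec_smul, Matrix.mulVec_zero, Matrix.mulVec_neg,
      hz1v, hz2v, r_z1_1, r_z1_2, r_z1_3, r_z2_1, r_z2_2, r_z2_3] at hg1 hg2 hg12
    have e0 : (4 : F) • (g 0 • v) = 0 := by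
      linear_combination (norm := module) hg + hg1 + hg2 + hg12
    have e1 : (4 : F) • (g 1 • u1) = 0 := by
      linear_combination (norm := module) hg + hg1 - hg2 - hg12
    have e2 : (4 : F) • (g 2 • u2) = 0 := by
      linear_combination (norm := module) hg - hg1 + hg2 - hg12
    have e3 : (4 : F) • (g 3 • u3) = 0 := by
      linear_combination (norm := module) hg - hg1 - hg2 + hg12
    have key : ∀ (a : F) (u : Fin 4 → F), u ≠ 0 → (4 : F) • (a • u) = 0 → a = 0 := by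
      intro a u hu h
      rcases smul_eq_zero.mp h with h | h
      · exact absurd h h4
      · rcases smul_eq_zero.mp h with h | h
        · exact h
        · exact absurd h hu
    intro i
    fin_cases i
    · exact key _ _ hv0 e0
    · exact key _ _ hu1ne e1
    · exact key _ _ hu2ne e2
    · exact key _ _ hu3ne e3
  have hunit : IsUnit (Matrix.of fun i j => (![v, u1, u2, u3] : Fin 4 → Fin 4 → F) j i) :=
    Matrix.linearIndependent_cols_iff_isUnit.mp hli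
  refine ⟨hunit.unit, ?_, ?_, ?_, ?_⟩
  · rw [IsUnit.unit_spec]
    apply e4_coord_aux
    intro j
    fin_cases j <;> simp [e4X1, Fin.sum_univ_four, r_x1_0, r_x1_1, r_x1_2, r_x1_3]
  · rw [IsUnit.unit_spec]
    apply e4_coord_aux
    intro j
    fin_cases j <;> simp [e4Z1, Fin.sum_univ_four, hz1v, r_z1_1, r_z1_2, r_z1_3]
  · rw [IsUnit.unit_spec]
    apply e4_coord_aux
    intro j
    fin_cases j <;> simp [e4X2, Fin.sum_univ_four, r_x2_0, r_x2_1, r_x2_2, r_x2_3]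
  · rw [IsUnit.unit_spec]
    apply e4_coord_aux
    intro j
    fin_cases j <;> simp [e4Z2, Fin.sum_univ_four, hz2v, r_z2_1, r_z2_2, r_z2_3]

end Cfsg.Agent.Helper73
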