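import Mathlib
import Cfsg.Prelude.Def_GeometricClasses
import Cfsg.Prelude.Def_LieClassical
import Cfsg.Agent.Helper69.E4Def
import Cfsg.Agent.Helper69.E4UDef
import Cfsg.Agent.Helper97.UForm

set_option autoImplicit false

namespace Cfsg.Agent.Helper73
open Cfsg.Agent.Helper69 Cfsg.Agent.Helper97
open scoped Matrix

/-! ### BAD3UB -/

theorem e4u_bad_transvection {F : Type*} [Field F] [Fintype F] {p : ℕ}
    (hF : Fintype.card F = p ^ 2) (h3 : (3 : F) = 0) :
    ∃ (x : GL (Fin 4) F) (a : Fin 4 → F) (μ : F),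
      x ∈ Cfsg.GU 4 F p ⊓ Cfsg.Geo.specialLinear (Fin 4) F ∧
      (x : Matrix (Fin 4) (Fin 4) F) ^ 3 = 1 ∧
      (∀ c : F, (x : Matrix (Fin 4) (Fin 4) F) ≠ c • (1 : Matrix (Fin 4) (Fin 4) F)) ∧ a ≠ 0 ∧
      ∀ v : Fin 4 → F, a ⬝ᵥ v = 0 → (x : Matrix (Fin 4) (Fin 4) F) *ᵥ v = μ • v := by
  classical
  obtain ⟨σ, hσ⟩ := exists_sigma hF
  obtain ⟨ε, hε⟩ := hσ.exists_norm_eq hF (-1) (by rw [map_neg, map_one]) (by norm_num)
  obtain ⟨c, hc0, hc⟩ := hσ.exists_trace_zero
  have hS := hσ.isSesq (n := 4)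
  obtain ⟨u, hudef⟩ : ∃ u : Fin 4 → F, u = ![1, ε, 0, 0] := ⟨_, rfl⟩
  have hu0 : u 0 = 1 := by rw [hudef]; rfl
  have hu1 : u 1 = ε := by rw [hudef]; rfl
  have hu2 : u 2 = 0 := by rw [hudef]; rfl
  have hu3 : u 3 = 0 := by rw [hudef]; rfl
  have hform : ∀ v : Fin 4 → F, Cfsg.hermForm 4 F p v u = v 0 + v 1 * σ ε := by
    intro v
    rw [hσ.herm_eq, Fin.sum_univ_four, hu0, hu1, hu2, hu3]
    simp only [map_one, map_zero, mul_one, mul_zero, add_zero]
  have hu : Cfsg.hermForm 4 F p u u = 0 := by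
    rw [hform, hu0, hu1, hε]
    ring
  obtain ⟨t, htmem, ht, -⟩ := hσ.exists_utv u hu c hc
  -- the form is unchanged by `t` in the first variable
  have hinv : ∀ v : Fin 4 → F,
      Cfsg.hermForm 4 F p ((t : Matrix (Fin 4) (Fin 4) F) *ᵥ v) u =
        Cfsg.hermForm 4 F p v u := by
    intro v
    rw [ht, hS.add_left, hS.smul_left, hu, mul_zero, add_zero]
  have hpow : ∀ (k : ℕ) (v : Fin 4 → F), ((t : Matrix (Fin 4) (Fin 4) F) ^ k) *ᵥ v =
      v + ((k : F) * (c * Cfsg.hermForm 4 F p v u)) • u := by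
    intro k
    induction k with
    | zero =>
      intro v
      simp
    | succ k ih =>
      intro v
      rw [pow_succ, ← Matrix.mulVec_mulVec, ih, hinv, ht]
      push_cast
      module
  refine ⟨t, fun i => σ (u i), 1, htmem, ?_, ?_, ?_, ?_⟩
  · -- cube
    ext i j
    have h4 := congrFun (hpow 3 (Pi.single j 1)) i
    have h5 : ((3 : ℕ) : F) = 0 := by exact_mod_cast h3
    rw [h5, zero_mul, zero_smul, add_zero] at h4
    have h6 : ((t : Matrix (Fin 4) (Fin 4) F) ^ 3) i j = (Pi.single j 1 : Fin 4 → F) i := by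
      simpa using h4
    rw [h6, Matrix.one_apply, Pi.single_apply]
  · -- not scalar
    intro c' hc'
    have h1 : ∀ v : Fin 4 → F, v + (c * Cfsg.hermForm 4 F p v u) • u = c' • v := by
      intro v
      rw [← ht, hc', Matrix.smul_mulVec, Matrix.one_mulVec]
    have h2 := congrFun (h1 ![0, 0, 1, 0]) 2
    rw [hform] at h2
    simp at h2
    have h5 := congrFun (h1 ![1, 0, 0, 0]) 0
    rw [hform] at h5
    simp [← h2, hu0] at h5
    exact hc0 h5
  · intro h
    have h1 := congrFun h 0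
    simp [hu0] at h1
  · intro v hv
    have h1 : Cfsg.hermForm 4 F p v u = 0 := by
      rw [hσ.herm_eq]
      rw [← hv]
      simp only [dotProduct]
      exact Finset.sum_congr rfl fun i _ => mul_comm _ _
    rw [ht, h1, mul_zero, zero_smul, add_zero, one_smul]

end Cfsg.Agent.Helper73
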