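import Mathlib
import Cfsg.Prelude.Def_GeometricClasses
import Cfsg.Prelude.Def_LieClassical
import Cfsg.Agent.Helper69.E4Def
import Cfsg.Agent.Helper69.E4UDef
import Cfsg.Agent.Helper97.UForm
import Cfsg.Agent.Helper73.E4NORMPOW
import Cfsg.Agent.Helper14.E4UIOTA
import Cfsg.Agent.Helper14.E4UTU
import Cfsg.Agent.Helper10.E4UCUBEU1
import Cfsg.Agent.Helper10.E4UOMEGA
import Cfsg.Agent.Helper58.E4UADJ3
import Cfsg.Agent.Helper58.E4UCF3A

set_option autoImplicit false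

namespace Cfsg.Agent.Helper73
open Cfsg.Agent.Helper69 Cfsg.Agent.Helper97
open scoped Matrix

/-- powers of a unitary matrix are unitary -/
theorem e4u_cubeu_pow_unitary {F : Type*} [Field F] (σ : F ≃+* F)
    (x : Matrix (Fin 4) (Fin 4) F) (hU : xᵀ * x.map σ = 1) (n : ℕ) :
    (x ^ n)ᵀ * (x ^ n).map σ = 1 := by
  induction n with
  | zero =>
    rw [pow_zero, Matrix.transpose_one, Matrix.map_one _ (map_zero σ) (map_one σ), Matrix.one_mul]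
  | succ n ih =>
    rw [pow_succ, Matrix.transpose_mul, Matrix.map_mul, Matrix.mul_assoc,
      ← Matrix.mul_assoc ((x ^ n)ᵀ), ih, Matrix.one_mul, hU]

/-- similar matrices have the same trace -/
theorem e4u_cubeu_trace {F : Type*} [Field F] (y B D : Matrix (Fin 4) (Fin 4) F)
    (hB : B.det ≠ 0) (h : y * B = B * D) : y.trace = D.trace := by
  have hBu : IsUnit B.det := isUnit_iff_ne_zero.mpr hB
  have h1 : y = B * D * B⁻¹ := by
    rw [← h, Matrix.mul_assoc, Matrix.mul_nonsing_inv _ hBu, Matrix.mul_one]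
  rw [h1, Matrix.trace_mul_comm, ← Matrix.mul_assoc, Matrix.nonsing_inv_mul _ hBu, Matrix.one_mul]

theorem e4u_cubeu_J1_det (F : Type*) [Field F] : (e4uJ1 F).det = 1 := by
  unfold e4uJ1
  rw [Matrix.det_succ_row_zero]
  simp [Fin.sum_univ_four, Matrix.det_fin_three, Fin.succAbove]

theorem e4u_cubeu_J2_det (F : Type*) [Field F] : (e4uJ2 F).det = -1 := by
  unfold e4uJ2
  rw [Matrix.det_succ_row_zero]
  simp [Fin.sum_univ_four, Matrix.det_fin_three, Fin.succAbove]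

/-- assembly of CUBEU from the conclusions of CANON, DICH3 and CF3B -/
theorem e4u_cube_aux {F : Type*} [Field F] [Fintype F] {p : ℕ} [Fact p.Prime] [CharP F p]
    (hF : Fintype.card F = p ^ 2) (hp4 : p % 4 = 3) (hp3 : p % 3 = 1) (h2 : (2 : F) ≠ 0)
    (σ : F ≃+* F) (hσ : IsSigma p σ) (ι : F) (hι : ι ^ 2 = -1)
    (x : Matrix (Fin 4) (Fin 4) F) (hU : xᵀ * x.map σ = 1) (z : F)
    (hx : x ^ 3 = z • (1 : Matrix (Fin 4) (Fin 4) F))
    (hns : ∀ c : F, x ≠ c • (1 : Matrix (Fin 4) (Fin 4) F))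
    (hcanon : ∀ (D J : Matrix (Fin 4) (Fin 4) F), J.det ≠ 0 →
      (∀ δ : F, δ * σ δ = 1 → ∃ n₀ : Matrix (Fin 4) (Fin 4) F,
        n₀ * D = D * n₀ ∧ n₀ᵀ * J * n₀.map σ = J ∧ n₀.det = δ) →
      ∀ (y y' B B' : Matrix (Fin 4) (Fin 4) F), y * B = B * D → Bᵀ * B.map σ = J →
        y' * B' = B' * D → B'ᵀ * B'.map σ = J →
        ∃ g : Matrix (Fin 4) (Fin 4) F, gᵀ * g.map σ = 1 ∧ g.det = 1 ∧ y * g = g * y')
    (hdich : ∀ (ω : F), ω ^ 2 + ω + 1 = 0 → σ ω = ω →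
      ∀ (y : Matrix (Fin 4) (Fin 4) F), yᵀ * y.map σ = 1 → y ^ 3 = 1 → y ≠ 1 →
      ∃ B₀ : Matrix (Fin 4) (Fin 4) F, B₀.det ≠ 0 ∧
        (y * B₀ = B₀ * e4uD1 ω ∨ y * B₀ = B₀ * e4uD2 ω))
    (hcf2 : (3 : F) ≠ 0 → ∀ (ω : F), ω ^ 2 + ω + 1 = 0 → σ ω = ω →
      ∀ (y B₀ : Matrix (Fin 4) (Fin 4) F), yᵀ * y.map σ = 1 → B₀.det ≠ 0 →
      y * B₀ = B₀ * e4uD2 ω →
      ∃ B : Matrix (Fin 4) (Fin 4) F, y * B = B * e4uD2 ω ∧ Bᵀ * B.map σ = e4uJ2 F) :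
    ∃ (g : Matrix (Fin 4) (Fin 4) F) (c : F), gᵀ * g.map σ = 1 ∧ g.det = 1 ∧
      (x * g = g * (c • e4T1 ι) ∨ x * g = g * (c • e4T2 ι)) := by
  have hσp : ∀ x : F, σ x = x ^ p := hσ.pow
  have hσι : σ ι = -ι := Cfsg.Agent.Helper14.e4u_sigma_iota hp4 σ hσp ι hι
  have h3 : (3 : F) ≠ 0 := by
    intro h
    have h3' : ((3 : ℕ) : F) = 0 := by exact_mod_cast h
    rw [CharP.cast_eq_zero_iff F p] at h3'
    have hp := (Fact.out : p.Prime)
    have h4 := (Nat.prime_dvd_prime_iff_eq hp Nat.prime_three).mp h3'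
    omega
  have hx3U := e4u_cubeu_pow_unitary σ x hU 3
  rw [hx] at hx3U
  have hzz : z * σ z = 1 := by
    rw [Matrix.transpose_smul, Matrix.map_smul' (⇑σ) z 1 (map_mul σ), Matrix.smul_mul,
      Matrix.mul_smul, smul_smul, Matrix.transpose_one,
      Matrix.map_one _ (map_zero σ) (map_one σ), Matrix.one_mul] at hx3U
    have h00 := congrFun (congrFun hx3U 0) 0
    simpa using h00
  obtain ⟨c, hc3, hcσ⟩ := Cfsg.Agent.Helper10.e4u_cbrt_unitary hp3 σ hσp z hzz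
  have hc0 : c ≠ 0 := by
    rintro rfl
    rw [zero_mul] at hcσ
    exact zero_ne_one hcσ
  have hy3 : (c⁻¹ • x) ^ 3 = 1 := by
    rw [smul_pow, hx, smul_smul, ← hc3]
    have h1 : c⁻¹ ^ 3 * c ^ 3 = 1 := by
      field_simp
    rw [h1, one_smul]
  have hyU : (c⁻¹ • x)ᵀ * (c⁻¹ • x).map σ = 1 := by
    rw [Matrix.transpose_smul, Matrix.map_smul' (⇑σ) c⁻¹ x (map_mul σ), Matrix.smul_mul,
      Matrix.mul_smul, smul_smul, hU, map_inv₀]
    have h1 : c⁻¹ * (σ c)⁻¹ = 1 := by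
      rw [← mul_inv, hcσ, inv_one]
    rw [h1, one_smul]
  have hy1 : c⁻¹ • x ≠ 1 := by
    intro h
    apply hns c
    rw [← h, smul_smul, mul_inv_cancel₀ hc0, one_smul]
  obtain ⟨ω, hω, hσω⟩ := Cfsg.Agent.Helper10.e4u_exists_omega hF hp3 σ hσp
  obtain ⟨B₀, hB₀, hB₀y⟩ := hdich ω hω hσω (c⁻¹ • x) hyU hy3 hy1
  have hT1U := Cfsg.Agent.Helper14.e4u_T1_unitary h2 σ ι hι hσι
  have hT2U := Cfsg.Agent.Helper14.e4u_T2_unitary h2 σ ι hι hσι
  have hT1p := e4_T1_pow h2 ι hι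
  have hT2p := e4_T2_pow h2 ι hι
  have hT1tr := e4_T1_trace h2 ι
  have hT2tr := e4_T2_trace h2 ι
  have htrD1 : (e4uD1 ω).trace = -2 := by
    simp [e4uD1, Matrix.trace, Fin.sum_univ_four]
    linear_combination 2 * hω
  have htrD2 : (e4uD2 ω).trace = 1 := by
    simp [e4uD2, Matrix.trace, Fin.sum_univ_four]
    linear_combination hω
  have htr1 : (1 : Matrix (Fin 4) (Fin 4) F).trace = 4 := by
    simp [Matrix.trace]
  have hT1ne : e4T1 ι ≠ 1 := by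
    intro h
    rw [h, htr1] at hT1tr
    apply h3
    apply mul_left_cancel₀ h2
    linear_combination hT1tr
  have hT2ne : e4T2 ι ≠ 1 := by
    intro h
    rw [h, htr1] at hT2tr
    apply h3
    linear_combination hT2tr
  have hxg : ∀ g y' : Matrix (Fin 4) (Fin 4) F, (c⁻¹ • x) * g = g * y' →
      x * g = g * (c • y') := by
    intro g y' h
    have h1 : x * g = c • ((c⁻¹ • x) * g) := by
      rw [Matrix.smul_mul, smul_smul, mul_inv_cancel₀ hc0, one_smul]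
    rw [h1, h, Matrix.mul_smul]
  rcases hB₀y with hD1 | hD2
  · obtain ⟨B, hBy, hBJ⟩ := Cfsg.Agent.Helper58.e4u_canon_form_one h3 σ hσ.inv ω hω hσω
      (c⁻¹ • x) B₀ hyU hB₀ hD1
    obtain ⟨B₀', hB₀', hB₀y'⟩ := hdich ω hω hσω (e4T1 ι) hT1U hT1p hT1ne
    have hD1' : e4T1 ι * B₀' = B₀' * e4uD1 ω := by
      rcases hB₀y' with h | h
      · exact h
      · exfalso
        have h5 := e4u_cubeu_trace _ _ _ hB₀' h
        rw [hT1tr, htrD2] at h5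
        apply h3
        linear_combination -h5
    obtain ⟨B', hBy', hBJ'⟩ := Cfsg.Agent.Helper58.e4u_canon_form_one h3 σ hσ.inv ω hω hσω
      (e4T1 ι) B₀' hT1U hB₀' hD1'
    have hJdet : (e4uJ1 F).det ≠ 0 := by
      rw [e4u_cubeu_J1_det]
      exact one_ne_zero
    obtain ⟨g, hgU, hgdet, hyg⟩ := hcanon (e4uD1 ω) (e4uJ1 F) hJdet
      (fun δ hδ => Cfsg.Agent.Helper58.e4u_adjust_one σ hσ ω δ hδ)
      (c⁻¹ • x) (e4T1 ι) B B' hBy hBJ hBy' hBJ'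
    exact ⟨g, c, hgU, hgdet, Or.inl (hxg g _ hyg)⟩
  · obtain ⟨B, hBy, hBJ⟩ := hcf2 h3 ω hω hσω (c⁻¹ • x) B₀ hyU hB₀ hD2
    obtain ⟨B₀', hB₀', hB₀y'⟩ := hdich ω hω hσω (e4T2 ι) hT2U hT2p hT2ne
    have hD2' : e4T2 ι * B₀' = B₀' * e4uD2 ω := by
      rcases hB₀y' with h | h
      · exfalso
        have h5 := e4u_cubeu_trace _ _ _ hB₀' h
        rw [hT2tr, htrD1] at h5
        apply h3
        linear_combination h5
      · exact h
    obtain ⟨B', hBy', hBJ'⟩ := hcf2 h3 ω hω hσω (e4T2 ι) B₀' hT2U hB₀' hD2'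
    have hJdet : (e4uJ2 F).det ≠ 0 := by
      rw [e4u_cubeu_J2_det]
      exact neg_ne_zero.mpr one_ne_zero
    obtain ⟨g, hgU, hgdet, hyg⟩ := hcanon (e4uD2 ω) (e4uJ2 F) hJdet
      (fun δ hδ => Cfsg.Agent.Helper58.e4u_adjust_two σ ω δ hδ)
      (c⁻¹ • x) (e4T2 ι) B B' hBy hBJ hBy' hBJ'
    exact ⟨g, c, hgU, hgdet, Or.inr (hxg g _ hyg)⟩

end Cfsg.Agent.Helper73
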