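import Mathlib
import Cfsg.Prelude.Def_GeometricClasses
import Cfsg.Prelude.Def_LieClassical
import Cfsg.Agent.Helper69.E4Def
import Cfsg.Agent.Helper69.E4UDef
import Cfsg.Agent.Helper97.UForm
import Cfsg.Agent.Helper73.E4NORMPOW
import Cfsg.Agent.Helper73.E4UCUBEUAux
import Cfsg.Agent.Helper14.E4UIOTA
import Cfsg.Agent.Helper14.E4UTU
import Cfsg.Agent.Helper10.E4UFIFTHU1
import Cfsg.Agent.Helper10.E4UGOLDU
import Cfsg.Agent.Helper70.E4UDICH5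
import Cfsg.Agent.Helper93.E4UCF5
import Cfsg.Agent.Helper4.E4UADJ5
import Cfsg.Agent.Helper70.E4UCANON

set_option autoImplicit false

namespace Cfsg.Agent.Helper73
open Cfsg.Agent.Helper69 Cfsg.Agent.Helper97
open scoped Matrix

theorem e4u_fifthu_J5_det (F : Type*) [Field F] : (e4uJ5 F).det = 1 := by
  unfold e4uJ5
  rw [Matrix.det_succ_row_zero]
  simp [Fin.sum_univ_four, Matrix.det_fin_three, Fin.succAbove]

/-! ### FIFTHU -/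

theorem e4u_fifth {F : Type*} [Field F] [Fintype F] {p : ℕ} [Fact p.Prime] [CharP F p]
    (hF : Fintype.card F = p ^ 2) (hp4 : p % 4 = 3) (hord : p % 5 = 2 ∨ p % 5 = 3)
    (h2 : (2 : F) ≠ 0) (σ : F ≃+* F) (hσ : IsSigma p σ) (ι : F) (hι : ι ^ 2 = -1)
    (x : Matrix (Fin 4) (Fin 4) F) (hU : xᵀ * x.map σ = 1) (hdet : x.det = 1) (z : F)
    (hx : x ^ 5 = z • (1 : Matrix (Fin 4) (Fin 4) F))
    (hns : ∀ c : F, x ≠ c • (1 : Matrix (Fin 4) (Fin 4) F)) :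
    ∃ (g : Matrix (Fin 4) (Fin 4) F) (c : F), gᵀ * g.map σ = 1 ∧ g.det = 1 ∧
      x * g = g * (c • e4Y5 ι) := by
  have hσp : ∀ x : F, σ x = x ^ p := hσ.pow
  have hσι : σ ι = -ι := Cfsg.Agent.Helper14.e4u_sigma_iota hp4 σ hσp ι hι
  have h5 : (5 : F) ≠ 0 := by
    intro h
    have h5' : ((5 : ℕ) : F) = 0 := by exact_mod_cast h
    rw [CharP.cast_eq_zero_iff F p] at h5'
    have hp := (Fact.out : p.Prime)
    have h4 := (Nat.prime_dvd_prime_iff_eq hp Nat.prime_five).mp h5'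
    omega
  have hx5U := e4u_cubeu_pow_unitary σ x hU 5
  rw [hx] at hx5U
  have hzz : z * σ z = 1 := by
    rw [Matrix.transpose_smul, Matrix.map_smul' (⇑σ) z 1 (map_mul σ), Matrix.smul_mul,
      Matrix.mul_smul, smul_smul, Matrix.transpose_one,
      Matrix.map_one _ (map_zero σ) (map_one σ), Matrix.one_mul] at hx5U
    have h00 := congrFun (congrFun hx5U 0) 0
    simpa using h00
  obtain ⟨c, hc5, hcσ⟩ := Cfsg.Agent.Helper10.e4u_fifth_root_unitary hord σ hσp z hzz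
  have hc0 : c ≠ 0 := by
    rintro rfl
    rw [zero_mul] at hcσ
    exact zero_ne_one hcσ
  have hy5 : (c⁻¹ • x) ^ 5 = 1 := by
    rw [smul_pow, hx, smul_smul, ← hc5]
    have h1 : c⁻¹ ^ 5 * c ^ 5 = 1 := by
      field_simp
    rw [h1, one_smul]
  have hyU : (c⁻¹ • x)ᵀ * (c⁻¹ • x).map σ = 1 := by
    rw [Matrix.transpose_smul, Matrix.map_smul' (⇑σ) c⁻¹ x (map_mul σ), Matrix.smul_mul,
      Matrix.mul_smul, smul_smul, hU, map_inv₀]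
    have h1 : c⁻¹ * (σ c)⁻¹ = 1 := by
      rw [← mul_inv, hcσ, inv_one]
    rw [h1, one_smul]
  have hy1 : c⁻¹ • x ≠ 1 := by
    intro h
    apply hns c
    rw [← h, smul_smul, mul_inv_cancel₀ hc0, one_smul]
  obtain ⟨τ, hτ, hστ⟩ := Cfsg.Agent.Helper10.e4u_exists_golden hF h2 hord σ hσ
  obtain ⟨B₀, hB₀, hB₀y⟩ := Cfsg.Agent.Helper70.e4u_order_five_split hF hord h2 σ hσ τ hτ hστ
    (c⁻¹ • x) hyU hy5 hy1
  obtain ⟨B, hBy, hBJ⟩ := Cfsg.Agent.Helper93.e4u_canon_form_five h5 σ hσ.inv τ hτ hστ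
    (c⁻¹ • x) B₀ hyU hB₀ hB₀y
  have hYU := Cfsg.Agent.Helper14.e4u_Y5_unitary h2 σ ι hι hσι
  have hYp := e4_Y5_pow h2 ι hι
  have hYne := e4_Y5_ne_one h2 ι
  obtain ⟨B₀', hB₀', hB₀y'⟩ := Cfsg.Agent.Helper70.e4u_order_five_split hF hord h2 σ hσ τ hτ hστ
    (e4Y5 ι) hYU hYp hYne
  obtain ⟨B', hBy', hBJ'⟩ := Cfsg.Agent.Helper93.e4u_canon_form_five h5 σ hσ.inv τ hτ hστ
    (e4Y5 ι) B₀' hYU hB₀' hB₀y'
  have hJdet : (e4uJ5 F).det ≠ 0 := by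
    rw [e4u_fifthu_J5_det]
    exact one_ne_zero
  obtain ⟨g, hgU, hgdet, hyg⟩ := Cfsg.Agent.Helper70.e4u_canon σ (e4uD5 τ) (e4uJ5 F) hJdet
    (fun δ hδ => Cfsg.Agent.Helper4.e4u_adjust_five hF h2 h5 σ hσ τ hτ hστ δ hδ)
    (c⁻¹ • x) (e4Y5 ι) B B' hBy hBJ hBy' hBJ'
  refine ⟨g, c, hgU, hgdet, ?_⟩
  have h1 : x * g = c • ((c⁻¹ • x) * g) := by
    rw [Matrix.smul_mul, smul_smul, mul_inv_cancel₀ hc0, one_smul]
  rw [h1, hyg, Matrix.mul_smul]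

end Cfsg.Agent.Helper73
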