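import Mathlib

set_option autoImplicit false

namespace Cfsg.Agent.Helper73
open scoped Matrix

/-- assembly of INVU from the conclusions of INVU1 and INVU2 -/
theorem e4u_involution_aux {F : Type*} [Field F] (σ : F ≃+* F)
    (x : Matrix (Fin 4) (Fin 4) F) (hU : xᵀ * x.map σ = 1) (z : F)
    (hx : x ^ 2 = z • (1 : Matrix (Fin 4) (Fin 4) F))
    (c : F) (hc2 : c ^ 2 = z) (hcσ : c * σ c = 1)
    (hdiag : ∀ y : Matrix (Fin 4) (Fin 4) F, y ^ 2 = 1 → yᵀ * y.map σ = 1 →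
      ∃ (U : Matrix (Fin 4) (Fin 4) F) (d : Fin 4 → F), Uᵀ * U.map σ = 1 ∧
        (∀ i, d i ^ 2 = 1) ∧ y * U = U * Matrix.diagonal d) :
    ∃ (g : Matrix (Fin 4) (Fin 4) F) (c : F) (d : Fin 4 → F), gᵀ * g.map σ = 1 ∧ g.det = 1 ∧
      (∀ i, d i ^ 2 = 1) ∧ x * g = g * (c • Matrix.diagonal d) := by
  have hc0 : c ≠ 0 := by
    rintro rfl
    rw [zero_mul] at hcσ
    exact zero_ne_one hcσ
  have hσc0 : σ c ≠ 0 := (map_ne_zero σ).mpr hc0
  have hy2 : (c⁻¹ • x) ^ 2 = 1 := by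
    rw [smul_pow, hx, smul_smul, ← hc2]
    have h1 : c⁻¹ ^ 2 * c ^ 2 = 1 := by
      field_simp
    rw [h1, one_smul]
  have hyU : (c⁻¹ • x)ᵀ * (c⁻¹ • x).map σ = 1 := by
    rw [Matrix.transpose_smul, Matrix.map_smul' (⇑σ) c⁻¹ x (map_mul σ), Matrix.smul_mul,
      Matrix.mul_smul, smul_smul, hU, map_inv₀]
    have h1 : c⁻¹ * (σ c)⁻¹ = 1 := by
      rw [← mul_inv, hcσ, inv_one]
    rw [h1, one_smul]
  obtain ⟨U, d, hUU, hd, hyUd⟩ := hdiag (c⁻¹ • x) hy2 hyU
  have hxU : x * U = c • (U * Matrix.diagonal d) := by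
    rw [← hyUd, Matrix.smul_mul, smul_smul, mul_inv_cancel₀ hc0, one_smul]
  have hdetU : U.det * σ U.det = 1 := by
    have h1 := congrArg Matrix.det hUU
    rw [Matrix.det_mul, Matrix.det_transpose, Matrix.det_one] at h1
    have h2 : (U.map σ).det = σ U.det := by
      have h3 := (σ : F →+* F).map_det U
      exact h3.symm
    rw [h2] at h1
    exact h1
  have hdet0 : U.det ≠ 0 := by
    intro h0
    rw [h0, zero_mul] at hdetU
    exact zero_ne_one hdetU
  refine ⟨U * Matrix.diagonal ![U.det⁻¹, 1, 1, 1], c, d, ?_, ?_, hd, ?_⟩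
  · rw [Matrix.transpose_mul, Matrix.diagonal_transpose, Matrix.map_mul,
      Matrix.diagonal_map (map_zero σ), Matrix.mul_assoc, ← Matrix.mul_assoc Uᵀ, hUU,
      Matrix.one_mul, Matrix.diagonal_mul_diagonal, ← Matrix.diagonal_one]
    congr 1
    funext i
    fin_cases i
    · show U.det⁻¹ * σ U.det⁻¹ = 1
      rw [map_inv₀, ← mul_inv, hdetU, inv_one]
    · show (1 : F) * σ 1 = 1
      rw [map_one, one_mul]
    · show (1 : F) * σ 1 = 1
      rw [map_one, one_mul]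
    · show (1 : F) * σ 1 = 1
      rw [map_one, one_mul]
  · rw [Matrix.det_mul, Matrix.det_diagonal, Fin.prod_univ_four]
    show U.det * (U.det⁻¹ * 1 * 1 * 1) = 1
    rw [mul_one, mul_one, mul_one, mul_inv_cancel₀ hdet0]
  · rw [← Matrix.mul_assoc, hxU, Matrix.smul_mul, Matrix.mul_smul, Matrix.mul_assoc,
      Matrix.mul_assoc, Matrix.diagonal_mul_diagonal, Matrix.diagonal_mul_diagonal]
    congr 3
    funext i
    exact mul_comm _ _

end Cfsg.Agent.Helper73
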