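import Mathlib
import Cfsg.Prelude.Def_GeometricClasses
import Cfsg.Prelude.Def_LieClassical
import Cfsg.Agent.Helper69.E4Def
import Cfsg.Agent.Helper69.E4UDef
import Cfsg.Agent.Helper97.UForm
import Cfsg.Agent.Helper29.E4UINVU1
import Cfsg.Agent.Helper19.E4UINVU2
import Cfsg.Agent.Helper73.E4UINVUAux

set_option autoImplicit false

namespace Cfsg.Agent.Helper73
open Cfsg.Agent.Helper69 Cfsg.Agent.Helper97
open scoped Matrix

/-! ### INVU -/

theorem e4u_involution {F : Type*} [Field F] [Fintype F] {p : ℕ} [Fact p.Prime] [CharP F p]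
    (hF : Fintype.card F = p ^ 2) (hp4 : p % 4 = 3) (h2 : (2 : F) ≠ 0) (σ : F ≃+* F)
    (hσ : IsSigma p σ) (ι : F) (hι : ι ^ 2 = -1) (x : Matrix (Fin 4) (Fin 4) F)
    (hU : xᵀ * x.map σ = 1) (hdet : x.det = 1) (z : F)
    (hx : x ^ 2 = z • (1 : Matrix (Fin 4) (Fin 4) F)) :
    ∃ (g : Matrix (Fin 4) (Fin 4) F) (c : F) (d : Fin 4 → F), gᵀ * g.map σ = 1 ∧ g.det = 1 ∧
      (∀ i, d i ^ 2 = 1) ∧ x * g = g * (c • Matrix.diagonal d) := by
  obtain ⟨c, hc2, hcσ⟩ := Cfsg.Agent.Helper29.e4u_sqrt_unitary hF hp4 σ hσ ι hι x hU hdet z hx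
  exact e4u_involution_aux σ x hU z hx c hc2 hcσ
    (fun y hy hyU => Cfsg.Agent.Helper19.e4u_unitary_diag_involution hF h2 σ hσ y hy hyU)

end Cfsg.Agent.Helper73
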