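import Mathlib
import Cfsg.Prelude.Def_GeometricClasses
import Cfsg.Prelude.Def_LieClassical
import Cfsg.Agent.Helper69.E4Def
import Cfsg.Agent.Helper69.E5Def
import Cfsg.Agent.Helper73.E4COORD

set_option autoImplicit false

namespace Cfsg.Agent.Helper73
open Cfsg.Agent.Helper69
open scoped Matrix

/-! ### COORD2 -/

theorem e5_coord {F : Type*} [Field F] (h2 : (2 : F) ≠ 0)
    (i j x z : Matrix (Fin 4) (Fin 4) F)
    (hi : i ^ 2 = -1) (hj : j ^ 2 = -1) (hx : x ^ 2 = 1) (hz : z ^ 2 = 1)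
    (hij : i * j = -(j * i)) (hxz : x * z = -(z * x))
    (hix : i * x = x * i) (hiz : i * z = z * i) (hjx : j * x = x * j) (hjz : j * z = z * j) :
    ∃ (a b : F) (P : GL (Fin 4) F), a ^ 2 + b ^ 2 = -1 ∧
      i * (P : Matrix (Fin 4) (Fin 4) F) = (P : Matrix (Fin 4) (Fin 4) F) * e5I F ∧
      j * (P : Matrix (Fin 4) (Fin 4) F) = (P : Matrix (Fin 4) (Fin 4) F) * e5J a b ∧
      x * (P : Matrix (Fin 4) (Fin 4) F) = (P : Matrix (Fin 4) (Fin 4) F) * e4X2 F ∧
      z * (P : Matrix (Fin 4) (Fin 4) F) = (P : Matrix (Fin 4) (Fin 4) F) * e4Z2 F := by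
  have hi' : i * i = -1 := by rw [← pow_two]; exact hi
  have hj' : j * j = -1 := by rw [← pow_two]; exact hj
  have hx' : x * x = 1 := by rw [← pow_two]; exact hx
  have hz' : z * z = 1 := by rw [← pow_two]; exact hz
  have hzx : z * x = -(x * z) := by rw [hxz, neg_neg]
  have hji : j * i = -(i * j) := by rw [hij, neg_neg]
  -- a non-zero vector fixed by z
  have hEne : (1 + z : Matrix (Fin 4) (Fin 4) F) ≠ 0 := by
    intro h5
    have h6 : z = -1 := eq_neg_of_add_eq_zero_right h5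
    rw [h6] at hxz
    have h7 : (2 : F) • x = 0 := by
      rw [two_smul]
      have h8 : x * -1 = -(-1 * x) := hxz
      rw [mul_neg, mul_one, neg_mul, one_mul, neg_neg] at h8
      nth_rewrite 1 [← h8]
      exact neg_add_cancel x
    have h9 : x = 0 := by
      rcases smul_eq_zero.mp h7 with h | h
      · exact absurd h h2
      · exact h
    rw [h9, mul_zero] at hx'
    exact zero_ne_one hx'
  have hzE : z * (1 + z) = 1 + z := by
    rw [mul_add, mul_one, hz', add_comm]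
  obtain ⟨w, hw⟩ : ∃ w : Fin 4 → F, (1 + z) *ᵥ w ≠ 0 := by
    by_contra hcon
    push Not at hcon
    apply hEne
    ext r c
    have := congrFun (hcon (Pi.single c 1)) r
    simpa using this
  obtain ⟨v₀, hv₀def⟩ : ∃ v₀ : Fin 4 → F, v₀ = (1 + z) *ᵥ w := ⟨_, rfl⟩
  rw [← hv₀def] at hw
  have hv₀ : v₀ ≠ 0 := hw
  have hzv₀ : z *ᵥ v₀ = v₀ := by rw [hv₀def, Matrix.mulVec_mulVec, hzE]
  -- a vector of the fixed space of z which is not an eigenvector of i
  obtain ⟨v, hzv, hv0, hind⟩ : ∃ v : Fin 4 → F, z *ᵥ v = v ∧ v ≠ 0 ∧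
      ∀ α β : F, α • v + β • (i *ᵥ v) = 0 → α = 0 ∧ β = 0 := by
    by_cases hev : ∃ l : F, i *ᵥ v₀ = l • v₀
    · obtain ⟨l, hl⟩ := hev
      have hl2 : l * l = -1 := by
        have h1 : i *ᵥ (i *ᵥ v₀) = -v₀ := by
          rw [Matrix.mulVec_mulVec, hi', Matrix.neg_mulVec, Matrix.one_mulVec]
        rw [hl, Matrix.mulVec_smul, hl, smul_smul] at h1
        have h3 : (l * l + 1) • v₀ = 0 := by rw [add_smul, one_smul, h1, neg_add_cancel]
        rcases smul_eq_zero.mp h3 with h | h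
        · linear_combination h
        · exact absurd h hv₀
      have hl0 : l ≠ 0 := by
        rintro rfl
        simp at hl2
      obtain ⟨v₁, hv₁⟩ : ∃ v₁ : Fin 4 → F, v₁ = j *ᵥ v₀ := ⟨_, rfl⟩
      have hiv₁ : i *ᵥ v₁ = (-l) • v₁ := by
        rw [hv₁, Matrix.mulVec_mulVec, hij, Matrix.neg_mulVec, ← Matrix.mulVec_mulVec, hl,
          Matrix.mulVec_smul, neg_smul]
      have hzv₁ : z *ᵥ v₁ = v₁ := by
        rw [hv₁, Matrix.mulVec_mulVec, ← hjz, ← Matrix.mulVec_mulVec, hzv₀]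
      have hv₁0 : v₁ ≠ 0 := by
        intro h
        have h1 : j *ᵥ v₁ = -v₀ := by
          rw [hv₁, Matrix.mulVec_mulVec, hj', Matrix.neg_mulVec, Matrix.one_mulVec]
        rw [h, Matrix.mulVec_zero] at h1
        exact hv₀ (neg_eq_zero.mp h1.symm)
      have key : ∀ α β : F, α • (v₀ + v₁) + β • (i *ᵥ (v₀ + v₁)) = 0 → α = 0 ∧ β = 0 := by
        intro α β hαβ
        rw [Matrix.mulVec_add, hl, hiv₁] at hαβ
        have h1 := congrArg (fun t => i *ᵥ t) hαβ
        simp only [Matrix.mulVec_add, Matrix.mulVec_smul, Matrix.mulVec_zero, hl, hiv₁] at h1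
        have e0 : (2 * l * (α + β * l)) • v₀ = 0 := by
          linear_combination (norm := module) l • hαβ + h1
        have e1 : (2 * l * (α - β * l)) • v₁ = 0 := by
          linear_combination (norm := module) l • hαβ - h1
        have k0 : α + β * l = 0 := by
          rcases smul_eq_zero.mp e0 with h | h
          · rcases mul_eq_zero.mp h with h | h
            · exact absurd h (mul_ne_zero h2 hl0)
            · exact h
          · exact absurd h hv₀
        have k1 : α - β * l = 0 := by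
          rcases smul_eq_zero.mp e1 with h | h
          · rcases mul_eq_zero.mp h with h | h
            · exact absurd h (mul_ne_zero h2 hl0)
            · exact h
          · exact absurd h hv₁0
        have hα : α = 0 := by
          have h3 : 2 * α = 0 := by linear_combination k0 + k1
          rcases mul_eq_zero.mp h3 with h | h
          · exact absurd h h2
          · exact h
        have hβ : β = 0 := by
          have h3 : β * l = 0 := by linear_combination k0 - hα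
          rcases mul_eq_zero.mp h3 with h | h
          · exact h
          · exact absurd h hl0
        exact ⟨hα, hβ⟩
      refine ⟨v₀ + v₁, ?_, ?_, key⟩
      · rw [Matrix.mulVec_add, hzv₀, hzv₁]
      · intro h
        have h3 := key 1 0 (by rw [h]; simp)
        exact one_ne_zero h3.1
    · push Not at hev
      refine ⟨v₀, hzv₀, hv₀, ?_⟩
      intro α β hαβ
      have hβ : β = 0 := by
        by_contra hβ
        apply hev (-(α / β))
        have h1 : β • (i *ᵥ v₀) = -(α • v₀) := eq_neg_of_add_eq_zero_right hαβ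
        calc i *ᵥ v₀ = β⁻¹ • (β • (i *ᵥ v₀)) := by
              rw [smul_smul, inv_mul_cancel₀ hβ, one_smul]
          _ = (-(α / β)) • v₀ := by
              rw [h1, smul_neg, smul_smul, neg_smul]
              congr 2
              field_simp
      rw [hβ, zero_smul, add_zero] at hαβ
      rcases smul_eq_zero.mp hαβ with h | h
      · exact ⟨h, hβ⟩
      · exact absurd h hv₀
  -- the four columns
  obtain ⟨p1, hp1⟩ : ∃ p1 : Fin 4 → F, p1 = x *ᵥ v := ⟨_, rfl⟩
  obtain ⟨p2, hp2⟩ : ∃ p2 : Fin 4 → F, p2 = i *ᵥ v := ⟨_, rfl⟩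
  obtain ⟨p3, hp3⟩ : ∃ p3 : Fin 4 → F, p3 = x *ᵥ (i *ᵥ v) := ⟨_, rfl⟩
  rw [← hp2] at hind
  have r_x_0 : x *ᵥ v = p1 := hp1.symm
  have r_x_1 : x *ᵥ p1 = v := by rw [hp1, Matrix.mulVec_mulVec, hx', Matrix.one_mulVec]
  have r_x_2 : x *ᵥ p2 = p3 := by rw [hp2, hp3]
  have r_x_3 : x *ᵥ p3 = p2 := by
    rw [hp3, hp2, Matrix.mulVec_mulVec, hx', Matrix.one_mulVec]
  have r_z_1 : z *ᵥ p1 = -p1 := by
    rw [hp1, Matrix.mulVec_mulVec, hzx, Matrix.neg_mulVec, ← Matrix.mulVec_mulVec, hzv]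
  have r_z_2 : z *ᵥ p2 = p2 := by
    rw [hp2, Matrix.mulVec_mulVec, ← hiz, ← Matrix.mulVec_mulVec, hzv]
  have r_z_3 : z *ᵥ p3 = -p3 := by
    rw [hp3, ← hp2, Matrix.mulVec_mulVec, hzx, Matrix.neg_mulVec, ← Matrix.mulVec_mulVec,
      r_z_2]
  have r_i_0 : i *ᵥ v = p2 := hp2.symm
  have r_i_1 : i *ᵥ p1 = p3 := by
    rw [hp1, hp3, Matrix.mulVec_mulVec, Matrix.mulVec_mulVec, hix]
  have r_i_2 : i *ᵥ p2 = -v := by
    rw [hp2, Matrix.mulVec_mulVec, hi', Matrix.neg_mulVec, Matrix.one_mulVec]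
  have r_i_3 : i *ᵥ p3 = -p1 := by
    rw [hp3, ← hp2, Matrix.mulVec_mulVec, hix, ← Matrix.mulVec_mulVec, r_i_2,
      Matrix.mulVec_neg, hp1]
  have hv12 : ∀ α β : F, α • p1 + β • p3 = 0 → α = 0 ∧ β = 0 := by
    intro α β h
    have h1 := congrArg (fun t => x *ᵥ t) h
    simp only [Matrix.mulVec_add, Matrix.mulVec_smul, Matrix.mulVec_zero, r_x_1, r_x_3] at h1
    exact hind α β h1
  have hhalf : ∀ u : Fin 4 → F, (2 : F) • u = 0 → u = 0 := by
    intro u h
    rcases smul_eq_zero.mp h with h | h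
    · exact absurd h h2
    · exact h
  have hli : LinearIndependent F ![v, p1, p2, p3] := by
    rw [Fintype.linearIndependent_iff]
    intro g hg
    rw [Fin.sum_univ_four] at hg
    simp only [Matrix.cons_val_zero, Matrix.cons_val_one, Matrix.cons_val] at hg
    have hgz := congrArg (fun t => z *ᵥ t) hg
    simp only [Matrix.mulVec_add, Matrix.mulVec_smul, Matrix.mulVec_zero,
      hzv, r_z_1, r_z_2, r_z_3] at hgz
    have e0 : (2 : F) • (g 0 • v + g 2 • p2) = 0 := by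
      linear_combination (norm := module) hg + hgz
    have e1 : (2 : F) • (g 1 • p1 + g 3 • p3) = 0 := by
      linear_combination (norm := module) hg - hgz
    obtain ⟨k0, k2⟩ := hind _ _ (hhalf _ e0)
    obtain ⟨k1, k3⟩ := hv12 _ _ (hhalf _ e1)
    intro t
    fin_cases t
    · exact k0
    · exact k1
    · exact k2
    · exact k3
  have hunit : IsUnit (Matrix.of fun r c => (![v, p1, p2, p3] : Fin 4 → Fin 4 → F) c r) :=
    Matrix.linearIndependent_cols_iff_isUnit.mp hli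
  obtain ⟨P, hPdef⟩ : ∃ P : Matrix (Fin 4) (Fin 4) F,
      P = Matrix.of fun r c => (![v, p1, p2, p3] : Fin 4 → Fin 4 → F) c r := ⟨_, rfl⟩
  have hPdet : IsUnit P.det := by
    rw [hPdef]
    exact (Matrix.isUnit_iff_isUnit_det _).mp hunit
  obtain ⟨c, hc⟩ : ∃ c : Fin 4 → F, c = P⁻¹ *ᵥ (j *ᵥ v) := ⟨_, rfl⟩
  have hPc : P *ᵥ c = j *ᵥ v := by
    rw [hc, Matrix.mulVec_mulVec, Matrix.mul_nonsing_inv P hPdet, Matrix.one_mulVec]
  have hPc' : P *ᵥ c = c 0 • v + c 1 • p1 + c 2 • p2 + c 3 • p3 := by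
    funext r
    rw [hPdef]
    simp [Matrix.mulVec, dotProduct, Fin.sum_univ_four]
    ring
  have hjv : j *ᵥ v = c 0 • v + c 1 • p1 + c 2 • p2 + c 3 • p3 := by rw [← hPc, hPc']
  have hzjv : z *ᵥ (j *ᵥ v) = j *ᵥ v := by
    rw [Matrix.mulVec_mulVec, ← hjz, ← Matrix.mulVec_mulVec, hzv]
  have hjz2 := congrArg (fun t => z *ᵥ t) hjv
  simp only [Matrix.mulVec_add, Matrix.mulVec_smul, hzv, r_z_1, r_z_2,
    r_z_3, hzjv] at hjz2
  have e1 : (2 : F) • (c 1 • p1 + c 3 • p3) = 0 := by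
    linear_combination (norm := module) hjz2 - hjv
  obtain ⟨k1, k3⟩ := hv12 _ _ (hhalf _ e1)
  have r_j_0 : j *ᵥ v = c 0 • v + c 2 • p2 := by
    rw [hjv, k1, k3]
    module
  have r_j_2 : j *ᵥ p2 = c 2 • v + (-(c 0)) • p2 := by
    have h1 : j *ᵥ p2 = -(i *ᵥ (j *ᵥ v)) := by
      rw [hp2, Matrix.mulVec_mulVec, hji, Matrix.neg_mulVec, ← Matrix.mulVec_mulVec]
    rw [h1, r_j_0, Matrix.mulVec_add, Matrix.mulVec_smul, Matrix.mulVec_smul, r_i_0, r_i_2]
    module
  have r_j_1 : j *ᵥ p1 = c 0 • p1 + c 2 • p3 := by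
    have h1 : j *ᵥ p1 = x *ᵥ (j *ᵥ v) := by
      rw [hp1, Matrix.mulVec_mulVec, hjx, ← Matrix.mulVec_mulVec]
    rw [h1, r_j_0, Matrix.mulVec_add, Matrix.mulVec_smul, Matrix.mulVec_smul, r_x_0, r_x_2]
  have r_j_3 : j *ᵥ p3 = c 2 • p1 + (-(c 0)) • p3 := by
    have h1 : j *ᵥ p3 = x *ᵥ (j *ᵥ p2) := by
      rw [hp3, ← hp2, Matrix.mulVec_mulVec, hjx, ← Matrix.mulVec_mulVec]
    rw [h1, r_j_2, Matrix.mulVec_add, Matrix.mulVec_smul, Matrix.mulVec_smul, r_x_0, r_x_2]
  have hab : c 0 ^ 2 + c 2 ^ 2 = -1 := by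
    have hjj : j *ᵥ (j *ᵥ v) = -v := by
      rw [Matrix.mulVec_mulVec, hj', Matrix.neg_mulVec, Matrix.one_mulVec]
    rw [r_j_0, Matrix.mulVec_add, Matrix.mulVec_smul, Matrix.mulVec_smul, r_j_0, r_j_2] at hjj
    have h3 : (c 0 ^ 2 + c 2 ^ 2 + 1) • v = 0 := by
      linear_combination (norm := module) hjj
    rcases smul_eq_zero.mp h3 with h | h
    · linear_combination h
    · exact absurd h hv0
  refine ⟨c 0, c 2, hunit.unit, hab, ?_, ?_, ?_, ?_⟩
  · rw [IsUnit.unit_spec]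
    apply e4_coord_aux
    intro t
    fin_cases t <;> simp [e5I, Fin.sum_univ_four, r_i_0, r_i_1, r_i_2, r_i_3]
  · rw [IsUnit.unit_spec]
    apply e4_coord_aux
    intro t
    fin_cases t <;> simp [e5J, Fin.sum_univ_four, r_j_0, r_j_1, r_j_2, r_j_3]
  · rw [IsUnit.unit_spec]
    apply e4_coord_aux
    intro t
    fin_cases t <;> simp [e4X2, Fin.sum_univ_four, r_x_0, r_x_1, r_x_2, r_x_3]
  · rw [IsUnit.unit_spec]
    apply e4_coord_aux
    intro t
    fin_cases t <;> simp [e4Z2, Fin.sum_univ_four, hzv, r_z_1, r_z_2, r_z_3]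

end Cfsg.Agent.Helper73
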