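-- helper73 library: piece NN4 of helper49's CALL S1351C (pure).
import Mathlib

set_option autoImplicit false

namespace Cfsg.Agent.Helper73

open Subgroup

universe u

variable {G : Type u} [Group G] [Finite G]

/-- NN4 (pure). A subgroup containing a `p`-subgroup and an `r`-subgroup (`r ≠ p`) that do not
commute is not nilpotent. -/
theorem starc_not_nilp_of {p r : ℕ} (hp : p.Prime) (hr : r.Prime) (hrp : r ≠ p)
    {N Q S : Subgroup G} (hQ : IsPGroup p Q) (hS : IsPGroup r S) (hQN : Q ≤ N) (hSN : S ≤ N)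
    (hnc : ¬ S ≤ centralizer (Q : Set G)) : ¬ Group.IsNilpotent ↥N := by
  intro hnil
  have : Fact p.Prime := ⟨hp⟩
  have : Fact r.Prime := ⟨hr⟩
  have hall := ((Group.isNilpotent_of_finite_tfae (G := ↥N)).out 0 3).mp hnil
  have hQ' : IsPGroup p (Q.subgroupOf N) := hQ.comap_subtype
  have hS' : IsPGroup r (S.subgroupOf N) := hS.comap_subtype
  obtain ⟨P, hP⟩ := hQ'.exists_le_sylow
  obtain ⟨R, hR⟩ := hS'.exists_le_sylow
  have hPn : (P : Subgroup ↥N).Normal := hall p ⟨hp⟩ P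
  have hRn : (R : Subgroup ↥N).Normal := hall r ⟨hr⟩ R
  have hdis : Disjoint (R : Subgroup ↥N) (P : Subgroup ↥N) :=
    IsPGroup.disjoint_of_ne r p hrp _ _ R.isPGroup' P.isPGroup'
  apply hnc
  intro s hs
  rw [mem_centralizer_iff]
  intro q hq
  have hs' : (⟨s, hSN hs⟩ : ↥N) ∈ (R : Subgroup ↥N) := hR (mem_subgroupOf.mpr hs)
  have hq' : (⟨q, hQN hq⟩ : ↥N) ∈ (P : Subgroup ↥N) := hP (mem_subgroupOf.mpr hq)
  have hc := Subgroup.commute_of_normal_of_disjoint _ _ hRn hPn hdis _ _ hs' hq'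
  exact (congrArg Subtype.val hc.eq).symm

end Cfsg.Agent.Helper73
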