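import Mathlib
import Cfsg.Agent.Helper98.C2Defs

set_option autoImplicit false

namespace Cfsg.Agent.Helper73.C2A1

open Matrix Cfsg.Agent.Helper98.C2
open scoped MatrixGroups

variable {K : Type*} [Field K]

/-- the diagonal matrix with `ε` at `i` and `1` elsewhere, as an element of `GL` -/
noncomputable def dg {ι : Type*} [Fintype ι] [DecidableEq ι] (i : ι) (ε : K) (hε : ε ≠ 0) :
    GL ι K :=
  Matrix.GeneralLinearGroup.mkOfDetNeZero (Matrix.diagonal (fun p => if p = i then ε else 1))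
    (by
      rw [Matrix.det_diagonal, Finset.prod_ite_eq' Finset.univ i (fun _ => ε)]
      simpa using hε)

theorem dg_coe {ι : Type*} [Fintype ι] [DecidableEq ι] (i : ι) (ε : K) (hε : ε ≠ 0) :
    (dg i ε hε).1 = Matrix.diagonal (fun p => if p = i then ε else 1) := rfl

theorem dg_mono {ι : Type*} [Fintype ι] [DecidableEq ι] (i : ι) (ε : K) (hε : ε ≠ 0) :
    IsMono (dg i ε hε).1 := by
  refine ⟨1, fun a b hab => ?_⟩
  rw [dg_coe]
  exact Matrix.diagonal_apply_ne _ hab

theorem inv_mul_entry {ι : Type*} [Fintype ι] [DecidableEq ι] (g : GL ι K) (a b : ι) :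
    ∑ p, (g⁻¹).1 a p * g.1 p b = if a = b then 1 else 0 := by
  have h : (g⁻¹).1 * g.1 = 1 := by
    rw [← Units.val_mul, inv_mul_cancel]; rfl
  have := congrFun (congrFun h a) b
  rw [Matrix.mul_apply, Matrix.one_apply] at this
  exact this

theorem mul_inv_entry {ι : Type*} [Fintype ι] [DecidableEq ι] (g : GL ι K) (a b : ι) :
    ∑ p, g.1 a p * (g⁻¹).1 p b = if a = b then 1 else 0 := by
  have h : g.1 * (g⁻¹).1 = 1 := by
    rw [← Units.val_mul, mul_inv_cancel]; rfl
  have := congrFun (congrFun h a) b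
  rw [Matrix.mul_apply, Matrix.one_apply] at this
  exact this

/-- PIECE A1 -/
theorem agl_zero {ι : Type*} [Fintype ι] [DecidableEq ι] [Fintype K] (hq : 5 ≤ Fintype.card K)
    (hι : 3 ≤ Fintype.card ι) (X : Subgroup (GL ι K)) (hX : MonLE X)
    (g : GL ι K) (hg : g ∈ X) (hn : ¬ IsMono g.1) (i l : ι) (hz : g.1 i l = 0) :
    ∃ h ∈ X, ¬ IsMono h.1 ∧ FixesLine h.1 := by
  classical
  -- the conjugates `y ε = g⁻¹ δ_i(ε) g`
  have hyX : ∀ (ε : K) (hε : ε ≠ 0), g⁻¹ * dg i ε hε * g ∈ X := fun ε hε =>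
    X.mul_mem (X.mul_mem (X.inv_mem hg) (hX _ (dg_mono i ε hε))) hg
  have hycoe : ∀ (ε : K) (hε : ε ≠ 0), (g⁻¹ * dg i ε hε * g).1
      = (g⁻¹).1 * (Matrix.diagonal (fun p => if p = i then ε else 1) * g.1) := by
    intro ε hε
    rw [Units.val_mul, Units.val_mul, dg_coe, Matrix.mul_assoc]
  have hyfix : ∀ (ε : K) (hε : ε ≠ 0), FixesLine (g⁻¹ * dg i ε hε * g).1 := by
    intro ε hε
    refine ⟨l, fun j hj => ?_⟩
    rw [hycoe, Matrix.mul_apply]
    have : ∀ p, (g⁻¹).1 j p * (Matrix.diagonal (fun p => if p = i then ε else 1) * g.1) p l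
        = (g⁻¹).1 j p * g.1 p l := by
      intro p
      rw [Matrix.diagonal_mul]
      by_cases hp : p = i
      · subst hp; rw [hz]; simp
      · simp [hp]
    rw [Finset.sum_congr rfl (fun p _ => this p), inv_mul_entry, if_neg hj]
  by_cases hex : ∃ (ε : K) (hε : ε ≠ 0), ¬ IsMono (g⁻¹ * dg i ε hε * g).1
  · obtain ⟨ε, hε, hnm⟩ := hex
    exact ⟨_, hyX ε hε, hnm, hyfix ε hε⟩
  push Not at hex
  -- every `δ_i(ε)` maps columns of `g` to multiples of columns of `g`
  have K1 : ∀ (ε : K), ε ≠ 0 → ∀ r : ι, ∃ (r' : ι) (c : K),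
      ∀ p, (if p = i then ε else 1) * g.1 p r = c * g.1 p r' := by
    intro ε hε r
    obtain ⟨σ, hσ⟩ := hex ε hε
    refine ⟨σ r, (g⁻¹ * dg i ε hε * g).1 (σ r) r, fun p => ?_⟩
    have h1 : g.1 * (g⁻¹ * dg i ε hε * g).1
        = Matrix.diagonal (fun p => if p = i then ε else 1) * g.1 := by
      rw [← Units.val_mul, ← mul_assoc, ← mul_assoc, mul_inv_cancel, one_mul, Units.val_mul,
        dg_coe]
    have h2 := congrFun (congrFun h1 p) r
    rw [Matrix.diagonal_mul, Matrix.mul_apply] at h2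
    rw [← h2, Finset.sum_eq_single (σ r)]
    · ring
    · intro a _ ha
      rw [hσ a r ha, mul_zero]
    · intro hh; exact absurd (Finset.mem_univ _) hh
  -- a column with non-zero `i`-th entry
  have hrow : ∃ r, g.1 i r ≠ 0 := by
    by_contra hcon
    push Not at hcon
    have := mul_inv_entry g i i
    rw [if_pos rfl, Finset.sum_eq_zero (fun p _ => by rw [hcon p, zero_mul])] at this
    exact zero_ne_one this
  obtain ⟨r, hr⟩ := hrow
  by_cases hA : ∃ p, p ≠ i ∧ g.1 p r ≠ 0
  · -- three pairwise non-proportional multiples of columns with a linear relation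
    exfalso
    obtain ⟨p, hpi, hp⟩ := hA
    have hcard : ({0, 1} : Finset K).card < (Finset.univ : Finset K).card := by
      rw [Finset.card_univ]
      exact lt_of_le_of_lt (Finset.card_insert_le _ _) (by simp; omega)
    obtain ⟨ε1, -, hε1⟩ := Finset.exists_mem_notMem_of_card_lt_card hcard
    have hcard2 : ({0, 1, ε1} : Finset K).card < (Finset.univ : Finset K).card := by
      rw [Finset.card_univ]
      refine lt_of_le_of_lt (Finset.card_insert_le _ _) ?_
      have : ({1, ε1} : Finset K).card ≤ 2 := by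
        refine (Finset.card_insert_le _ _).trans ?_
        simp
      omega
    obtain ⟨ε2, -, hε2⟩ := Finset.exists_mem_notMem_of_card_lt_card hcard2
    simp only [Finset.mem_insert, Finset.mem_singleton, not_or] at hε1 hε2
    obtain ⟨h10, h11⟩ := hε1
    obtain ⟨h20, h21, h212⟩ := hε2
    obtain ⟨r1, c1, hc1⟩ := K1 ε1 h10 r
    obtain ⟨r2, c2, hc2⟩ := K1 ε2 h20 r
    have hne : ∀ (ε : K), ε ≠ 1 → ∀ (r' : ι) (c : K),
        (∀ q, (if q = i then ε else 1) * g.1 q r = c * g.1 q r') → r' ≠ r := by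
      intro ε hε1' r' c hc hrr
      subst hrr
      have e1 := hc p
      rw [if_neg hpi, one_mul] at e1
      have hc1' : c = 1 := by
        have : (1 - c) * g.1 p r' = 0 := by rw [sub_mul, one_mul, ← e1, sub_self]
        rcases mul_eq_zero.mp this with h | h
        · exact (sub_eq_zero.mp h).symm
        · exact absurd h hp
      have e2 := hc i
      rw [if_pos rfl, hc1', one_mul] at e2
      have : (ε - 1) * g.1 i r' = 0 := by rw [sub_mul, one_mul, e2, sub_self]
      rcases mul_eq_zero.mp this with h | h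
      · exact hε1' (sub_eq_zero.mp h)
      · exact hr h
    have hr1 : r1 ≠ r := hne ε1 h11 r1 c1 hc1
    have hr2 : r2 ≠ r := hne ε2 h21 r2 c2 hc2
    have hrel : ∀ q, (ε2 - ε1) * g.1 q r + (1 - ε2) * c1 * g.1 q r1
        + (ε1 - 1) * c2 * g.1 q r2 = 0 := by
      intro q
      have e1 := hc1 q
      have e2 := hc2 q
      rw [mul_assoc, mul_assoc, ← e1, ← e2]
      by_cases hq' : q = i
      · rw [if_pos hq', if_pos hq']; ring
      · rw [if_neg hq', if_neg hq']; ring
    have hsum : ∑ q, (g⁻¹).1 r q * ((ε2 - ε1) * g.1 q r + (1 - ε2) * c1 * g.1 q r1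
        + (ε1 - 1) * c2 * g.1 q r2) = 0 :=
      Finset.sum_eq_zero (fun q _ => by rw [hrel q, mul_zero])
    have hsum2 : ∑ q, (g⁻¹).1 r q * ((ε2 - ε1) * g.1 q r + (1 - ε2) * c1 * g.1 q r1
        + (ε1 - 1) * c2 * g.1 q r2)
        = (ε2 - ε1) * ∑ q, (g⁻¹).1 r q * g.1 q r + (1 - ε2) * c1 * ∑ q, (g⁻¹).1 r q * g.1 q r1
          + (ε1 - 1) * c2 * ∑ q, (g⁻¹).1 r q * g.1 q r2 := by
      rw [Finset.mul_sum, Finset.mul_sum, Finset.mul_sum, ← Finset.sum_add_distrib,
        ← Finset.sum_add_distrib]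
      exact Finset.sum_congr rfl (fun q _ => by ring)
    rw [hsum2, inv_mul_entry, inv_mul_entry, inv_mul_entry, if_pos rfl, if_neg (Ne.symm hr1),
      if_neg (Ne.symm hr2)] at hsum
    have : ε2 - ε1 = 0 := by simpa using hsum
    exact h212 (sub_eq_zero.mp this)
  · -- column `r` of `g` is a multiple of `e_i`
    push Not at hA
    have hwdet : (Equiv.toPEquiv (Equiv.swap i r)).toMatrix.det ≠ (0 : K) := by
      rw [Matrix.det_permutation]
      rcases Int.units_eq_one_or (Equiv.Perm.sign (Equiv.swap i r)) with h | h <;> rw [h] <;> simp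
    set w : GL ι K := Matrix.GeneralLinearGroup.mkOfDetNeZero
      ((Equiv.toPEquiv (Equiv.swap i r)).toMatrix) hwdet with hw
    have hwcoe : w.1 = (Equiv.toPEquiv (Equiv.swap i r)).toMatrix := rfl
    have hwmono : IsMono w.1 := by
      refine ⟨Equiv.swap i r, fun a b hab => ?_⟩
      rw [hwcoe, PEquiv.toMatrix_apply]
      have : b ∉ (Equiv.toPEquiv (Equiv.swap i r)) a := by
        rw [Equiv.toPEquiv_apply]
        intro hb
        have hb' : Equiv.swap i r a = b := by simpa using hb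
        apply hab
        rw [← hb', Equiv.swap_apply_self]
      rw [if_neg this]
    have hwg : ∀ a b, (w * g).1 a b = g.1 (Equiv.swap i r a) b := by
      intro a b
      rw [Units.val_mul, hwcoe, PEquiv.toMatrix_toPEquiv_mul]
      rfl
    refine ⟨w * g, X.mul_mem (hX w hwmono) hg, ?_, ?_⟩
    · intro hm
      apply hn
      obtain ⟨σ, hσ⟩ := hm
      refine ⟨σ.trans (Equiv.swap i r), fun a b hab => ?_⟩
      have h1 := hσ (Equiv.swap i r a) b (by
        intro h2
        apply hab
        rw [Equiv.trans_apply, ← h2, Equiv.swap_apply_self])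
      rw [hwg, Equiv.swap_apply_self] at h1
      exact h1
    · refine ⟨r, fun j hj => ?_⟩
      rw [hwg]
      apply hA
      intro h2
      apply hj
      have := congrArg (Equiv.swap i r) h2
      rw [Equiv.swap_apply_self, Equiv.swap_apply_left] at this
      exact this

end Cfsg.Agent.Helper73.C2A1
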