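-- helper73 library: piece M2 of helper96's CALL S5707.
import Cfsg.Agent.Helper96.CWDefs

set_option autoImplicit false
set_option linter.unusedSectionVars false
set_option linter.unusedSimpArgs false
set_option linter.unusedVariables false

namespace Cfsg.Agent.Helper73.CWM2

open Matrix Cfsg Cfsg.Geo Cfsg.Agent.Helper96 Cfsg.Agent.Helper96.CW

section
variable {F : Type*} [Field F] {k t : ℕ}

theorem m2e0 : ((1 : Matrix (Fin 2) (Fin 2) F) * E2t F) 0 0 = 0 := by
  simp [E2t]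

theorem m2e1 : (E2 F * E2t F) 0 0 = 0 := by
  simp [E2, E2t, Matrix.mul_apply, Fin.sum_univ_two]

theorem m2e2 : (E2t F * E2 F) 0 0 = 1 := by
  simp [E2, E2t, Matrix.mul_apply, Fin.sum_univ_two]

theorem m2e3 : ((1 : Matrix (Fin 2) (Fin 2) F) * E2 F) 1 0 = 1 := by
  simp [E2]

theorem m2e4 (ν : F) : ((1 : Matrix (Fin 2) (Fin 2) F) * (ν • E2 F)) 1 0 = ν := by
  simp [E2]

theorem m2e5 : (E2 F * (1 : Matrix (Fin 2) (Fin 2) F) * E2 F) 1 0 = 0 := by
  simp [E2, Matrix.mul_apply, Fin.sum_univ_two]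

/-- PIECE M2: (`k = 2`) conjugating `Eᵀ` at `i₁` by `1 + ν E_{i₁} E_{i₂} E_{i₃}` leaves the
span. -/
theorem m2 (h2 : (2 : F) = 0) (i₁ i₂ i₃ : Fin t) (h12 : i₁ ≠ i₂) (h13 : i₁ ≠ i₃) (h23 : i₂ ≠ i₃)
    (ν : F) (hν : ν ≠ 0) :
    ∃ a b : Fin t → Fin 2, (∃ i j, i ≠ j ∧ a i ≠ b i ∧ a j ≠ b j) ∧
      ((1 + facM i₁ (E2 F) * facM i₂ (E2 F) * facM i₃ (ν • E2 F)) * facM i₁ (E2t F) *
        (1 + facM i₁ (E2 F) * facM i₂ (E2 F) * facM i₃ (ν • E2 F))) a b ≠ 0 := by
  classical
  obtain ⟨a, ha⟩ : ∃ a : Fin t → Fin 2,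
      a = Function.update (Function.update (fun _ => 0) i₂ 1) i₃ 1 := ⟨_, rfl⟩
  have ha1 : a i₁ = 0 := by
    rw [ha, Function.update_of_ne h13, Function.update_of_ne h12]
  have ha2 : a i₂ = 1 := by
    rw [ha, Function.update_of_ne h23, Function.update_self]
  have ha3 : a i₃ = 1 := by
    rw [ha, Function.update_self]
  have hal : ∀ l, l ≠ i₂ → l ≠ i₃ → a l = 0 := by
    intro l h1 h2
    rw [ha, Function.update_of_ne h2, Function.update_of_ne h1]
  refine ⟨a, fun _ => 0, ⟨i₂, i₃, h23, by rw [ha2]; exact (by decide : (1 : Fin 2) ≠ 0),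
    by rw [ha3]; exact (by decide : (1 : Fin 2) ≠ 0)⟩, ?_⟩
  obtain ⟨n, hn⟩ : ∃ n : Fin t → Matrix (Fin 2) (Fin 2) F, n = fun l =>
      Function.update (fun _ => (1 : Matrix (Fin 2) (Fin 2) F)) i₁ (E2 F) l *
        Function.update (fun _ => (1 : Matrix (Fin 2) (Fin 2) F)) i₂ (E2 F) l *
        Function.update (fun _ => (1 : Matrix (Fin 2) (Fin 2) F)) i₃ (ν • E2 F) l := ⟨_, rfl⟩
  obtain ⟨α, hα⟩ : ∃ α : Fin t → Matrix (Fin 2) (Fin 2) F,
      α = Function.update (fun _ => (1 : Matrix (Fin 2) (Fin 2) F)) i₁ (E2t F) := ⟨_, rfl⟩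
  have hn1 : n i₁ = E2 F := by
    rw [hn]
    simp only [Function.update_self, Function.update_of_ne h12, Function.update_of_ne h13,
      mul_one]
  have hn2 : n i₂ = E2 F := by
    rw [hn]
    simp only [Function.update_self, Function.update_of_ne h12.symm, Function.update_of_ne h23,
      mul_one, one_mul]
  have hn3 : n i₃ = ν • E2 F := by
    rw [hn]
    simp only [Function.update_self, Function.update_of_ne h13.symm,
      Function.update_of_ne h23.symm, mul_one, one_mul]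
  have hnl : ∀ l, l ≠ i₁ → l ≠ i₂ → l ≠ i₃ → n l = 1 := by
    intro l h1 h2 h3
    rw [hn]
    simp only [Function.update_of_ne h1, Function.update_of_ne h2, Function.update_of_ne h3,
      mul_one]
  have hα1 : α i₁ = E2t F := by
    rw [hα, Function.update_self]
  have hαl : ∀ l, l ≠ i₁ → α l = 1 := by
    intro l h1
    rw [hα, Function.update_of_ne h1]
  have hN : facM i₁ (E2 F) * facM i₂ (E2 F) * facM i₃ (ν • E2 F) = ptM n := by
    rw [facM_eq_ptM, facM_eq_ptM, facM_eq_ptM, ptM_mul, ptM_mul, hn]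
  have hA : facM i₁ (E2t F) = ptM α := by
    rw [facM_eq_ptM, hα]
  have hexp : ∀ (N A : Matrix (Fin t → Fin 2) (Fin t → Fin 2) F),
      (1 + N) * A * (1 + N) = A + N * A + A * N + N * A * N := by
    intro N A
    noncomm_ring
  have key : (1 + ptM n) * ptM α * (1 + ptM n) = ptM α + ptM (fun l => n l * α l) +
      ptM (fun l => α l * n l) + ptM (fun l => n l * α l * n l) := by
    rw [hexp, ptM_mul, ptM_mul, ptM_mul]
  have t1 : ptM α a (fun _ => 0) = 0 := by
    rw [ptM_apply]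
    apply Finset.prod_eq_zero (Finset.mem_univ i₂)
    rw [hαl i₂ h12.symm, ha2]
    exact Matrix.one_apply_ne (by decide)
  have t2 : ptM (fun l => n l * α l) a (fun _ => 0) = 0 := by
    rw [ptM_apply]
    apply Finset.prod_eq_zero (Finset.mem_univ i₁)
    rw [hn1, hα1, ha1]
    exact m2e1
  have t3 : ptM (fun l => α l * n l) a (fun _ => 0) = ν := by
    rw [ptM_apply, ← Finset.mul_prod_erase Finset.univ _ (Finset.mem_univ i₃)]
    have h3 : ∏ l ∈ Finset.univ.erase i₃, (α l * n l) (a l) 0 = 1 := by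
      apply Finset.prod_eq_one
      intro l hl
      have hl3 : l ≠ i₃ := (Finset.mem_erase.mp hl).1
      by_cases h1 : l = i₁
      · rw [h1, hn1, hα1, ha1]
        exact m2e2
      by_cases h2' : l = i₂
      · rw [h2', hn2, hαl i₂ h12.symm, ha2]
        exact m2e3
      rw [hnl l h1 h2' hl3, hαl l h1, hal l h2' hl3, mul_one]
      exact Matrix.one_apply_eq 0
    rw [h3, mul_one, hn3, hαl i₃ h13.symm, ha3]
    exact m2e4 ν
  have t4 : ptM (fun l => n l * α l * n l) a (fun _ => 0) = 0 := by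
    rw [ptM_apply]
    apply Finset.prod_eq_zero (Finset.mem_univ i₂)
    rw [hn2, hαl i₂ h12.symm, ha2]
    exact m2e5
  rw [hN, hA, key, Matrix.add_apply, Matrix.add_apply, Matrix.add_apply, t1, t2, t3, t4]
  simpa using hν

end

end Cfsg.Agent.Helper73.CWM2
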