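-- helper73 library: piece M4 of helper96's CALL S5707.
import Cfsg.Agent.Helper96.CWDefs

set_option autoImplicit false
set_option linter.unusedSectionVars false
set_option linter.unusedSimpArgs false
set_option linter.unusedVariables false

namespace Cfsg.Agent.Helper73.CWM4

open Matrix Cfsg Cfsg.Geo Cfsg.Agent.Helper96 Cfsg.Agent.Helper96.CW

section
variable {F : Type*} [Field F] {k t : ℕ}

theorem m4e1 : (Ca F * Cb F * Aa F) 1 0 = 0 := by
  simp [Ca, Cb, Aa, Matrix.mul_apply, Fin.sum_univ_four]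

theorem m4e2 : (Aa F * (Ca F * Cb F)) 1 0 = 1 := by
  simp [Ca, Cb, Aa, Matrix.mul_apply, Fin.sum_univ_four]

theorem m4e3 : ((1 : Matrix (Fin 4) (Fin 4) F) * Ca F) 2 0 = 1 := by
  simp [Ca]

theorem m4e4 : (Ca F * (1 : Matrix (Fin 4) (Fin 4) F) * Ca F) 2 0 = 0 := by
  simp [Ca, Matrix.mul_apply, Fin.sum_univ_four]

/-- PIECE M4: (`k = 4`) conjugating `Aa` at `i` by `1 + (Ca Cb)_i (Ca)_j` leaves the span. -/
theorem m4 (h2 : (2 : F) = 0) (i j : Fin t) (hij : i ≠ j) :
    ∃ a b : Fin t → Fin 4, (∃ i j, i ≠ j ∧ a i ≠ b i ∧ a j ≠ b j) ∧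
      ((1 + facM i (Ca F * Cb F) * facM j (Ca F)) * facM i (Aa F) *
        (1 + facM i (Ca F * Cb F) * facM j (Ca F))) a b ≠ 0 := by
  classical
  obtain ⟨a, ha⟩ : ∃ a : Fin t → Fin 4,
      a = Function.update (Function.update (fun _ => 0) i 1) j 2 := ⟨_, rfl⟩
  have hai : a i = 1 := by
    rw [ha, Function.update_of_ne hij, Function.update_self]
  have haj : a j = 2 := by
    rw [ha, Function.update_self]
  have hal : ∀ l, l ≠ i → l ≠ j → a l = 0 := by
    intro l h1 h2
    rw [ha, Function.update_of_ne h2, Function.update_of_ne h1]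
  refine ⟨a, fun _ => 0, ⟨i, j, hij, by rw [hai]; exact (by decide : (1 : Fin 4) ≠ 0),
    by rw [haj]; exact (by decide : (2 : Fin 4) ≠ 0)⟩, ?_⟩
  obtain ⟨n, hn⟩ : ∃ n : Fin t → Matrix (Fin 4) (Fin 4) F, n = fun l =>
      Function.update (fun _ => (1 : Matrix (Fin 4) (Fin 4) F)) i (Ca F * Cb F) l *
        Function.update (fun _ => (1 : Matrix (Fin 4) (Fin 4) F)) j (Ca F) l := ⟨_, rfl⟩
  obtain ⟨α, hα⟩ : ∃ α : Fin t → Matrix (Fin 4) (Fin 4) F,
      α = Function.update (fun _ => (1 : Matrix (Fin 4) (Fin 4) F)) i (Aa F) := ⟨_, rfl⟩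
  have hni : n i = Ca F * Cb F := by
    rw [hn]
    simp only [Function.update_self, Function.update_of_ne hij, mul_one]
  have hnj : n j = Ca F := by
    rw [hn]
    simp only [Function.update_self, Function.update_of_ne hij.symm, one_mul]
  have hnl : ∀ l, l ≠ i → l ≠ j → n l = 1 := by
    intro l h1 h2
    rw [hn]
    simp only [Function.update_of_ne h1, Function.update_of_ne h2, mul_one]
  have hαi : α i = Aa F := by
    rw [hα, Function.update_self]
  have hαl : ∀ l, l ≠ i → α l = 1 := by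
    intro l h1
    rw [hα, Function.update_of_ne h1]
  have hN : facM i (Ca F * Cb F) * facM j (Ca F) = ptM n := by
    rw [facM_eq_ptM, facM_eq_ptM, ptM_mul, hn]
  have hA : facM i (Aa F) = ptM α := by
    rw [facM_eq_ptM, hα]
  have hexp : ∀ (N A : Matrix (Fin t → Fin 4) (Fin t → Fin 4) F),
      (1 + N) * A * (1 + N) = A + N * A + A * N + N * A * N := by
    intro N A
    noncomm_ring
  have key : (1 + ptM n) * ptM α * (1 + ptM n) = ptM α + ptM (fun l => n l * α l) +
      ptM (fun l => α l * n l) + ptM (fun l => n l * α l * n l) := by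
    rw [hexp, ptM_mul, ptM_mul, ptM_mul]
  have t1 : ptM α a (fun _ => 0) = 0 := by
    rw [ptM_apply]
    apply Finset.prod_eq_zero (Finset.mem_univ j)
    rw [hαl j hij.symm, haj]
    exact Matrix.one_apply_ne (by decide)
  have t2 : ptM (fun l => n l * α l) a (fun _ => 0) = 0 := by
    rw [ptM_apply]
    apply Finset.prod_eq_zero (Finset.mem_univ i)
    rw [hni, hαi, hai]
    exact m4e1
  have t3 : ptM (fun l => α l * n l) a (fun _ => 0) = 1 := by
    rw [ptM_apply]
    apply Finset.prod_eq_one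
    intro l _
    by_cases h1 : l = i
    · rw [h1, hni, hαi, hai]
      exact m4e2
    by_cases h2' : l = j
    · rw [h2', hnj, hαl j hij.symm, haj]
      exact m4e3
    rw [hnl l h1 h2', hαl l h1, hal l h1 h2', mul_one]
    exact Matrix.one_apply_eq 0
  have t4 : ptM (fun l => n l * α l * n l) a (fun _ => 0) = 0 := by
    rw [ptM_apply]
    apply Finset.prod_eq_zero (Finset.mem_univ j)
    rw [hnj, hαl j hij.symm, haj]
    exact m4e4
  rw [hN, hA, key, Matrix.add_apply, Matrix.add_apply, Matrix.add_apply, t1, t2, t3, t4]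
  simp

end

end Cfsg.Agent.Helper73.CWM4
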