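-- helper73 library: piece S4M of helper96's CALL S5707 (double).
import Cfsg.Agent.Helper96.CWDefs

set_option autoImplicit false
set_option linter.unusedSectionVars false
set_option linter.unusedSimpArgs false
set_option linter.unusedVariables false

namespace Cfsg.Agent.Helper73.CWS4M

open Matrix Cfsg Cfsg.Geo Cfsg.Agent.Helper96 Cfsg.Agent.Helper96.CW

section
variable {F : Type*} [Field F] {k t : ℕ}

/-- PIECE S4M: the Clifford generators for `k = 4` are of the form `dm`. -/
theorem s4m (h2 : (2 : F) = 0) : Ca F ∈ SD (G4 F) ∧ Cb F ∈ SD (G4 F) ∧ Aa F ∈ SD (G4 F) := by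
  have hneg : (-1 : F) = 1 := by linear_combination (-1 : F) * h2
  refine ⟨?_, ?_, ?_⟩
  · refine ⟨Pi.single 2 1, Pi.single 3 1, ?_, ?_⟩
    · simp [T5.bf, G4, Matrix.mulVec, dotProduct, Fin.sum_univ_four, Pi.single_apply]
    · ext i j
      fin_cases i <;> fin_cases j <;>
        simp [T5.dm, T5.rk, Matrix.vecMulVec_apply, Matrix.mulVec, dotProduct, Fin.sum_univ_four,
          G4, Ca, Pi.single_apply, hneg]
  · refine ⟨Pi.single 1 1, Pi.single 3 1, ?_, ?_⟩
    · simp [T5.bf, G4, Matrix.mulVec, dotProduct, Fin.sum_univ_four, Pi.single_apply]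
    · ext i j
      fin_cases i <;> fin_cases j <;>
        simp [T5.dm, T5.rk, Matrix.vecMulVec_apply, Matrix.mulVec, dotProduct, Fin.sum_univ_four,
          G4, Cb, Pi.single_apply, hneg]
  · refine ⟨Pi.single 0 1, Pi.single 1 1, ?_, ?_⟩
    · simp [T5.bf, G4, Matrix.mulVec, dotProduct, Fin.sum_univ_four, Pi.single_apply]
    · ext i j
      fin_cases i <;> fin_cases j <;>
        simp [T5.dm, T5.rk, Matrix.vecMulVec_apply, Matrix.mulVec, dotProduct, Fin.sum_univ_four,
          G4, Aa, Pi.single_apply, hneg]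

end

end Cfsg.Agent.Helper73.CWS4M
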