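-- helper73 library: piece X2 of helper96's CALL S5707 (double): explicit identities, k = 2.
import Cfsg.Agent.Helper96.CWDefs

set_option autoImplicit false
set_option linter.unusedSectionVars false
set_option linter.unusedSimpArgs false
set_option linter.unusedVariables false

namespace Cfsg.Agent.Helper73.CWX2

open Matrix Cfsg Cfsg.Geo Cfsg.Agent.Helper96 Cfsg.Agent.Helper96.CW

section
variable {F : Type*} [Field F] {k t : ℕ}

/-- PIECE X2: explicit identities for `k = 2`. -/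
theorem x2 (h2 : (2 : F) = 0) (l : F) (hl0 : l ≠ 0) (hl1 : l ≠ 1) :
    E2 F * E2 F = 0 ∧ (G2 F * E2 F)ᵀ = G2 F * E2 F ∧ (G2 F)ᵀ = G2 F ∧
    (∀ α, G2 F α α = 0) ∧
    (!![l, 0; 0, l⁻¹] : Matrix (Fin 2) (Fin 2) F) * !![l⁻¹, 0; 0, l] = 1 ∧
    (!![l⁻¹, 0; 0, l] : Matrix (Fin 2) (Fin 2) F) * !![l, 0; 0, l⁻¹] = 1 ∧
    (!![l, 0; 0, l⁻¹] : Matrix (Fin 2) (Fin 2) F)ᵀ * G2 F * !![l, 0; 0, l⁻¹] = G2 F ∧
    E2 F + (!![l, 0; 0, l⁻¹] : Matrix (Fin 2) (Fin 2) F) * E2 F * !![l⁻¹, 0; 0, l]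
      = (1 + l⁻¹ ^ 2) • E2 F ∧
    (1 + l⁻¹ ^ 2 : F) ≠ 0 ∧ (E2 F).trace = 0 ∧ (E2t F).trace = 0 ∧ E2 F 1 0 ≠ 0 := by
  have h11 : (1 : F) + 1 = 0 := by
    rw [one_add_one_eq_two]
    exact h2
  have hli : l * l⁻¹ = 1 := mul_inv_cancel₀ hl0
  have hli' : l⁻¹ * l = 1 := inv_mul_cancel₀ hl0
  refine ⟨?_, ?_, ?_, ?_, ?_, ?_, ?_, ?_, ?_, ?_, ?_, ?_⟩
  · ext i j
    fin_cases i <;> fin_cases j <;> simp [E2, Matrix.mul_apply, Fin.sum_univ_two]
  · ext i j
    fin_cases i <;> fin_cases j <;>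
      simp [G2, E2, Matrix.mul_apply, Matrix.transpose_apply, Fin.sum_univ_two]
  · ext i j
    fin_cases i <;> fin_cases j <;> simp [G2, Matrix.transpose_apply]
  · intro α
    fin_cases α <;> simp [G2]
  · ext i j
    fin_cases i <;> fin_cases j <;> simp [Matrix.mul_apply, Fin.sum_univ_two, hli, hli']
  · ext i j
    fin_cases i <;> fin_cases j <;> simp [Matrix.mul_apply, Fin.sum_univ_two, hli, hli']
  · ext i j
    fin_cases i <;> fin_cases j <;>
      simp [G2, Matrix.mul_apply, Matrix.transpose_apply, Fin.sum_univ_two, hli, hli']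
  · ext i j
    fin_cases i <;> fin_cases j <;>
      simp [E2, Matrix.mul_apply, Matrix.add_apply, Matrix.smul_apply, Fin.sum_univ_two]
    ring
  · intro h
    have h3 : l⁻¹ ^ 2 = 1 := by
      have : l⁻¹ ^ 2 = -1 := by linear_combination h
      rw [this]
      linear_combination (-1 : F) * h2
    have h4 : (l⁻¹ - 1) ^ 2 = 0 := by
      have : (l⁻¹ - 1) ^ 2 = l⁻¹ ^ 2 - 2 * l⁻¹ + 1 := by ring
      rw [this, h3, h2]
      linear_combination h11
    have h5 : l⁻¹ = 1 := by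
      have := pow_eq_zero_iff (two_ne_zero) |>.mp h4
      linear_combination this
    apply hl1
    rw [← inv_inv l, h5, inv_one]
  · simp [E2, Matrix.trace, Fin.sum_univ_two]
  · simp [E2t, Matrix.trace, Fin.sum_univ_two]
  · simp [E2]

end

end Cfsg.Agent.Helper73.CWX2
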