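import Cfsg.Agent.Helper73.BrauerFeit
import Cfsg.Agent.Helper3.Induced
import Cfsg.Agent.Helper81.BlockDefect
import Cfsg.Agent.Helper16.BK

/-!
# The `p`-part of `∑_{χ ∈ B} χ(1)^2`

For a `p`-block `B` of defect `d` of a group of order `p^a m`, `ν_p(∑_{χ ∈ B} χ(1)^2) = 2a - d`.
-/

set_option autoImplicit false
open Cfsg
open scoped ComplexConjugate

namespace Cfsg.Agent.Helper73

universe u

variable {G : Type u} [Group G] [Fintype G]

omit [Fintype G] in
/-- The sum over a `p`-subgroup of a function vanishing at the `p`-singular elements. -/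
theorem sum_pGroup_eq_one {p : ℕ} (hp : p.Prime) (P : Subgroup G) [Fintype P]
    (hP : IsPGroup p P) (f : G → ℂ) (h0 : ∀ x, p ∣ orderOf x → f x = 0) :
    ∑ x : P, f x = f 1 := by
  classical
  rw [Finset.sum_eq_single (1 : P)]
  · simp
  · intro x _ hx
    apply h0
    obtain ⟨k, hk⟩ := hP x
    have h1 : orderOf (x : G) ∣ p ^ k := by
      rw [Subgroup.orderOf_coe]
      exact orderOf_dvd_of_pow_eq_one hk
    obtain ⟨j, -, hj'⟩ := (Nat.dvd_prime_pow hp).mp h1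
    rw [hj']
    have : j ≠ 0 := by
      rintro rfl
      rw [pow_zero, orderOf_eq_one_iff] at hj'
      exact hx (Subtype.ext hj')
    exact dvd_pow_self p this
  · intro h
    exact absurd (Finset.mem_univ _) h

/-- `(|G|/p^a) · (p^a χ°) = ∑_ψ ψ(1) hzc(χ, ψ) ψ`. -/
theorem ordCompl_mul_pregTilde_eq_sum [Fintype (Cfsg.IrrCharacter G)] {p : ℕ} (hp : p.Prime)
    (χ : Cfsg.IrrCharacter G) (x : G) :
    ((Nat.card G / p ^ (Nat.card G).factorization p : ℕ) : ℂ) * pregTilde p (χ : G → ℂ) x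
      = ∑ ψ : Cfsg.IrrCharacter G,
          (Cfsg.charDegree (ψ : G → ℂ) : ℂ) * hzc p (χ : G → ℂ) (ψ : G → ℂ) * (ψ : G → ℂ) x := by
  have hcl : Cfsg.IsClassFunction G (pregTilde p (χ : G → ℂ)) :=
    pRegular_isClassFunction (p := p) (Helper81.irr_isClassFunction χ)
      ((p ^ (Nat.card G).factorization p : ℕ) : ℂ)
      (fun x hx => by unfold pregTilde; rw [if_neg hx])
      (fun x hx => by unfold pregTilde; rw [if_pos hx])
  have h := congrFun (Helper3.classFunction_eq_sum _ hcl) x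
  rw [Finset.sum_apply] at h
  simp only [Pi.smul_apply, smul_eq_mul] at h
  rw [h, Finset.mul_sum]
  refine Finset.sum_congr rfl fun ψ _ => ?_
  rw [← mul_assoc, ordCompl_mul_classInner_eq hp]

/-- `(|G|/p^a) χ(1) = ∑_ψ ψ(1) hzc(χ, ψ) k_ψ`, where `k_ψ = ⟨ψ_P, 1_P⟩` for a `p`-subgroup `P`
of order `p^a`. -/
theorem ordCompl_mul_one_eq_sum [Fintype (Cfsg.IrrCharacter G)] {p : ℕ} (hp : p.Prime)
    (P : Subgroup G) [Fintype P] (hP : IsPGroup p P)
    (hcard : Nat.card P = p ^ (Nat.card G).factorization p)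
    (χ : Cfsg.IrrCharacter G) (k : Cfsg.IrrCharacter G → ℕ)
    (hk : ∀ ψ : Cfsg.IrrCharacter G, ∑ x : P, (ψ : G → ℂ) x = (Nat.card P : ℂ) * k ψ) :
    ((Nat.card G / p ^ (Nat.card G).factorization p : ℕ) : ℂ) * (χ : G → ℂ) 1
      = ∑ ψ : Cfsg.IrrCharacter G,
          (Cfsg.charDegree (ψ : G → ℂ) : ℂ) * hzc p (χ : G → ℂ) (ψ : G → ℂ) * k ψ := by
  have hpa : ((p ^ (Nat.card G).factorization p : ℕ) : ℂ) ≠ 0 := by
    exact_mod_cast (pow_pos hp.pos _).ne'
  have h1 := sum_pGroup_eq_one hp P hP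
    (fun x => ((Nat.card G / p ^ (Nat.card G).factorization p : ℕ) : ℂ)
      * pregTilde p (χ : G → ℂ) x) (fun x hx => by unfold pregTilde; rw [if_pos hx, mul_zero])
  have h2 : pregTilde p (χ : G → ℂ) 1
      = ((p ^ (Nat.card G).factorization p : ℕ) : ℂ) * (χ : G → ℂ) 1 := by
    have : ¬ p ∣ orderOf (1 : G) := by
      rw [orderOf_one]
      exact hp.one_lt.ne' ∘ Nat.dvd_one.mp
    unfold pregTilde
    rw [if_neg this]
  have h3 : ∑ x : P, ((Nat.card G / p ^ (Nat.card G).factorization p : ℕ) : ℂ)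
        * pregTilde p (χ : G → ℂ) x
      = ((p ^ (Nat.card G).factorization p : ℕ) : ℂ) * ∑ ψ : Cfsg.IrrCharacter G,
          (Cfsg.charDegree (ψ : G → ℂ) : ℂ) * hzc p (χ : G → ℂ) (ψ : G → ℂ) * k ψ := by
    have : ∀ x : P, ((Nat.card G / p ^ (Nat.card G).factorization p : ℕ) : ℂ)
        * pregTilde p (χ : G → ℂ) x = ∑ ψ : Cfsg.IrrCharacter G,
          (Cfsg.charDegree (ψ : G → ℂ) : ℂ) * hzc p (χ : G → ℂ) (ψ : G → ℂ)
            * (ψ : G → ℂ) x := fun x => ordCompl_mul_pregTilde_eq_sum hp χ x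
    rw [Finset.sum_congr rfl fun x _ => this x, Finset.sum_comm, Finset.mul_sum]
    refine Finset.sum_congr rfl fun ψ _ => ?_
    rw [← Finset.mul_sum, hk ψ, hcard]
    ring
  rw [h3, h2] at h1
  have h4 : ((p ^ (Nat.card G).factorization p : ℕ) : ℂ) * ∑ ψ : Cfsg.IrrCharacter G,
          (Cfsg.charDegree (ψ : G → ℂ) : ℂ) * hzc p (χ : G → ℂ) (ψ : G → ℂ) * k ψ
      = ((p ^ (Nat.card G).factorization p : ℕ) : ℂ) *
        (((Nat.card G / p ^ (Nat.card G).factorization p : ℕ) : ℂ) * (χ : G → ℂ) 1) := by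
    rw [h1]
    ring
  exact (mul_left_cancel₀ hpa h4).symm

open Classical in
/-- `∑_{ψ ∈ B} ψ(1)^2 = p^a ∑_{ψ ∈ B} ψ(1) k_ψ`. -/
theorem sum_sq_charDegree_eq [Fintype (Cfsg.IrrCharacter G)] {p : ℕ} {M : Ideal Cfsg.AlgInt}
    (hM : Cfsg.IsPModular p M) {B : Set (Cfsg.IrrCharacter G)} (hB : Cfsg.IsPBlock M B)
    (P : Subgroup G) [Fintype P] (hP : IsPGroup p P)
    (k : Cfsg.IrrCharacter G → ℕ)
    (hk : ∀ ψ : Cfsg.IrrCharacter G, ∑ x : P, (ψ : G → ℂ) x = (Nat.card P : ℂ) * k ψ) :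
    (∑ ψ : Cfsg.IrrCharacter G, if ψ ∈ B then (Cfsg.charDegree (ψ : G → ℂ) : ℂ) ^ 2 else 0)
      = (Nat.card P : ℂ) * ∑ ψ : Cfsg.IrrCharacter G,
          if ψ ∈ B then (Cfsg.charDegree (ψ : G → ℂ) : ℂ) * k ψ else 0 := by
  classical
  have hp := hM.1
  have hG : (Nat.card G : ℂ) ≠ 0 := by exact_mod_cast Nat.card_pos.ne'
  have h1 := sum_pGroup_eq_one hp P hP (Cfsg.blockCoeff B)
    (fun x hx => Helper77.blockCoeff_eq_zero_of_dvd_orderOf hM hB hx)
  simp only [Helper77.blockCoeff_eq_sum] at h1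
  rw [← Finset.mul_sum] at h1
  have h2 := mul_left_cancel₀ (inv_ne_zero hG) h1
  rw [Finset.sum_comm] at h2
  have h3 : ∀ ψ : Cfsg.IrrCharacter G,
      (∑ x : P, if ψ ∈ B then (ψ : G → ℂ) 1 * (ψ : G → ℂ) (x : G)⁻¹ else 0)
        = if ψ ∈ B then (Nat.card P : ℂ) * ((Cfsg.charDegree (ψ : G → ℂ) : ℂ) * k ψ) else 0 := by
    intro ψ
    by_cases hψ : ψ ∈ B
    · simp only [hψ, if_true]
      rw [← Finset.mul_sum]
      have : ∑ x : P, (ψ : G → ℂ) (x : G)⁻¹ = ∑ x : P, (ψ : G → ℂ) x := by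
        apply Fintype.sum_equiv (Equiv.inv P)
        intro x
        simp
      rw [this, hk ψ, Helper81.irr_one_eq_charDegree]
      ring
    · simp [hψ]
  rw [Finset.sum_congr rfl fun ψ _ => h3 ψ] at h2
  rw [Finset.mul_sum]
  have h4 : ∀ ψ : Cfsg.IrrCharacter G,
      (if ψ ∈ B then (Cfsg.charDegree (ψ : G → ℂ) : ℂ) ^ 2 else 0)
        = if ψ ∈ B then (ψ : G → ℂ) 1 * (ψ : G → ℂ) (1 : G)⁻¹ else 0 := by
    intro ψ
    by_cases hψ : ψ ∈ B
    · simp only [hψ, if_true]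
      rw [inv_one, Helper81.irr_one_eq_charDegree]
      ring
    · simp [hψ]
  rw [Finset.sum_congr rfl fun ψ _ => h4 ψ, ← h2]
  refine Finset.sum_congr rfl fun ψ _ => ?_
  by_cases hψ : ψ ∈ B
  · simp [hψ]
  · simp [hψ]

/-- **Brauer**: for a `p`-block `B` of defect `d`, `ν_p(∑_{χ ∈ B} χ(1)^2) = 2a - d`. -/
theorem factorization_sum_sq_charDegree {p : ℕ} {M : Ideal Cfsg.AlgInt}
    (hM : Cfsg.IsPModular p M) {B : Set (Cfsg.IrrCharacter G)} (hB : Cfsg.IsPBlock M B) :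
    (∑ᶠ χ ∈ B, Cfsg.charDegree (χ : G → ℂ) ^ 2).factorization p
      = 2 * (Nat.card G).factorization p - Cfsg.blockDefect p B := by
  classical
  have hp := hM.1
  have hpf : Fact p.Prime := ⟨hp⟩
  have hMm := hM.2.1
  have := Fintype.ofFinite (Cfsg.IrrCharacter G)
  obtain ⟨P⟩ : Nonempty (Sylow p G) := inferInstance
  have hPcard : Nat.card (P : Subgroup G) = p ^ (Nat.card G).factorization p :=
    P.card_eq_multiplicity
  have hPp : IsPGroup p (P : Subgroup G) := P.isPGroup'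
  have : Fintype (P : Subgroup G) := Fintype.ofFinite _
  choose k hk using fun ψ : Cfsg.IrrCharacter G => Helper81.irr_sum_subgroup (P : Subgroup G) ψ
  obtain ⟨χ₀, hχ₀, h0⟩ := Helper16.exists_height_zero (p := p) hMm hB
  have hadd := Helper16.factorization_charDegree_add_blockDefect hχ₀ h0
  obtain ⟨s, hs⟩ : ∃ s, s = (Cfsg.charDegree (χ₀ : G → ℂ)).factorization p := ⟨_, rfl⟩
  obtain ⟨a, ha⟩ : ∃ a, a = (Nat.card G).factorization p := ⟨_, rfl⟩
  rw [← hs, ← ha] at hadd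
  rw [← ha] at hPcard ⊢
  -- the cofactors of the degrees
  have hu : ∀ ψ : Cfsg.IrrCharacter G, ψ ∈ B →
      Cfsg.charDegree (ψ : G → ℂ) = p ^ s * (Cfsg.charDegree (ψ : G → ℂ) / p ^ s) := by
    intro ψ hψ
    have hfac := factorization_eq_add_height hχ₀ h0 hψ
    rw [← hs] at hfac
    have : p ^ s ∣ Cfsg.charDegree (ψ : G → ℂ) :=
      (pow_dvd_pow p (by omega)).trans (Nat.ordProj_dvd _ _)
    exact (Nat.mul_div_cancel' this).symm
  set u : Cfsg.IrrCharacter G → ℕ := fun ψ => Cfsg.charDegree (ψ : G → ℂ) / p ^ s with hudef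
  set R : ℕ := ∑ ψ : Cfsg.IrrCharacter G, if ψ ∈ B then u ψ * k ψ else 0 with hRdef
  -- the sum of squares
  have hρ : ∑ᶠ χ ∈ B, Cfsg.charDegree (χ : G → ℂ) ^ 2 = p ^ (a + s) * R := by
    apply Nat.cast_injective (R := ℂ)
    rw [Nat.cast_finsum_mem (Set.toFinite B), finsum_mem_def, finsum_eq_sum_of_fintype]
    have e1 : ∀ ψ : Cfsg.IrrCharacter G,
        Set.indicator B (fun χ : Cfsg.IrrCharacter G =>
          ((Cfsg.charDegree (χ : G → ℂ) ^ 2 : ℕ) : ℂ)) ψ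
          = if ψ ∈ B then (Cfsg.charDegree (ψ : G → ℂ) : ℂ) ^ 2 else 0 := by
      intro ψ
      by_cases hψ : ψ ∈ B
      · simp [hψ]
      · simp [hψ]
    rw [Finset.sum_congr rfl fun ψ _ => e1 ψ, sum_sq_charDegree_eq hM hB (P : Subgroup G) hPp k hk,
      hPcard, hRdef]
    push_cast
    rw [Finset.mul_sum, Finset.mul_sum]
    refine Finset.sum_congr rfl fun ψ _ => ?_
    by_cases hψ : ψ ∈ B
    · simp only [hψ, if_true]
      have := hu ψ hψ
      have h2 : (Cfsg.charDegree (ψ : G → ℂ) : ℂ) = (p : ℂ) ^ s * (u ψ : ℂ) := by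
        exact_mod_cast this
      rw [h2, pow_add]
      ring
    · simp [hψ]
  -- `R` is prime to `p`
  have hR : ¬ p ∣ R := by
    intro hdvd
    set κ := hzc p (χ₀ : G → ℂ) (χ₀ : G → ℂ) with hκ
    have hI := ordCompl_mul_one_eq_sum hp (P : Subgroup G) hPp (ha ▸ hPcard) χ₀ k hk
    rw [← ha] at hI
    -- remove the terms outside `B` and divide by `p^s`
    have hps : ((p : ℂ) ^ s) ≠ 0 := pow_ne_zero s (by exact_mod_cast hp.ne_zero)
    have hterm : ∀ ψ : Cfsg.IrrCharacter G,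
        (Cfsg.charDegree (ψ : G → ℂ) : ℂ) * hzc p (χ₀ : G → ℂ) (ψ : G → ℂ) * k ψ
          = (p : ℂ) ^ s * (if ψ ∈ B then (u ψ : ℂ) * k ψ * hzc p (χ₀ : G → ℂ) (ψ : G → ℂ)
              else 0) := by
      intro ψ
      by_cases hψ : ψ ∈ B
      · simp only [hψ, if_true]
        have h2 : (Cfsg.charDegree (ψ : G → ℂ) : ℂ) = (p : ℂ) ^ s * (u ψ : ℂ) := by
          exact_mod_cast hu ψ hψ
        rw [h2]
        ring
      · simp only [hψ, if_false, mul_zero]
        have h3 := hzc_mul_symm hp χ₀ ψ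
        rw [hzc_eq_zero_of_not_mem hM hB hψ hχ₀, zero_mul, Helper81.irr_one_eq_charDegree] at h3
        rw [mul_comm (Cfsg.charDegree (ψ : G → ℂ) : ℂ), h3, zero_mul]
    rw [Finset.sum_congr rfl fun ψ _ => hterm ψ, ← Finset.mul_sum,
      Helper81.irr_one_eq_charDegree] at hI
    have h2 : (Cfsg.charDegree (χ₀ : G → ℂ) : ℂ) = (p : ℂ) ^ s * (u χ₀ : ℂ) := by
      exact_mod_cast hu χ₀ hχ₀
    rw [h2] at hI
    have hI' : ((Nat.card G / p ^ a : ℕ) : ℂ) * (u χ₀ : ℂ)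
        = ∑ ψ : Cfsg.IrrCharacter G, if ψ ∈ B then
            (u ψ : ℂ) * k ψ * hzc p (χ₀ : G → ℂ) (ψ : G → ℂ) else 0 := by
      apply mul_left_cancel₀ hps
      rw [← hI]
      ring
    -- the difference with `κ R`
    have hdiff : Cfsg.MemLocalIdeal M (((Nat.card G / p ^ a : ℕ) : ℂ) * (u χ₀ : ℂ) - κ * R) := by
      have e : ((Nat.card G / p ^ a : ℕ) : ℂ) * (u χ₀ : ℂ) - κ * R
          = ∑ ψ : Cfsg.IrrCharacter G, if ψ ∈ B then
            (u ψ : ℂ) * k ψ * (hzc p (χ₀ : G → ℂ) (ψ : G → ℂ) - κ) else 0 := by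
        rw [hI', hRdef]
        push_cast
        rw [Finset.mul_sum, ← Finset.sum_sub_distrib]
        refine Finset.sum_congr rfl fun ψ _ => ?_
        by_cases hψ : ψ ∈ B
        · simp only [hψ, if_true]
          ring
        · simp [hψ]
      rw [e]
      refine Helper77.memLocalIdeal_sum hMm _ _ fun ψ _ => ?_
      by_cases hψ : ψ ∈ B
      · simp only [hψ, if_true]
        refine Helper77.memLocalIdeal_mul hMm ?_ (hzc_sub_memLocalIdeal hMm p hB χ₀ hψ hχ₀)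
        have := Helper81.memLocalRing_natCast hMm.ne_top (u ψ * k ψ)
        push_cast at this
        exact this
      · simp only [hψ, if_false]
        exact Helper77.memLocalIdeal_zero hMm
    have hκR : Cfsg.MemLocalIdeal M (κ * R) :=
      Helper77.memLocalIdeal_mul hMm (hzc_memLocalRing hMm p χ₀ χ₀)
        (Helper81.memLocalIdeal_natCast_of_dvd hM hdvd)
    have h3 := Helper77.memLocalIdeal_add hMm hdiff hκR
    rw [sub_add_cancel] at h3
    have h4 : ¬ p ∣ (Nat.card G / p ^ a) * u χ₀ := by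
      intro h
      rcases (Nat.Prime.dvd_mul hp).mp h with h | h
      · rw [ha] at h
        exact Nat.not_dvd_ordCompl hp Nat.card_pos.ne' h
      · rw [hudef, hs] at h
        exact Nat.not_dvd_ordCompl hp (Helper81.charDegree_pos χ₀).ne' h
    apply Helper77.not_memLocalIdeal_natCast hM h4
    push_cast
    exact h3
  rw [hρ, factorization_pow_mul_of_not_dvd hp _ _ hR]
  omega

end Cfsg.Agent.Helper73
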