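import Cfsg.Agent.Helper75.CliffordCorr
import Cfsg.Agent.Helper77.BlockRank
import Cfsg.Agent.Helper80.CharOrtho
import Cfsg.Agent.Helper16.BlockCore
import Cfsg.Agent.Helper81.BlockDefect
import Cfsg.Agent.Helper73.SumSqDeg

/-!
# A `G`-averaged Osima argument for normal subgroups (helper73)

`N ⊴ G`.  `trFun N α` is the sum of the `G`-conjugates of a function `α` on `N`.

* `osima_kernel`: vanishing of the averaged kernel `∑_{θ ∈ A} tr θ (y) conj θ(x)`.
* `blockCoeff_memLocalRing_of_trFun`: if the traces of the members of `A` are orthogonal to the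
  characters outside `A`, both for the full and for the `p`-regular inner product, then the
  idempotent of `A` has local integer coefficients.
* `under_blockCoeff_memLocalRing`: this applies to the set of irreducible characters of `N` lying
  under a block `B` of `G`.
* `under_closed`: that set is a union of blocks of `N`.
-/

set_option autoImplicit false
open Cfsg
open scoped ComplexConjugate Classical

namespace Cfsg.Agent.Helper73

universe u

variable {G : Type u} [Group G] [Fintype G]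

/-- The sum of the `G`-conjugates of a function on the normal subgroup `N`. -/
noncomputable def trFun (N : Subgroup G) [N.Normal] (α : N → ℂ) : N → ℂ :=
  ∑ x : G, Helper75.conjFun N x α

theorem trFun_apply (N : Subgroup G) [hN : N.Normal] (α : N → ℂ) (n : N) :
    trFun N α n = ∑ x : G, α ⟨x * n * x⁻¹, hN.conj_mem n n.2 x⟩ := by
  unfold trFun
  rw [Finset.sum_apply]
  rfl

theorem trFun_conj (N : Subgroup G) [hN : N.Normal] (α : N → ℂ) (g : G) (n : N) :
    trFun N α ⟨g * n * g⁻¹, hN.conj_mem n n.2 g⟩ = trFun N α n := by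
  rw [trFun_apply, trFun_apply]
  refine Fintype.sum_equiv (Equiv.mulRight g) _ _ (fun x => ?_)
  refine congrArg α (Subtype.ext ?_)
  simp [mul_assoc]

theorem trFun_one (N : Subgroup G) [hN : N.Normal] (α : N → ℂ) :
    trFun N α 1 = (Nat.card G : ℂ) * α 1 := by
  rw [trFun_apply]
  have h : ∀ x : G, α ⟨x * ((1 : N) : G) * x⁻¹, hN.conj_mem 1 (1 : N).2 x⟩ = α 1 := by
    intro x
    refine congrArg α (Subtype.ext ?_)
    simp
  simp only [h, Finset.sum_const, Finset.card_univ, nsmul_eq_mul, Nat.card_eq_fintype_card]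

/-- The `D`-part of the inner product of two traces. -/
theorem sum_trFun_mul_conj_trFun (N : Subgroup G) [hN : N.Normal] [Fintype N]
    (D : N → Prop) [DecidablePred D]
    (hDconj : ∀ (g : G) (n : N), D ⟨g * n * g⁻¹, hN.conj_mem n n.2 g⟩ ↔ D n)
    (α β : N → ℂ)
    (h : ∑ n : N, (if D n then trFun N α n * conj (β n) else 0) = 0) :
    ∑ n : N, (if D n then trFun N α n * conj (trFun N β n) else 0) = 0 := by
  have h1 : ∀ n : N, (if D n then trFun N α n * conj (trFun N β n) else 0)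
      = ∑ g : G, (if D n then trFun N α n
          * conj (β ⟨g * n * g⁻¹, hN.conj_mem n n.2 g⟩) else 0) := by
    intro n
    by_cases hn : D n
    · simp only [hn, if_true]
      rw [trFun_apply N β, map_sum, Finset.mul_sum]
    · simp [hn]
  simp_rw [h1]
  rw [Finset.sum_comm]
  apply Finset.sum_eq_zero
  intro g _
  refine Eq.trans ?_ h
  let e : N ≃ N :=
    { toFun := fun n => ⟨g * n * g⁻¹, hN.conj_mem n n.2 g⟩
      invFun := fun n => ⟨g⁻¹ * n * g, by
        have := hN.conj_mem n n.2 g⁻¹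
        rwa [inv_inv] at this⟩
      left_inv := fun n => Subtype.ext (by simp [mul_assoc])
      right_inv := fun n => Subtype.ext (by simp [mul_assoc]) }
  refine Fintype.sum_equiv e _ _ (fun n => ?_)
  show _ = (if D (e n) then trFun N α (e n) * conj (β (e n)) else 0)
  have he : e n = ⟨g * n * g⁻¹, hN.conj_mem n n.2 g⟩ := rfl
  rw [he, trFun_conj]
  by_cases hn : D n
  · rw [if_pos hn, if_pos ((hDconj g n).mpr hn)]
  · rw [if_neg hn, if_neg (fun h' => hn ((hDconj g n).mp h'))]

/-- **The averaged Osima kernel.**  Let `A` be a set of irreducible characters of `N` and `D` a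
`G`-invariant predicate on `N` such that the `D`-part of the inner product of `tr θ` and `θ'`
vanishes for `θ ∈ A`, `θ' ∉ A`.  Then `∑_{θ ∈ A} tr θ (y) conj θ(x) = 0` whenever `D y` and
not `D x`. -/
theorem osima_kernel (N : Subgroup G) [hN : N.Normal] [Fintype N]
    [Fintype (Cfsg.IrrCharacter N)] (A : Set (Cfsg.IrrCharacter N)) (D : N → Prop)
    [DecidablePred D]
    (hDconj : ∀ (g : G) (n : N), D ⟨g * n * g⁻¹, hN.conj_mem n n.2 g⟩ ↔ D n)
    (hD : ∀ θ ∈ A, ∀ θ' : Cfsg.IrrCharacter N, θ' ∉ A →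
      ∑ n : N, (if D n then trFun N (θ : N → ℂ) n * conj ((θ' : N → ℂ) n) else 0) = 0)
    (x y : N) (hx : ¬ D x) (hy : D y) :
    ∑ θ : Cfsg.IrrCharacter N,
      (if θ ∈ A then trFun N (θ : N → ℂ) y * conj ((θ : N → ℂ) x) else 0) = 0 := by
  obtain ⟨a, ha⟩ : ∃ a : Cfsg.IrrCharacter N → N → ℂ, a = fun θ n =>
      if θ ∈ A then trFun N (θ : N → ℂ) n * conj ((θ : N → ℂ) x) else 0 := ⟨_, rfl⟩
  obtain ⟨b, hb⟩ : ∃ b : Cfsg.IrrCharacter N → N → ℂ, b = fun θ n =>
      if θ ∈ A then 0 else trFun N (θ : N → ℂ) n * conj ((θ : N → ℂ) x) := ⟨_, rfl⟩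
  obtain ⟨u, hu⟩ : ∃ u : N → ℂ, u = fun n => ∑ θ : Cfsg.IrrCharacter N, a θ n := ⟨_, rfl⟩
  obtain ⟨v, hv⟩ : ∃ v : N → ℂ, v = fun n => ∑ θ : Cfsg.IrrCharacter N, b θ n := ⟨_, rfl⟩
  -- Step 1: `u + v` vanishes on `D`
  have step1 : ∀ n : N, D n → u n + v n = 0 := by
    intro n hn
    have h1 : u n + v n = ∑ θ : Cfsg.IrrCharacter N,
        trFun N (θ : N → ℂ) n * conj ((θ : N → ℂ) x) := by
      rw [hu, hv]
      simp only
      rw [← Finset.sum_add_distrib]
      refine Finset.sum_congr rfl fun θ _ => ?_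
      rw [ha, hb]
      by_cases hθ : θ ∈ A
      · simp [hθ]
      · simp [hθ]
    rw [h1]
    have h2 : ∀ θ : Cfsg.IrrCharacter N, trFun N (θ : N → ℂ) n * conj ((θ : N → ℂ) x)
        = ∑ g : G, (θ : N → ℂ) ⟨g * n * g⁻¹, hN.conj_mem n n.2 g⟩ * conj ((θ : N → ℂ) x) := by
      intro θ
      rw [trFun_apply, Finset.sum_mul]
    simp_rw [h2]
    rw [Finset.sum_comm]
    apply Finset.sum_eq_zero
    intro g _
    apply Helper80.irr_column_orthogonality_of_not_isConj
    intro hc
    obtain ⟨c, hc⟩ := isConj_iff.mp hc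
    apply hx
    have hxe : x = ⟨((c : G) * g) * n * ((c : G) * g)⁻¹, hN.conj_mem n n.2 _⟩ := by
      rw [← hc]
      apply Subtype.ext
      simp [mul_assoc]
    rw [hxe]
    exact (hDconj _ n).mpr hn
  -- Step 2: the `D`-part of `⟨u, v⟩` vanishes
  have step2 : ∑ n : N, (if D n then u n * conj (v n) else 0) = 0 := by
    have h1 : ∀ n : N, (if D n then u n * conj (v n) else 0)
        = ∑ θ : Cfsg.IrrCharacter N, ∑ θ' : Cfsg.IrrCharacter N,
            (if D n then a θ n * conj (b θ' n) else 0) := by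
      intro n
      by_cases hn : D n
      · simp only [hn, if_true]
        rw [hu, hv]
        simp only
        rw [map_sum, Finset.sum_mul_sum]
      · simp [hn]
    simp_rw [h1]
    rw [Finset.sum_comm]
    apply Finset.sum_eq_zero
    intro θ _
    rw [Finset.sum_comm]
    apply Finset.sum_eq_zero
    intro θ' _
    by_cases hθ : θ ∈ A
    · by_cases hθ' : θ' ∈ A
      · apply Finset.sum_eq_zero
        intro n _
        rw [hb]
        simp [hθ']
      · have h2 := sum_trFun_mul_conj_trFun N D hDconj (θ : N → ℂ) (θ' : N → ℂ)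
          (hD θ hθ θ' hθ')
        have h3 : ∀ n : N, (if D n then a θ n * conj (b θ' n) else 0)
            = (conj ((θ : N → ℂ) x) * (θ' : N → ℂ) x) *
              (if D n then trFun N (θ : N → ℂ) n * conj (trFun N (θ' : N → ℂ) n) else 0) := by
          intro n
          rw [ha, hb]
          by_cases hn : D n
          · simp only [hn, if_true, hθ, hθ', if_false, map_mul, Complex.conj_conj]
            ring
          · simp [hn]
        simp_rw [h3]
        rw [← Finset.mul_sum, h2, mul_zero]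
    · apply Finset.sum_eq_zero
      intro n _
      rw [ha]
      simp [hθ]
  -- Step 3: the `D`-part of `⟨u, u⟩` vanishes
  have step3 : ∑ n : N, (if D n then u n * conj (u n) else 0) = 0 := by
    have h1 : ∀ n : N, (if D n then u n * conj (u n) else 0)
        = - (if D n then u n * conj (v n) else 0) := by
      intro n
      by_cases hn : D n
      · simp only [hn, if_true]
        have h2 : u n = - v n := eq_neg_of_add_eq_zero_left (step1 n hn)
        have h3 : v n = - u n := by rw [h2, neg_neg]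
        rw [h3, map_neg, mul_neg, neg_neg]
      · simp [hn]
    simp_rw [h1]
    rw [Finset.sum_neg_distrib, step2, neg_zero]
  have h4 : ∑ n : N, (if D n then Complex.normSq (u n) else 0) = 0 := by
    have h5 : ((∑ n : N, (if D n then Complex.normSq (u n) else 0) : ℝ) : ℂ) = 0 := by
      rw [← step3, Complex.ofReal_sum]
      refine Finset.sum_congr rfl fun n _ => ?_
      by_cases hn : D n
      · simp only [hn, if_true]
        rw [Complex.mul_conj]
      · simp [hn]
    exact_mod_cast h5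
  have h6 := (Finset.sum_eq_zero_iff_of_nonneg (fun n _ => by
    by_cases hn : D n
    · simp only [hn, if_true]; exact Complex.normSq_nonneg _
    · simp [hn])).mp h4 y (Finset.mem_univ _)
  rw [if_pos hy, Complex.normSq_eq_zero] at h6
  have h7 : u y = ∑ θ : Cfsg.IrrCharacter N,
      (if θ ∈ A then trFun N (θ : N → ℂ) y * conj ((θ : N → ℂ) x) else 0) := by
    rw [hu, ha]
  rw [← h7, h6]

omit [Fintype G] in
/-- Conjugation by an element normalizing the Sylow subgroup `Q` of `N` preserves `Q`. -/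
theorem conj_mem_sylow_of_mem_normalizer {p : ℕ} (N : Subgroup G) [hN : N.Normal]
    (Q : Sylow p N) {h : G}
    (hh : h ∈ Subgroup.normalizer (((Q : Subgroup N).map N.subtype : Subgroup G) : Set G))
    (y : N) (hy : y ∈ (Q : Subgroup N)) :
    (⟨h * y * h⁻¹, hN.conj_mem y y.2 h⟩ : N) ∈ (Q : Subgroup N) := by
  have h1 : (y : G) ∈ (Q : Subgroup N).map N.subtype := Subgroup.mem_map_of_mem N.subtype hy
  have h2 := (Subgroup.mem_normalizer_iff.mp hh (y : G)).mp h1
  obtain ⟨z, hz, hzeq⟩ := Subgroup.mem_map.mp h2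
  have h3 : (⟨h * y * h⁻¹, hN.conj_mem y y.2 h⟩ : N) = z := Subtype.ext hzeq.symm
  rw [h3]
  exact hz

/-- Frattini: the sum of a class function of `N` over a `G`-conjugate of a Sylow subgroup of `N`
equals its sum over the Sylow subgroup. -/
theorem sum_sylow_conj (p : ℕ) [Fact p.Prime] (N : Subgroup G) [hN : N.Normal] [Fintype N]
    (Q : Sylow p N) [Fintype (Q : Subgroup N)] (θ : N → ℂ) (hθ : Cfsg.IsClassFunction N θ)
    (g : G) :
    ∑ y : (Q : Subgroup N), θ ⟨g * ((y : N) : G) * g⁻¹, hN.conj_mem _ (y : N).2 g⟩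
      = ∑ y : (Q : Subgroup N), θ y := by
  have htop := Sylow.normalizer_sup_eq_top Q
  have hg : g⁻¹ ∈ Subgroup.normalizer (((Q : Subgroup N).map N.subtype : Subgroup G) : Set G)
      ⊔ N := by
    rw [htop]
    exact Subgroup.mem_top _
  obtain ⟨h, hh, n, hn, hhn⟩ := Subgroup.mem_sup_of_normal_right.mp hg
  have hh' : h⁻¹ ∈ Subgroup.normalizer (((Q : Subgroup N).map N.subtype : Subgroup G) : Set G) :=
    inv_mem hh
  have hgeq : g = n⁻¹ * h⁻¹ := by
    rw [← mul_inv_rev, hhn, inv_inv]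
  have h1 : ∀ y : (Q : Subgroup N),
      θ ⟨g * ((y : N) : G) * g⁻¹, hN.conj_mem _ (y : N).2 g⟩
        = θ ⟨h⁻¹ * ((y : N) : G) * h⁻¹⁻¹, hN.conj_mem _ (y : N).2 h⁻¹⟩ := by
    intro y
    have h2 := hθ ⟨h⁻¹ * ((y : N) : G) * h⁻¹⁻¹, hN.conj_mem _ (y : N).2 h⁻¹⟩
      ⟨n⁻¹, inv_mem hn⟩
    rw [← h2]
    refine congrArg θ (Subtype.ext ?_)
    simp only [hgeq, Subgroup.coe_mul, Subgroup.coe_inv]
    simp [mul_assoc]
  simp_rw [h1]
  let e : (Q : Subgroup N) ≃ (Q : Subgroup N) :=
    { toFun := fun y => ⟨⟨h⁻¹ * ((y : N) : G) * h⁻¹⁻¹, hN.conj_mem _ (y : N).2 h⁻¹⟩,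
        conj_mem_sylow_of_mem_normalizer N Q hh' (y : N) y.2⟩
      invFun := fun y => ⟨⟨h * ((y : N) : G) * h⁻¹, hN.conj_mem _ (y : N).2 h⟩,
        conj_mem_sylow_of_mem_normalizer N Q hh (y : N) y.2⟩
      left_inv := fun y => Subtype.ext (Subtype.ext (by simp [mul_assoc]))
      right_inv := fun y => Subtype.ext (Subtype.ext (by simp [mul_assoc])) }
  exact Fintype.sum_equiv e _ _ (fun y => rfl)

/-- If the traces of the members of `A` are orthogonal to the irreducible characters outside `A`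
for the full and for the `p`-regular inner product, then the idempotent of `A` has local integer
coefficients. -/
theorem blockCoeff_memLocalRing_of_trFun {p : ℕ} [Fact p.Prime] {M : Ideal Cfsg.AlgInt}
    (hM : Cfsg.IsPModular p M) (N : Subgroup G) [hN : N.Normal] [Fintype N]
    (A : Set (Cfsg.IrrCharacter N))
    (h1 : ∀ θ ∈ A, ∀ θ' : Cfsg.IrrCharacter N, θ' ∉ A →
      ∑ n : N, trFun N (θ : N → ℂ) n * conj ((θ' : N → ℂ) n) = 0)
    (h2 : ∀ θ ∈ A, ∀ θ' : Cfsg.IrrCharacter N, θ' ∉ A →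
      Helper77.pregInner p (trFun N (θ : N → ℂ)) (θ' : N → ℂ) = 0) (x : N) :
    Cfsg.MemLocalRing M (Cfsg.blockCoeff A x) := by
  have hp : p.Prime := Fact.out
  have hMm : M.IsMaximal := hM.2.1
  have := Fintype.ofFinite (Cfsg.IrrCharacter N)
  have hGne : (Nat.card G : ℂ) ≠ 0 := by
    have : 0 < Nat.card G := Nat.card_pos
    exact_mod_cast this.ne'
  have hbc : Cfsg.blockCoeff A x = (Nat.card N : ℂ)⁻¹ *
      ∑ θ : Cfsg.IrrCharacter N,
        if θ ∈ A then (θ : N → ℂ) 1 * conj ((θ : N → ℂ) x) else 0 := by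
    rw [Cfsg.blockCoeff, finsum_mem_def, finsum_eq_sum_of_fintype]
    refine congrArg _ (Finset.sum_congr rfl fun θ _ => ?_)
    rw [Set.indicator_apply]
  have hZ1 : ∑ θ : Cfsg.IrrCharacter N,
      (if θ ∈ A then trFun N (θ : N → ℂ) 1 * conj ((θ : N → ℂ) x) else 0)
      = (Nat.card G : ℂ) * ∑ θ : Cfsg.IrrCharacter N,
          if θ ∈ A then (θ : N → ℂ) 1 * conj ((θ : N → ℂ) x) else 0 := by
    rw [Finset.mul_sum]
    refine Finset.sum_congr rfl fun θ _ => ?_
    by_cases hθ : θ ∈ A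
    · rw [if_pos hθ, if_pos hθ, trFun_one]
      ring
    · rw [if_neg hθ, if_neg hθ, mul_zero]
  have hconj : ∀ (g : G) (n : N),
      orderOf (⟨g * n * g⁻¹, hN.conj_mem n n.2 g⟩ : N) = orderOf n := by
    intro g n
    rw [← Subgroup.orderOf_coe, ← Subgroup.orderOf_coe]
    exact (MulAut.conj g).orderOf_eq (n : G)
  have h2' : ∀ θ ∈ A, ∀ θ' : Cfsg.IrrCharacter N, θ' ∉ A →
      ∑ n : N, (if ¬ p ∣ orderOf n then trFun N (θ : N → ℂ) n * conj ((θ' : N → ℂ) n) else 0)
        = 0 := by
    intro θ hθ θ' hθ'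
    refine Eq.trans (Finset.sum_congr rfl fun n _ => ?_) (h2 θ hθ θ' hθ')
    by_cases hn : p ∣ orderOf n
    · simp [hn]
    · simp [hn]
  by_cases hx : p ∣ orderOf x
  · have hk := osima_kernel N A (fun n => ¬ p ∣ orderOf n) (fun g n => by rw [hconj])
      h2' x 1 (not_not.mpr hx) (by rw [orderOf_one]; exact hp.not_dvd_one)
    rw [hZ1] at hk
    rw [hbc, (mul_eq_zero.mp hk).resolve_left hGne, mul_zero]
    exact Helper77.memLocalRing_zero hMm
  · have hD : ∀ θ ∈ A, ∀ θ' : Cfsg.IrrCharacter N, θ' ∉ A →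
        ∑ n : N, (if p ∣ orderOf n then trFun N (θ : N → ℂ) n * conj ((θ' : N → ℂ) n) else 0)
          = 0 := by
      intro θ hθ θ' hθ'
      have e1 := h1 θ hθ θ' hθ'
      have e2 := h2' θ hθ θ' hθ'
      have e3 : ∀ n : N,
          (if p ∣ orderOf n then trFun N (θ : N → ℂ) n * conj ((θ' : N → ℂ) n) else 0)
          = trFun N (θ : N → ℂ) n * conj ((θ' : N → ℂ) n)
            - (if ¬ p ∣ orderOf n then trFun N (θ : N → ℂ) n * conj ((θ' : N → ℂ) n)
                else 0) := by
        intro n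
        by_cases hn : p ∣ orderOf n
        · simp [hn]
        · simp [hn]
      simp_rw [e3]
      rw [Finset.sum_sub_distrib, e1, e2, sub_zero]
    have hk : ∀ y : N, p ∣ orderOf y → ∑ θ : Cfsg.IrrCharacter N,
        (if θ ∈ A then trFun N (θ : N → ℂ) y * conj ((θ : N → ℂ) x) else 0) = 0 :=
      fun y hy => osima_kernel N A (fun n => p ∣ orderOf n) (fun g n => by rw [hconj])
        hD x y hx hy
    obtain ⟨Q⟩ := (inferInstance : Nonempty (Sylow p N))
    have : Fintype (Q : Subgroup N) := Fintype.ofFinite _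
    have hsum := sum_pGroup_eq_one hp (Q : Subgroup N) Q.isPGroup'
      (fun y : N => ∑ θ : Cfsg.IrrCharacter N,
        (if θ ∈ A then trFun N (θ : N → ℂ) y * conj ((θ : N → ℂ) x) else 0)) hk
    have hL : ∑ y : (Q : Subgroup N), ∑ θ : Cfsg.IrrCharacter N,
        (if θ ∈ A then trFun N (θ : N → ℂ) (y : N) * conj ((θ : N → ℂ) x) else 0)
        = (Nat.card G : ℂ) * ∑ θ : Cfsg.IrrCharacter N,
          (if θ ∈ A then (∑ y : (Q : Subgroup N), (θ : N → ℂ) y) * conj ((θ : N → ℂ) x)
            else 0) := by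
      rw [Finset.sum_comm, Finset.mul_sum]
      refine Finset.sum_congr rfl fun θ _ => ?_
      by_cases hθ : θ ∈ A
      · simp only [hθ, if_true]
        rw [← Finset.sum_mul, ← mul_assoc]
        congr 1
        simp_rw [trFun_apply]
        rw [Finset.sum_comm]
        simp_rw [sum_sylow_conj p N Q (θ : N → ℂ) (Helper81.irr_isClassFunction θ)]
        simp only [Finset.sum_const, Finset.card_univ, nsmul_eq_mul, Nat.card_eq_fintype_card]
      · simp [hθ]
    have hS : ∑ θ : Cfsg.IrrCharacter N,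
        (if θ ∈ A then (θ : N → ℂ) 1 * conj ((θ : N → ℂ) x) else 0)
        = ∑ θ : Cfsg.IrrCharacter N,
          (if θ ∈ A then (∑ y : (Q : Subgroup N), (θ : N → ℂ) y) * conj ((θ : N → ℂ) x)
            else 0) := by
      apply mul_left_cancel₀ hGne
      rw [← hZ1, ← hL]
      exact hsum.symm
    have hQne : (Nat.card (Q : Subgroup N) : ℂ) ≠ 0 := by
      have : 0 < Nat.card (Q : Subgroup N) := Nat.card_pos
      exact_mod_cast this.ne'
    have hcard : (Nat.card N : ℂ)
        = (Nat.card (Q : Subgroup N) : ℂ) * (((Q : Subgroup N).index : ℕ) : ℂ) := by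
      rw [← Nat.cast_mul, Subgroup.card_mul_index]
    have hterm : ∀ θ : Cfsg.IrrCharacter N, ∃ z : ℂ, IsIntegral ℤ z ∧
        (if θ ∈ A then (∑ y : (Q : Subgroup N), (θ : N → ℂ) y) * conj ((θ : N → ℂ) x) else 0)
          = (Nat.card (Q : Subgroup N) : ℂ) * z := by
      intro θ
      by_cases hθ : θ ∈ A
      · obtain ⟨m, hm⟩ := Helper81.irr_sum_subgroup (Q : Subgroup N) θ
        refine ⟨(m : ℂ) * conj ((θ : N → ℂ) x), ?_, ?_⟩
        · apply IsIntegral.mul
          · exact isIntegral_algebraMap (R := ℤ) (A := ℂ) (x := (m : ℤ)) |> fun h => by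
              simpa using h
          · rw [← Helper77.irr_inv]
            exact Helper81.irr_isIntegral θ x⁻¹
        · rw [if_pos hθ, hm]
          ring
      · exact ⟨0, isIntegral_zero, by rw [if_neg hθ, mul_zero]⟩
    choose z hz hzeq using hterm
    rw [hbc, hS]
    simp_rw [hzeq]
    rw [← Finset.mul_sum, hcard, mul_inv]
    have hfin : (Nat.card (Q : Subgroup N) : ℂ)⁻¹ * ((((Q : Subgroup N).index : ℕ) : ℂ))⁻¹
        * ((Nat.card (Q : Subgroup N) : ℂ) * ∑ θ : Cfsg.IrrCharacter N, z θ)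
        = ((((Q : Subgroup N).index : ℕ) : ℂ))⁻¹ * ∑ θ : Cfsg.IrrCharacter N, z θ := by
      field_simp
    rw [hfin]
    refine Helper77.memLocalRing_mul hMm
      (Helper77.memLocalRing_natCast_inv hM (Sylow.not_dvd_index Q))
      (Helper77.memLocalRing_sum hMm _ _ (fun θ _ =>
        Helper77.memLocalRing_of_isIntegral hMm (hz θ)))

/-- The irreducible characters of `N` lying under members of `B`. -/
def underSet (N : Subgroup G) [Fintype N] (B : Set (Cfsg.IrrCharacter G)) :
    Set (Cfsg.IrrCharacter N) :=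
  {θ | ∃ χ ∈ B, Cfsg.classInner (fun n : N => (χ : G → ℂ) n) (θ : N → ℂ) ≠ 0}

/-- For `χ` in the block `B` and `θ'` not under `B`, the `p`-regular inner product of `χ_N` and
`θ'` vanishes. -/
theorem pregInner_res_eq_zero {p : ℕ} {M : Ideal Cfsg.AlgInt} (hM : Cfsg.IsPModular p M)
    (N : Subgroup G) [Fintype N] {B : Set (Cfsg.IrrCharacter G)} (hB : Cfsg.IsPBlock M B)
    {χ : Cfsg.IrrCharacter G} (hχ : χ ∈ B) {θ' : Cfsg.IrrCharacter N}
    (hθ' : θ' ∉ underSet N B) :
    Helper77.pregInner p (fun n : N => (χ : G → ℂ) n) (θ' : N → ℂ) = 0 := by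
  have := Fintype.ofFinite (Cfsg.IrrCharacter G)
  have hGne : (Nat.card G : ℂ) ≠ 0 := by
    have : 0 < Nat.card G := Nat.card_pos
    exact_mod_cast this.ne'
  have hNne : (Nat.card N : ℂ) ≠ 0 := by
    have : 0 < Nat.card N := Nat.card_pos
    exact_mod_cast this.ne'
  have hexp := Helper77.card_smul_pRegularPart_eq_sum hM hB hχ
  have hzero : ∀ ψ ∈ B, ∑ n : N, (ψ : G → ℂ) n * conj ((θ' : N → ℂ) n) = 0 := by
    intro ψ hψ
    have h0 : Cfsg.classInner (fun n : N => (ψ : G → ℂ) n) (θ' : N → ℂ) = 0 := by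
      by_contra h
      exact hθ' ⟨ψ, hψ, h⟩
    unfold Cfsg.classInner at h0
    exact (mul_eq_zero.mp h0).resolve_left (inv_ne_zero hNne)
  have h1 : (Nat.card G : ℂ) * Helper77.pregInner p (fun n : N => (χ : G → ℂ) n) (θ' : N → ℂ)
      = ∑ n : N, ((Nat.card G : ℂ) • Cfsg.pRegularPart p (χ : G → ℂ)) (n : G)
          * conj ((θ' : N → ℂ) n) := by
    unfold Helper77.pregInner
    rw [Finset.mul_sum]
    refine Finset.sum_congr rfl fun n _ => ?_
    simp only [Pi.smul_apply, smul_eq_mul, Helper77.pRegularPart_apply, Subgroup.orderOf_coe]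
    by_cases hn : p ∣ orderOf n
    · simp [hn]
    · simp only [hn, not_false_eq_true, if_true]
      ring
  rw [hexp] at h1
  have h2 : ∑ n : N, (∑ ψ ∈ Finset.univ.filter (fun ψ : Cfsg.IrrCharacter G => ψ ∈ B),
      Helper77.pregInner p (χ : G → ℂ) (ψ : G → ℂ) • (ψ : G → ℂ)) (n : G)
        * conj ((θ' : N → ℂ) n) = 0 := by
    simp only [Finset.sum_apply, Pi.smul_apply, smul_eq_mul, Finset.sum_mul]
    rw [Finset.sum_comm]
    apply Finset.sum_eq_zero
    intro ψ hψ
    have h3 := hzero ψ (Finset.mem_filter.mp hψ).2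
    simp_rw [mul_assoc]
    rw [← Finset.mul_sum, h3, mul_zero]
  rw [h2] at h1
  exact (mul_eq_zero.mp h1).resolve_left hGne

/-- If `θ` lies under `χ`, the trace of `θ` is a multiple of the restriction of `χ`. -/
theorem trFun_eq_smul_res (N : Subgroup G) [hN : N.Normal] [Fintype N]
    (χ : Cfsg.IrrCharacter G) (θ : Cfsg.IrrCharacter N)
    (hne : Cfsg.classInner (fun n : N => (χ : G → ℂ) n) (θ : N → ℂ) ≠ 0) :
    ∃ c : ℂ, trFun N (θ : N → ℂ) = c • (fun n : N => (χ : G → ℂ) n) := by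
  have hcl := Helper75.clifford_restrict N χ.2 θ.2 hne
  have hsum := Helper75.sum_conjFun_eq N (θ : N → ℂ)
  obtain ⟨e, he⟩ : ∃ e : ℂ, e = Cfsg.classInner (fun n : N => (χ : G → ℂ) n) (θ : N → ℂ) :=
    ⟨_, rfl⟩
  rw [← he] at hcl hne
  refine ⟨(Nat.card {g : G // Helper75.conjFun N g (θ : N → ℂ) = (θ : N → ℂ)} : ℂ) * e⁻¹, ?_⟩
  unfold trFun
  rw [hsum, hcl, smul_smul, mul_assoc, inv_mul_cancel₀ hne, mul_one]

/-- The idempotent of the set of characters of `N` lying under a block of `G` has local integer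
coefficients. -/
theorem under_blockCoeff_memLocalRing {p : ℕ} [Fact p.Prime] {M : Ideal Cfsg.AlgInt}
    (hM : Cfsg.IsPModular p M) (N : Subgroup G) [hN : N.Normal] [Fintype N]
    {B : Set (Cfsg.IrrCharacter G)} (hB : Cfsg.IsPBlock M B) (x : N) :
    Cfsg.MemLocalRing M (Cfsg.blockCoeff (underSet N B) x) := by
  have hNne : (Nat.card N : ℂ) ≠ 0 := by
    have : 0 < Nat.card N := Nat.card_pos
    exact_mod_cast this.ne'
  apply blockCoeff_memLocalRing_of_trFun hM N
  · intro θ hθ θ' hθ'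
    obtain ⟨χ, hχ, hne⟩ := hθ
    obtain ⟨c, hc⟩ := trFun_eq_smul_res N χ θ hne
    rw [hc]
    simp only [Pi.smul_apply, smul_eq_mul, mul_assoc]
    rw [← Finset.mul_sum]
    have h0 : Cfsg.classInner (fun n : N => (χ : G → ℂ) n) (θ' : N → ℂ) = 0 := by
      by_contra h
      exact hθ' ⟨χ, hχ, h⟩
    unfold Cfsg.classInner at h0
    rw [(mul_eq_zero.mp h0).resolve_left (inv_ne_zero hNne), mul_zero]
  · intro θ hθ θ' hθ'
    obtain ⟨χ, hχ, hne⟩ := hθ
    obtain ⟨c, hc⟩ := trFun_eq_smul_res N χ θ hne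
    rw [hc]
    have h3 : Helper77.pregInner p (c • (fun n : N => (χ : G → ℂ) n)) (θ' : N → ℂ)
        = c * Helper77.pregInner p (fun n : N => (χ : G → ℂ) n) (θ' : N → ℂ) := by
      unfold Helper77.pregInner
      rw [Finset.mul_sum]
      refine Finset.sum_congr rfl fun n _ => ?_
      by_cases hn : p ∣ orderOf n
      · simp [hn]
      · simp only [hn, not_false_eq_true, if_true, Pi.smul_apply, smul_eq_mul]
        ring
    rw [h3, pregInner_res_eq_zero hM N hB hχ hθ', mul_zero]

/-- **Covered characters form a union of blocks**: if `θ` lies under the block `B` of `G` and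
`θ'` is in the same block of `N` as `θ`, then `θ'` lies under `B`. -/
theorem under_closed {p : ℕ} [Fact p.Prime] {M : Ideal Cfsg.AlgInt}
    (hM : Cfsg.IsPModular p M) (N : Subgroup G) [hN : N.Normal] [Fintype N]
    {B : Set (Cfsg.IrrCharacter G)} (hB : Cfsg.IsPBlock M B) {θ θ' : Cfsg.IrrCharacter N}
    (hθ : θ ∈ underSet N B) (h : Cfsg.SameBlock M (θ : N → ℂ) (θ' : N → ℂ)) :
    θ' ∈ underSet N B := by
  by_contra hθ'
  have h1 := Helper16.omega_sub_memLocalIdeal hM.2.1 θ θ' h
    (Helper77.blockCoeff_isClassFunction _)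
    (fun x => under_blockCoeff_memLocalRing hM N hB x)
  rw [Helper77.omega_blockCoeff_of_mem hθ, Helper77.omega_blockCoeff_of_not_mem hθ',
    sub_zero] at h1
  exact Helper77.not_memLocalIdeal_one hM.2.1 h1

end Cfsg.Agent.Helper73
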