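import Mathlib

set_option autoImplicit false
set_option linter.style.haveILetI false

universe u

namespace Cfsg.Agent.Helper73

/-- the arithmetic at the end of pattern B -/
theorem o7920_final_B_arith (a b k : ℕ)
    (ha : a = 11 ∨ a = 22 ∨ a = 33 ∨ a = 44 ∨ a = 66)
    (hb : b = 11 ∨ b = 22 ∨ b = 33 ∨ b = 44 ∨ b = 66)
    (h : a ^ 2 + b ^ 2 + k * 3025 = 7381) : False := by
  rcases ha with rfl | rfl | rfl | rfl | rfl <;> rcases hb with rfl | rfl | rfl | rfl | rfl <;>
    norm_num at h <;> omega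

/-- the possible degrees outside the list: multiples of 11 dividing 7920 with small square -/
theorem o7920_deg_eleven (n : ℕ) (h11 : 11 ∣ n) (hdvd : n ∣ 7920) (hsq : n ^ 2 ≤ 7381) :
    n = 11 ∨ n = 22 ∨ n = 33 ∨ n = 44 ∨ n = 55 ∨ n = 66 := by
  have hle : n ≤ 85 := by
    by_contra hcon
    push Not at hcon
    have h1 : 86 * 86 ≤ n * n := Nat.mul_le_mul hcon hcon
    rw [pow_two] at hsq
    omega
  obtain ⟨j, rfl⟩ := h11
  have hj : j ≤ 7 := by omega
  interval_cases j
  · norm_num at hdvd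
  · left; rfl
  · right; left; rfl
  · right; right; left; rfl
  · right; right; right; left; rfl
  · right; right; right; right; left; rfl
  · right; right; right; right; right; rfl
  · norm_num at hdvd

-- PIECE ARFB: pattern B is impossible
theorem o7920_final_B {I : Type*} [Fintype I] [DecidableEq I] (d : I → ℕ)
    (hdvd : ∀ χ, d χ ∣ 7920) (hsq : ∑ χ, d χ ^ 2 = 7920)
    (h5 : (Finset.univ.filter (fun χ => ¬ 5 ∣ d χ)).card = 5)
    (l : List I) (hl : l.Nodup) (hout : ∀ χ, χ ∉ l → 11 ∣ d χ)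
    (hpat : l.map d = [1, 12, 12, 10, 10, 5, 5]) : False := by
  classical
  -- the list part
  have hL : ∑ χ ∈ l.toFinset, d χ ^ 2 = 539 := by
    rw [List.sum_toFinset _ hl]
    have h3 : l.map (fun χ => d χ ^ 2) = (l.map d).map (· ^ 2) := by
      rw [List.map_map]
      rfl
    rw [h3, hpat]
    rfl
  have hL5 : (l.toFinset.filter (fun χ => ¬ 5 ∣ d χ)).card = 3 := by
    have h7 : l.toFinset.filter (fun x => ¬ 5 ∣ d x) =
        (l.filter (fun x => decide (¬ 5 ∣ d x))).toFinset := by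
      ext x
      simp
    rw [h7, List.toFinset_card_of_nodup (hl.filter _)]
    have h8 : (l.filter (fun x => decide (¬ 5 ∣ d x))).length =
        ((l.map d).filter (fun n => decide (¬ 5 ∣ n))).length := by
      rw [← List.countP_eq_length_filter, ← List.countP_eq_length_filter, List.countP_map]
      rfl
    rw [h8, hpat]
    decide
  -- the rest
  have hR : ∑ χ ∈ l.toFinsetᶜ, d χ ^ 2 = 7381 := by
    have h1 := Finset.sum_add_sum_compl l.toFinset (fun χ => d χ ^ 2)
    rw [hL, hsq] at h1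
    omega
  have hmemR : ∀ χ, χ ∈ l.toFinsetᶜ ↔ χ ∉ l := by
    intro χ
    rw [Finset.mem_compl, List.mem_toFinset]
  have hdeg : ∀ χ ∈ l.toFinsetᶜ,
      d χ = 11 ∨ d χ = 22 ∨ d χ = 33 ∨ d χ = 44 ∨ d χ = 55 ∨ d χ = 66 := by
    intro χ hχ
    apply o7920_deg_eleven _ (hout χ ((hmemR χ).mp hχ)) (hdvd χ)
    rw [← hR]
    exact Finset.single_le_sum (f := fun χ => d χ ^ 2) (fun _ _ => Nat.zero_le _) hχ
  have hR5 : (l.toFinsetᶜ.filter (fun χ => ¬ 5 ∣ d χ)).card = 2 := by
    have h1 : (Finset.univ.filter (fun χ => ¬ 5 ∣ d χ)).card =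
        (l.toFinset.filter (fun χ => ¬ 5 ∣ d χ)).card +
        (l.toFinsetᶜ.filter (fun χ => ¬ 5 ∣ d χ)).card := by
      rw [Finset.card_filter, Finset.card_filter, Finset.card_filter]
      exact (Finset.sum_add_sum_compl l.toFinset _).symm
    rw [h5, hL5] at h1
    omega
  obtain ⟨u, v, huv, hR5'⟩ := Finset.card_eq_two.mp hR5
  have huR : u ∈ l.toFinsetᶜ.filter (fun χ => ¬ 5 ∣ d χ) := by
    rw [hR5']; simp
  have hvR : v ∈ l.toFinsetᶜ.filter (fun χ => ¬ 5 ∣ d χ) := by
    rw [hR5']; simp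
  rw [Finset.mem_filter] at huR hvR
  have hsplit := Finset.sum_filter_add_sum_filter_not l.toFinsetᶜ (fun χ => ¬ 5 ∣ d χ)
    (fun χ => d χ ^ 2)
  rw [hR, hR5', Finset.sum_pair huv] at hsplit
  have h55 : ∑ χ ∈ l.toFinsetᶜ.filter (fun χ => ¬ ¬ 5 ∣ d χ), d χ ^ 2 =
      (l.toFinsetᶜ.filter (fun χ => ¬ ¬ 5 ∣ d χ)).card * 3025 := by
    apply Finset.sum_const_nat
    intro χ hχ
    rw [Finset.mem_filter, not_not] at hχ
    rcases hdeg χ hχ.1 with h | h | h | h | h | h
    · exact absurd hχ.2 (by rw [h]; norm_num)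
    · exact absurd hχ.2 (by rw [h]; norm_num)
    · exact absurd hχ.2 (by rw [h]; norm_num)
    · exact absurd hχ.2 (by rw [h]; norm_num)
    · rw [h]
      norm_num
    · exact absurd hχ.2 (by rw [h]; norm_num)
  rw [h55] at hsplit
  have hu : d u = 11 ∨ d u = 22 ∨ d u = 33 ∨ d u = 44 ∨ d u = 66 := by
    rcases hdeg u huR.1 with h | h | h | h | h | h
    · exact Or.inl h
    · exact Or.inr (Or.inl h)
    · exact Or.inr (Or.inr (Or.inl h))
    · exact Or.inr (Or.inr (Or.inr (Or.inl h)))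
    · exact absurd (by rw [h]; norm_num : 5 ∣ d u) huR.2
    · exact Or.inr (Or.inr (Or.inr (Or.inr h)))
  have hv : d v = 11 ∨ d v = 22 ∨ d v = 33 ∨ d v = 44 ∨ d v = 66 := by
    rcases hdeg v hvR.1 with h | h | h | h | h | h
    · exact Or.inl h
    · exact Or.inr (Or.inl h)
    · exact Or.inr (Or.inr (Or.inl h))
    · exact Or.inr (Or.inr (Or.inr (Or.inl h)))
    · exact absurd (by rw [h]; norm_num : 5 ∣ d v) hvR.2
    · exact Or.inr (Or.inr (Or.inr (Or.inr h)))
  exact o7920_final_B_arith (d u) (d v) _ hu hv hsplit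

end Cfsg.Agent.Helper73
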