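import Mathlib

set_option autoImplicit false
set_option linter.style.haveILetI false

universe u

namespace Cfsg.Agent.Helper73

theorem o7920_count_list_aux (n : ℕ) :
    List.count n [11, 44, 55, 1, 45, 10, 10, 10, 16, 16] =
      (if n = 1 ∨ n = 11 ∨ n = 44 ∨ n = 45 ∨ n = 55 then 1 else if n = 10 then 3
        else if n = 16 then 2 else 0) := by
  by_cases hn : n ≤ 55
  · interval_cases n <;> decide
  · have hnot : n ∉ [11, 44, 55, 1, 45, 10, 10, 10, 16, 16] := by
      simp only [List.mem_cons, List.not_mem_nil, or_false]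
      omega
    rw [List.count_eq_zero_of_not_mem hnot]
    have h1 : ¬ (n = 1 ∨ n = 11 ∨ n = 44 ∨ n = 45 ∨ n = 55) := by omega
    rw [if_neg h1, if_neg (by omega), if_neg (by omega)]

-- PIECE FIN: from the list of ten degrees to the statement
theorem o7920_count_of_list {I : Type*} [Fintype I] (d : I → ℕ) (hpos : ∀ χ, 0 < d χ)
    (hsq : ∑ χ, d χ ^ 2 = 7920) (l : List I) (hl : l.Nodup)
    (hmap : l.map d = [11, 44, 55, 1, 45, 10, 10, 10, 16, 16]) :
    Nat.card I = 10 ∧ ∀ n : ℕ, Nat.card {χ : I // d χ = n} =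
      (if n = 1 ∨ n = 11 ∨ n = 44 ∨ n = 45 ∨ n = 55 then 1 else if n = 10 then 3
        else if n = 16 then 2 else 0) := by
  classical
  have hall : ∀ χ : I, χ ∈ l := by
    by_contra hcon
    push Not at hcon
    obtain ⟨χ, hχ⟩ := hcon
    have h1 : ∑ χ ∈ l.toFinset, d χ ^ 2 = 7920 := by
      rw [List.sum_toFinset _ hl]
      have h3 : l.map (fun χ => d χ ^ 2) = (l.map d).map (· ^ 2) := by
        rw [List.map_map]
        rfl
      rw [h3, hmap]
      rfl
    have h2 : ∑ χ' ∈ insert χ l.toFinset, d χ' ^ 2 ≤ ∑ χ', d χ' ^ 2 :=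
      Finset.sum_le_sum_of_subset (Finset.subset_univ _)
    rw [Finset.sum_insert (by simpa using hχ), h1, hsq] at h2
    have h4 := hpos χ
    have h5 : 0 < d χ ^ 2 := by positivity
    omega
  have huniv : (Finset.univ : Finset I) = l.toFinset := by
    ext χ
    simp [hall χ]
  refine ⟨?_, ?_⟩
  · rw [Nat.card_eq_fintype_card, ← Finset.card_univ, huniv, List.toFinset_card_of_nodup hl]
    have h6 := congrArg List.length hmap
    simpa using h6
  · intro n
    rw [← o7920_count_list_aux n, ← hmap]
    rw [Nat.card_eq_fintype_card, Fintype.card_subtype, huniv]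
    have h7 : l.toFinset.filter (fun x => d x = n) =
        (l.filter (fun x => decide (d x = n))).toFinset := by
      ext x
      simp
    rw [h7, List.toFinset_card_of_nodup (hl.filter _)]
    rw [List.count, List.countP_map, List.countP_eq_length_filter]
    congr 1

end Cfsg.Agent.Helper73
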