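import Cfsg.Agent.Helper9.BRDefs

set_option autoImplicit false
set_option linter.style.haveILetI false
open Cfsg
open scoped ComplexConjugate

universe u

namespace Cfsg.Agent.Helper73

theorem o7920_map_replicate {α : Type*} (s : Finset α) (d : α → ℕ) (n a : ℕ) (hn : s.card = n)
    (ha : ∀ χ ∈ s, d χ = a) : s.toList.map d = List.replicate n a := by
  rw [List.eq_replicate_iff]
  refine ⟨by rw [List.length_map, Finset.length_toList, hn], ?_⟩
  intro x hx
  rw [List.mem_map] at hx
  obtain ⟨χ, hχ, rfl⟩ := hx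
  exact ha χ (Finset.mem_toList.mp hχ)

-- PIECE T11L: the block as a list
theorem o7920_block_list {G : Type u} [Group G] [Fintype G] {p : ℕ}
    {M : Ideal Cfsg.AlgInt} (P : Sylow p G) {q : ℕ} (T : Cfsg.Agent.Helper9.BRTab p M P q)
    (a b c n1 n2 n3 : ℕ) (h1 : T.X1.card = n1) (h2 : T.X2.card = n2) (h3 : T.Y.card = n3)
    (hd1 : Cfsg.charDegree ((Helper81.trivIrr G : Cfsg.IrrCharacter G) : G → ℂ) = 1)
    (ha : ∀ χ ∈ T.X1, Cfsg.charDegree (χ : G → ℂ) = a)
    (hb : ∀ χ ∈ T.X2, Cfsg.charDegree (χ : G → ℂ) = b)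
    (hc : ∀ χ ∈ T.Y, Cfsg.charDegree (χ : G → ℂ) = c) :
    ∃ l : List (Cfsg.IrrCharacter G), l.Nodup ∧
      (∀ χ : Cfsg.IrrCharacter G, χ ∈ l ↔ χ ∈ Cfsg.principalBlock M G) ∧
      l.map (fun χ : Cfsg.IrrCharacter G => Cfsg.charDegree (χ : G → ℂ)) =
        1 :: (List.replicate n1 a ++ List.replicate n2 b ++ List.replicate n3 c) := by
  classical
  refine ⟨Helper81.trivIrr G :: (T.X1.toList ++ T.X2.toList ++ T.Y.toList), ?_, ?_, ?_⟩
  · rw [List.nodup_cons]
    refine ⟨?_, ?_⟩
    · simp only [List.mem_append, Finset.mem_toList, not_or]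
      exact ⟨⟨T.h1X1, T.h1X2⟩, T.h1Y⟩
    · apply List.Nodup.append
      · apply List.Nodup.append (Finset.nodup_toList _) (Finset.nodup_toList _)
        intro χ hχ1 hχ2
        rw [Finset.mem_toList] at hχ1 hχ2
        exact Finset.disjoint_left.mp T.hX12 hχ1 hχ2
      · exact Finset.nodup_toList _
      · intro χ hχ1 hχ2
        rw [List.mem_append, Finset.mem_toList, Finset.mem_toList] at hχ1
        rw [Finset.mem_toList] at hχ2
        rcases hχ1 with hχ1 | hχ1
        · exact Finset.disjoint_left.mp T.hX1Y hχ1 hχ2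
        · exact Finset.disjoint_left.mp T.hX2Y hχ1 hχ2
  · intro χ
    rw [T.hB χ]
    simp only [List.mem_cons, List.mem_append, Finset.mem_toList]
    tauto
  · rw [List.map_cons, List.map_append, List.map_append, hd1,
      o7920_map_replicate T.X1 _ n1 a h1 ha, o7920_map_replicate T.X2 _ n2 b h2 hb,
      o7920_map_replicate T.Y _ n3 c h3 hc]

end Cfsg.Agent.Helper73
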