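import Cfsg.Agent.Helper9.BRDefs

set_option autoImplicit false
set_option linter.style.haveILetI false
open Cfsg
open scoped ComplexConjugate

universe u

namespace Cfsg.Agent.Helper73

-- PIECE T5: exactly five irreducible characters of degree prime to 5
theorem o7920_five_count {G : Type u} [Group G] [Fintype G] [Fintype (Cfsg.IrrCharacter G)]
    {M : Ideal Cfsg.AlgInt} (Q : Sylow 5 G) (T : Cfsg.Agent.Helper9.BRTab 5 M Q 4)
    (hout : ∀ χ : Cfsg.IrrCharacter G, χ ∉ Cfsg.principalBlock M G →
      5 ∣ Cfsg.charDegree (χ : G → ℂ)) :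
    (Finset.univ.filter (fun χ : Cfsg.IrrCharacter G =>
      ¬ 5 ∣ Cfsg.charDegree (χ : G → ℂ))).card = 5 := by
  classical
  have hd1 : Cfsg.charDegree ((Helper81.trivIrr G : Cfsg.IrrCharacter G) : G → ℂ) = 1 := by
    have h1 := Helper81.irr_one_eq_charDegree (Helper81.trivIrr G)
    rw [Helper81.trivIrr_apply] at h1
    exact_mod_cast h1.symm
  have hset : Finset.univ.filter (fun χ : Cfsg.IrrCharacter G =>
      ¬ 5 ∣ Cfsg.charDegree (χ : G → ℂ)) = insert (Helper81.trivIrr G) (T.X1 ∪ T.X2 ∪ T.Y) := by
    ext χ
    simp only [Finset.mem_filter, Finset.mem_univ, true_and, Finset.mem_insert, Finset.mem_union]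
    constructor
    · intro h
      have h1 : χ ∈ Cfsg.principalBlock M G := by
        by_contra hcon
        exact h (hout χ hcon)
      rw [T.hB χ] at h1
      tauto
    · rintro (h | (h | h) | h)
      · rw [h, hd1]
        norm_num
      · have h1 := (T.hX1 χ h).1
        unfold Int.ModEq at h1
        omega
      · have h1 := (T.hX2 χ h).1
        unfold Int.ModEq at h1
        omega
      · have h1 := T.hYdeg χ h
        unfold Int.ModEq at h1
        rcases T.hε with he | he
        · rw [he] at h1
          push_cast at h1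
          omega
        · rw [he] at h1
          push_cast at h1
          omega
  rw [hset, Finset.card_insert_of_notMem, Finset.card_union_of_disjoint,
    Finset.card_union_of_disjoint T.hX12]
  · have h1 := T.hcard
    have h2 := T.hcardY
    norm_num at h2
    omega
  · rw [Finset.disjoint_union_left]
    exact ⟨T.hX1Y, T.hX2Y⟩
  · simp only [Finset.mem_union, not_or]
    exact ⟨⟨T.h1X1, T.h1X2⟩, T.h1Y⟩

end Cfsg.Agent.Helper73
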