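import Mathlib
import Cfsg.Prelude.Def_GeometricClasses
import Cfsg.Prelude.Def_LieClassical
import Cfsg.Agent.Helper69.E4Def
import Cfsg.Agent.Helper69.E4UDef
import Cfsg.Agent.Helper97.UForm
import Cfsg.Agent.Helper70.E4UCANON
import Cfsg.Agent.Helper84.E4UDICH3
import Cfsg.Agent.Helper39.E4UCF3B
import Cfsg.Agent.Helper73.E4UCUBEUAux

set_option autoImplicit false

namespace Cfsg.Agent.Helper73
open Cfsg.Agent.Helper69 Cfsg.Agent.Helper97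
open scoped Matrix

/-! ### CUBEU -/

theorem e4u_cube {F : Type*} [Field F] [Fintype F] {p : ℕ} [Fact p.Prime] [CharP F p]
    (hF : Fintype.card F = p ^ 2) (hp4 : p % 4 = 3) (hp3 : p % 3 = 1) (h2 : (2 : F) ≠ 0)
    (σ : F ≃+* F) (hσ : IsSigma p σ) (ι : F) (hι : ι ^ 2 = -1)
    (x : Matrix (Fin 4) (Fin 4) F) (hU : xᵀ * x.map σ = 1) (hdet : x.det = 1) (z : F)
    (hx : x ^ 3 = z • (1 : Matrix (Fin 4) (Fin 4) F))
    (hns : ∀ c : F, x ≠ c • (1 : Matrix (Fin 4) (Fin 4) F)) :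
    ∃ (g : Matrix (Fin 4) (Fin 4) F) (c : F), gᵀ * g.map σ = 1 ∧ g.det = 1 ∧
      (x * g = g * (c • e4T1 ι) ∨ x * g = g * (c • e4T2 ι)) :=
  e4u_cube_aux hF hp4 hp3 h2 σ hσ ι hι x hU z hx hns
    (fun D J hJ hadj y y' B B' hy hB hy' hB' =>
      Cfsg.Agent.Helper70.e4u_canon σ D J hJ hadj y y' B B' hy hB hy' hB')
    (fun ω hω hσω y hyU hy3 hy1 =>
      Cfsg.Agent.Helper84.e4u_order_three_split hF hp3 h2 σ hσ ω hω hσω y hyU hy3 hy1)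
    (fun h3 ω hω hσω y B₀ hyU hB₀ hy =>
      Cfsg.Agent.Helper39.e4u_canon_form_two hF h3 σ hσ ω hω hσω y B₀ hyU hB₀ hy)

end Cfsg.Agent.Helper73
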