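import Mathlib
import Cfsg.Prelude.Def_GeometricClasses
import Cfsg.Prelude.Def_LieClassical

set_option autoImplicit false

namespace Cfsg.Agent.Helper73
open scoped Matrix

/-- RFACTS from the conclusion of STRUCT2 -/
theorem e5_rfacts_aux {F : Type*} [Field F]
    (R : Subgroup (GL (Fin 2 ⊕ Fin 2) F))
    (hRi : Cfsg.Geo.ActsAbsolutelyIrreducibly (Cfsg.Geo.matrixSet R))
    (hR5 : Nat.card R = 2 ^ 5) (hRZ : Nat.card (Subgroup.center R) = 2)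
    (hstruct : ∀ g h : R, g ^ 2 ∈ Subgroup.center R ∧ g * h * g⁻¹ * h⁻¹ ∈ Subgroup.center R) :
    (∀ g ∈ R, (g : Matrix (Fin 2 ⊕ Fin 2) (Fin 2 ⊕ Fin 2) F) ^ 2 = 1 ∨
      (g : Matrix (Fin 2 ⊕ Fin 2) (Fin 2 ⊕ Fin 2) F) ^ 2 = -1) ∧
    (∀ g ∈ R, ∀ h ∈ R,
      (g : Matrix (Fin 2 ⊕ Fin 2) (Fin 2 ⊕ Fin 2) F) * (h : Matrix (Fin 2 ⊕ Fin 2) (Fin 2 ⊕ Fin 2) F) =
        (h : Matrix (Fin 2 ⊕ Fin 2) (Fin 2 ⊕ Fin 2) F) * (g : Matrix (Fin 2 ⊕ Fin 2) (Fin 2 ⊕ Fin 2) F) ∨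
      (g : Matrix (Fin 2 ⊕ Fin 2) (Fin 2 ⊕ Fin 2) F) * (h : Matrix (Fin 2 ⊕ Fin 2) (Fin 2 ⊕ Fin 2) F) =
        -((h : Matrix (Fin 2 ⊕ Fin 2) (Fin 2 ⊕ Fin 2) F) * (g : Matrix (Fin 2 ⊕ Fin 2) (Fin 2 ⊕ Fin 2) F))) ∧
    (∀ g ∈ R, (∃ c : F, (g : Matrix (Fin 2 ⊕ Fin 2) (Fin 2 ⊕ Fin 2) F) = c • 1) →
      (g : Matrix (Fin 2 ⊕ Fin 2) (Fin 2 ⊕ Fin 2) F) = 1 ∨
        (g : Matrix (Fin 2 ⊕ Fin 2) (Fin 2 ⊕ Fin 2) F) = -1) ∧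
    (∃ g ∈ R, (g : Matrix (Fin 2 ⊕ Fin 2) (Fin 2 ⊕ Fin 2) F) = -1) := by
  classical
  have hfin : Finite R := Nat.finite_of_card_ne_zero (by rw [hR5]; norm_num)
  have hpm : ∀ c : F, c ^ 2 = 1 → c = 1 ∨ c = -1 := by
    intro c hc
    have h3 : (c - 1) * (c + 1) = 0 := by linear_combination hc
    rcases mul_eq_zero.mp h3 with h | h
    · left; exact sub_eq_zero.mp h
    · right; exact eq_neg_of_add_eq_zero_left h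
  have hscal_sq : ∀ (M : Matrix (Fin 2 ⊕ Fin 2) (Fin 2 ⊕ Fin 2) F) (c : F),
      M = c • (1 : Matrix (Fin 2 ⊕ Fin 2) (Fin 2 ⊕ Fin 2) F) → M ^ 2 = 1 → c ^ 2 = 1 := by
    intro M c hM hM2
    rw [hM, smul_pow, one_pow] at hM2
    have h3 := congrFun (congrFun hM2 (Sum.inl 0)) (Sum.inl 0)
    simpa using h3
  have hcs : ∀ g : R, g ∈ Subgroup.center R →
      ∃ c : F, ((g : GL (Fin 2 ⊕ Fin 2) F) : Matrix (Fin 2 ⊕ Fin 2) (Fin 2 ⊕ Fin 2) F) =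
        c • (1 : Matrix (Fin 2 ⊕ Fin 2) (Fin 2 ⊕ Fin 2) F) := by
    intro g hg
    apply hRi.2
    rintro s ⟨h, hh, rfl⟩
    have h0 := Subgroup.mem_center_iff.mp hg ⟨h, hh⟩
    have h0' := congrArg (fun x : R =>
      ((x : GL (Fin 2 ⊕ Fin 2) F) : Matrix (Fin 2 ⊕ Fin 2) (Fin 2 ⊕ Fin 2) F)) h0
    simpa using h0'.symm
  have hZpm : ∀ g : R, g ∈ Subgroup.center R →
      ((g : GL (Fin 2 ⊕ Fin 2) F) : Matrix (Fin 2 ⊕ Fin 2) (Fin 2 ⊕ Fin 2) F) = 1 ∨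
      ((g : GL (Fin 2 ⊕ Fin 2) F) : Matrix (Fin 2 ⊕ Fin 2) (Fin 2 ⊕ Fin 2) F) = -1 := by
    intro g hg
    obtain ⟨c, hc⟩ := hcs g hg
    have h1 : (⟨g, hg⟩ : Subgroup.center R) ^ Nat.card (Subgroup.center R) = 1 :=
      pow_card_eq_one'
    rw [hRZ] at h1
    have h2' : g ^ 2 = 1 := by
      have h4 := congrArg Subtype.val h1
      simpa using h4
    have h3 : ((g : GL (Fin 2 ⊕ Fin 2) F) : Matrix (Fin 2 ⊕ Fin 2) (Fin 2 ⊕ Fin 2) F) ^ 2 = 1 := by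
      have h5 := congrArg (fun x : R =>
        ((x : GL (Fin 2 ⊕ Fin 2) F) : Matrix (Fin 2 ⊕ Fin 2) (Fin 2 ⊕ Fin 2) F)) h2'
      simpa using h5
    rcases hpm c (hscal_sq _ c hc h3) with h | h
    · left; rw [hc, h, one_smul]
    · right; rw [hc, h, neg_smul, one_smul]
  refine ⟨?_, ?_, ?_, ?_⟩
  · intro g hg
    have h1 := hZpm (⟨g, hg⟩ ^ 2) (hstruct ⟨g, hg⟩ ⟨g, hg⟩).1
    simpa using h1
  · intro g hg h hh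
    have hk := (hstruct ⟨g, hg⟩ ⟨h, hh⟩).2
    have h1 := hZpm _ hk
    have hgh : g * h = (g * h * g⁻¹ * h⁻¹) * (h * g) := by group
    have h5 := congrArg (fun x : GL (Fin 2 ⊕ Fin 2) F =>
      (x : Matrix (Fin 2 ⊕ Fin 2) (Fin 2 ⊕ Fin 2) F)) hgh
    simp only [Units.val_mul] at h5
    rcases h1 with h1 | h1
    · left
      have h6 : (g : Matrix (Fin 2 ⊕ Fin 2) (Fin 2 ⊕ Fin 2) F) *
          (h : Matrix (Fin 2 ⊕ Fin 2) (Fin 2 ⊕ Fin 2) F) *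
          ((g⁻¹ : GL (Fin 2 ⊕ Fin 2) F) : Matrix (Fin 2 ⊕ Fin 2) (Fin 2 ⊕ Fin 2) F) *
          ((h⁻¹ : GL (Fin 2 ⊕ Fin 2) F) : Matrix (Fin 2 ⊕ Fin 2) (Fin 2 ⊕ Fin 2) F) = 1 := by
        rw [← h1]
        simp
      rw [h5, h6, Matrix.one_mul]
    · right
      have h6 : (g : Matrix (Fin 2 ⊕ Fin 2) (Fin 2 ⊕ Fin 2) F) *
          (h : Matrix (Fin 2 ⊕ Fin 2) (Fin 2 ⊕ Fin 2) F) *
          ((g⁻¹ : GL (Fin 2 ⊕ Fin 2) F) : Matrix (Fin 2 ⊕ Fin 2) (Fin 2 ⊕ Fin 2) F) *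
          ((h⁻¹ : GL (Fin 2 ⊕ Fin 2) F) : Matrix (Fin 2 ⊕ Fin 2) (Fin 2 ⊕ Fin 2) F) = -1 := by
        rw [← h1]
        simp
      rw [h5, h6, neg_mul, Matrix.one_mul]
  · rintro g hg ⟨c, hc⟩
    apply hZpm ⟨g, hg⟩
    rw [Subgroup.mem_center_iff]
    intro k
    apply Subtype.ext
    apply Units.ext
    show ((k : GL (Fin 2 ⊕ Fin 2) F) : Matrix (Fin 2 ⊕ Fin 2) (Fin 2 ⊕ Fin 2) F) *
        (g : Matrix (Fin 2 ⊕ Fin 2) (Fin 2 ⊕ Fin 2) F) =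
      (g : Matrix (Fin 2 ⊕ Fin 2) (Fin 2 ⊕ Fin 2) F) *
        ((k : GL (Fin 2 ⊕ Fin 2) F) : Matrix (Fin 2 ⊕ Fin 2) (Fin 2 ⊕ Fin 2) F)
    rw [hc, Matrix.mul_smul, Matrix.smul_mul, Matrix.mul_one, Matrix.one_mul]
  · by_contra hcon
    push Not at hcon
    have hbot : Subgroup.center R = ⊥ := by
      rw [Subgroup.eq_bot_iff_forall]
      intro g hg
      rcases hZpm g hg with h | h
      · apply Subtype.ext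
        apply Units.ext
        simpa using h
      · exact absurd h (hcon g g.2)
    rw [hbot] at hRZ
    simp at hRZ

end Cfsg.Agent.Helper73
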