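import Cfsg.Agent.Helper79.FongBlock5
import Cfsg.Agent.Helper16.BrauerCorr
import Cfsg.Agent.Helper16.ExtFMT
import Cfsg.Agent.Helper75.BlockTransport

/-!
# Fong's principal-type blocks: the block over an invariant character, and existence of
blocks of centralizers inducing it

* `fp_block`: for a normal `p'`-subgroup `K`, a normal `p`-subgroup of `G ⧸ K` containing its
  centralizer and a `G`-invariant `θ ∈ Irr(K)`, the characters over `θ` form a block whose defect
  groups are the Sylow `p`-subgroups.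
* `fp_induced_of_normal`: for `N ⊴ Γ` containing the centralizer of a normal `p`-subgroup, a
  character `ξ` of `N` under `ψ ∈ Irr(Γ)` has induced central character congruent to that of `ψ`.
* `fp_exists_centralizer`: a block whose defect group contains a conjugate of the `p`-subgroup
  `R` is induced from a block of `C_G(R)`.
-/

set_option autoImplicit false
open Cfsg

namespace Cfsg.Agent.Helper73

universe u

variable {G : Type u} [Group G] [Fintype G] {p : ℕ} [Fact p.Prime] {M : Ideal Cfsg.AlgInt}

theorem fp_block (hM : Cfsg.IsPModular p M) (K : Subgroup G) [hK : K.Normal] [Fintype K]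
    (hKp : ¬ p ∣ Nat.card K) (P : Subgroup (G ⧸ K)) [P.Normal] (hP : IsPGroup p P)
    (hC : Subgroup.centralizer (P : Set (G ⧸ K)) ≤ P) (θ : Cfsg.IrrCharacter K)
    (hinv : ∀ (g : G) (n : K), (θ : K → ℂ) ⟨g * n * g⁻¹, hK.conj_mem n n.2 g⟩ = (θ : K → ℂ) n)
    (B : Set (Cfsg.IrrCharacter G))
    (hBdef : ∀ χ : Cfsg.IrrCharacter G, χ ∈ B ↔
      Cfsg.classInner (fun k : K => (χ : G → ℂ) k) (θ : K → ℂ) ≠ 0) :
    Cfsg.IsPBlock M B ∧ ∀ S : Sylow p G, Cfsg.IsDefectGroup p M B S := by
  classical
  obtain ⟨χ₀, hχ₀, hdeg⟩ := Helper79.fong_exists_pPrime_degree_over (p := p) K hKp θ hinv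
  have hBeq : B = Cfsg.blockOf M (χ₀ : G → ℂ) := by
    ext χ
    rw [hBdef]
    constructor
    · intro h
      exact Helper79.fong_sameBlock_over hM K hKp P hP hC θ hinv χ₀ χ hχ₀ h
    · intro h
      exact Helper79.fong_over_of_sameBlock hM K hKp θ hinv χ₀ χ h hχ₀
  have hB : Cfsg.IsPBlock M B := ⟨χ₀, hBeq⟩
  refine ⟨hB, fun S => ?_⟩
  exact (Helper79.fong_isDefectGroup_iff_of_pPrime_degree hM hB χ₀
    ((hBdef χ₀).mpr hχ₀) hdeg _).mpr ⟨S, rfl⟩

/-- For `N ⊴ Γ` containing the centralizer of a normal `p`-subgroup `R`, a character `ξ` of `N`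
under `ψ ∈ Irr(Γ)` has induced central character congruent to the central character of `ψ`. -/
theorem fp_induced_of_normal (hM : Cfsg.IsPModular p M) (N : Subgroup G) [hN : N.Normal]
    [Fintype N] (R : Subgroup G) [R.Normal] (hR : IsPGroup p R)
    (hRN : Subgroup.centralizer (R : Set G) ≤ N) (ψ : Cfsg.IrrCharacter G)
    (ξ : Cfsg.IrrCharacter N)
    (hne : Cfsg.classInner (fun n : N => (ψ : G → ℂ) n) (ξ : N → ℂ) ≠ 0) (n : G) :
    Cfsg.MemLocalIdeal M (Cfsg.inducedCentralChar N (ξ : N → ℂ) n
      - Cfsg.centralChar (ψ : G → ℂ) n) := by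
  classical
  have hMm := hM.2.1
  rw [Helper16.inducedCentralChar_eq_omega_res N (ξ : N → ℂ) n]
  by_cases hn : n ∈ N
  · have hsupp : ∀ g : G, g ∉ N → Helper81.classInd n g = 0 := by
      intro g hg
      simp only [Helper81.classInd]
      rw [if_neg]
      intro hc
      apply hg
      obtain ⟨c, hc⟩ := isConj_iff.mp hc
      rw [← hc]
      exact hN.conj_mem n hn c
    have h1 := Helper76.omega_eq_omega_res_of_constituent N
      (Helper81.classInd_isClassFunction n) hsupp ψ ξ hne
    rw [← h1, Helper81.omega_classInd, sub_self]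
    exact Helper77.memLocalIdeal_zero hMm
  · have h0 : (fun h : N => Helper81.classInd n (h : G)) = 0 := by
      funext h
      simp only [Helper81.classInd, Pi.zero_apply]
      rw [if_neg]
      intro hc
      apply hn
      obtain ⟨c, hc⟩ := isConj_iff.mp hc
      have h2 : n = c⁻¹ * (h : G) * c := by rw [← hc]; group
      rw [h2]
      have := hN.conj_mem (h : G) h.2 c⁻¹
      simpa using this
    rw [h0, Helper16.omega_zero, zero_sub]
    apply Helper77.memLocalIdeal_neg
    exact Helper16.centralChar_memLocalIdeal_of_not_mem_centralizer hM R hR ψ n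
      (fun h => hn (hRN h))

/-- A block whose defect group contains a conjugate of the `p`-subgroup `R` is induced from a
block of `C_G(R)`. -/
theorem fp_exists_centralizer (hM : Cfsg.IsPModular p M) {B : Set (Cfsg.IrrCharacter G)}
    (hB : Cfsg.IsPBlock M B) {D : Subgroup G} (hD : Cfsg.IsDefectGroup p M B D)
    (R : Subgroup G) (hR : IsPGroup p R) (hRD : Helper16.ConjLE R D)
    [Fintype ↥(Subgroup.centralizer (R : Set G))] :
    ∃ f : Set (Cfsg.IrrCharacter ↥(Subgroup.centralizer (R : Set G))),
      Cfsg.IsInducedBlock M (Subgroup.centralizer (R : Set G)) f B := by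
  classical
  have hMm := hM.2.1
  obtain ⟨H, hH⟩ : ∃ H : Subgroup G, H = R ⊔ Subgroup.centralizer (R : Set G) := ⟨_, rfl⟩
  have hRH : R ≤ H := by rw [hH]; exact le_sup_left
  have hCH : Subgroup.centralizer (R : Set G) ≤ H := by rw [hH]; exact le_sup_right
  have hHN : H ≤ Subgroup.normalizer (R : Set G) := by
    rw [hH]
    exact sup_le Subgroup.le_normalizer (Subgroup.centralizer_le_normalizer _)
  have : Fintype ↥H := Fintype.ofFinite _
  obtain ⟨f', hind'⟩ := Helper16.exists_isInducedBlock_of_conjLE hM R H hR hRH hCH hHN hB hD hRD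
  obtain ⟨ψ, hψ⟩ := Helper16.exists_mem_of_isPBlock hMm hind'.1
  have hNn : ((Subgroup.centralizer (R : Set G)).subgroupOf H).Normal := by
    apply Subgroup.normal_subgroupOf_of_le_normalizer
    intro g hg
    have hgN := hHN hg
    rw [Subgroup.mem_normalizer_iff]
    have key : ∀ g : G, g ∈ Subgroup.normalizer (R : Set G) →
        ∀ c ∈ Subgroup.centralizer (R : Set G), g * c * g⁻¹ ∈ Subgroup.centralizer (R : Set G) := by
      intro g hgN c hc
      rw [Subgroup.mem_centralizer_iff]
      intro r hr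
      have h1 : g⁻¹ * r * g ∈ R := (Subgroup.mem_normalizer_iff''.mp hgN r).mp hr
      have h2 := Subgroup.mem_centralizer_iff.mp hc _ h1
      have e1 : r * (g * c * g⁻¹) = g * ((g⁻¹ * r * g) * c) * g⁻¹ := by group
      have e2 : g * c * g⁻¹ * r = g * (c * (g⁻¹ * r * g)) * g⁻¹ := by group
      rw [e1, e2, h2]
    intro c
    constructor
    · exact key g hgN c
    · intro hc
      have := key g⁻¹ (Subgroup.inv_mem _ hgN) _ hc
      simpa [mul_assoc] using this
  have hRn : (R.subgroupOf H).Normal := Subgroup.normal_subgroupOf_of_le_normalizer hHN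
  have hRp : IsPGroup p (R.subgroupOf H) := hR.comap_subtype
  have hcent : Subgroup.centralizer ((R.subgroupOf H : Subgroup H) : Set H)
      ≤ (Subgroup.centralizer (R : Set G)).subgroupOf H := by
    intro x hx
    rw [Subgroup.mem_subgroupOf, Subgroup.mem_centralizer_iff]
    intro r hr
    have h1 := Subgroup.mem_centralizer_iff.mp hx ⟨r, hRH hr⟩ (Subgroup.mem_subgroupOf.mpr hr)
    exact congrArg Subtype.val h1
  have : Fintype ↥((Subgroup.centralizer (R : Set G)).subgroupOf H) := Fintype.ofFinite _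
  have hne0 : (fun n : ↥((Subgroup.centralizer (R : Set G)).subgroupOf H) =>
      (ψ : H → ℂ) n) ≠ 0 := by
    intro h0
    have h1 := congrFun h0 1
    exact Helper81.irr_one_ne_zero ψ (by simpa using h1)
  obtain ⟨ξ', hξ'⟩ := Helper15.exists_constituent
    (Helper16.isClassFunction_res (Helper81.irr_isClassFunction ψ)
      ((Subgroup.centralizer (R : Set G)).subgroupOf H)) hne0
  have hE := fp_induced_of_normal hM ((Subgroup.centralizer (R : Set G)).subgroupOf H)
    (R.subgroupOf H) hRp hcent ψ ξ' hξ'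
  refine ⟨Cfsg.blockOf M
    (Helper75.irrComp (Subgroup.subgroupOfEquivOfLe hCH).symm ξ' :
      ↥(Subgroup.centralizer (R : Set G)) → ℂ), ⟨_, rfl⟩, hB, ?_⟩
  intro ξ₁ hξ₁ χ hχ g
  have e1 : (fun k : ↥((Subgroup.centralizer (R : Set G)).subgroupOf H) =>
      (Helper75.irrComp (Subgroup.subgroupOfEquivOfLe hCH).symm ξ' :
        ↥(Subgroup.centralizer (R : Set G)) → ℂ) (Subgroup.subgroupOfEquivOfLe hCH k))
      = (ξ' : ↥((Subgroup.centralizer (R : Set G)).subgroupOf H) → ℂ) := by
    funext k
    rw [Helper75.irrComp_apply, MulEquiv.symm_apply_apply]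
  have key1 := Helper16.inducedCentralChar_trans hMm hCH
    (Helper75.irrComp (Subgroup.subgroupOfEquivOfLe hCH).symm ξ' :
      ↥(Subgroup.centralizer (R : Set G)) → ℂ) ψ (by rw [e1]; exact hE) g
  have key2 := hind'.2.2 ψ hψ χ hχ g
  have key3 : Cfsg.MemLocalIdeal M
      (Cfsg.inducedCentralChar (Subgroup.centralizer (R : Set G))
          (ξ₁ : ↥(Subgroup.centralizer (R : Set G)) → ℂ) g
        - Cfsg.inducedCentralChar (Subgroup.centralizer (R : Set G))
          (Helper75.irrComp (Subgroup.subgroupOfEquivOfLe hCH).symm ξ' :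
            ↥(Subgroup.centralizer (R : Set G)) → ℂ) g) := by
    rw [Helper16.inducedCentralChar_eq_omega_res, Helper16.inducedCentralChar_eq_omega_res]
    exact Helper16.omega_sub_memLocalIdeal hMm ξ₁ _ (Helper16.sameBlock_symm hξ₁)
      (Helper16.isClassFunction_res (Helper81.classInd_isClassFunction g) _)
      (fun c => Helper16.classInd_memLocalRing hMm g c)
  have h4 := Helper77.memLocalIdeal_add hMm (Helper77.memLocalIdeal_add hMm key3 key1) key2
  have e2 : Cfsg.inducedCentralChar (Subgroup.centralizer (R : Set G))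
        (ξ₁ : ↥(Subgroup.centralizer (R : Set G)) → ℂ) g
      - Cfsg.inducedCentralChar (Subgroup.centralizer (R : Set G))
        (Helper75.irrComp (Subgroup.subgroupOfEquivOfLe hCH).symm ξ' :
          ↥(Subgroup.centralizer (R : Set G)) → ℂ) g
      + (Cfsg.inducedCentralChar (Subgroup.centralizer (R : Set G))
        (Helper75.irrComp (Subgroup.subgroupOfEquivOfLe hCH).symm ξ' :
          ↥(Subgroup.centralizer (R : Set G)) → ℂ) g
        - Cfsg.inducedCentralChar H (ψ : H → ℂ) g)
      + (Cfsg.inducedCentralChar H (ψ : H → ℂ) g - Cfsg.centralChar (χ : G → ℂ) g)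
      = Cfsg.inducedCentralChar (Subgroup.centralizer (R : Set G))
        (ξ₁ : ↥(Subgroup.centralizer (R : Set G)) → ℂ) g - Cfsg.centralChar (χ : G → ℂ) g := by
    ring
  rw [e2] at h4
  exact h4

end Cfsg.Agent.Helper73
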