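import Cfsg.Agent.Helper73.FPBlock
import Cfsg.Agent.Helper16.FongPIndex
import Cfsg.Agent.Helper16.FMT
import Cfsg.Agent.Helper76.Cover2
import Cfsg.Agent.Helper54.PConstrained

/-!
# A block-theoretic Glauberman uniqueness statement

Let `X = K R` with `K ⊴ X` of order prime to `p` and `R` a `p`-subgroup, and let `θ ∈ Irr(K)` be
`X`-invariant.  Then at most one irreducible character `ν` of `C_K(R) = K ∩ N_X(R)` has
`Ω_ν(e_θ |_{C_K(R)})` a unit (`fp_glauberman_unique`).  The proof is Brauer's first main theorem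
for the block of `X` over `θ`, whose defect group is `R`.
-/

set_option autoImplicit false
open Cfsg

namespace Cfsg.Agent.Helper73

universe u

/-- The `p`-blocks of a `p'`-group are singletons. -/
theorem fp_blockOf_eq_singleton {K : Type u} [Group K] [Fintype K] {p : ℕ} [Fact p.Prime]
    {M : Ideal Cfsg.AlgInt} (hM : Cfsg.IsPModular p M) (hK : ¬ p ∣ Nat.card K)
    (θ : Cfsg.IrrCharacter K) : Cfsg.blockOf M (θ : K → ℂ) = {θ} := by
  ext θ'
  rw [Set.mem_singleton_iff]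
  constructor
  · intro h
    exact (Helper79.eq_of_sameBlock_of_not_dvd_card hM hK θ θ' h).symm
  · rintro rfl
    exact Helper16.sameBlock_refl hM.2.1 _

theorem fp_index_dvd {X : Type u} [Group X] [Finite X] (K R : Subgroup X) [K.Normal]
    (hKR : K ⊔ R = ⊤) : K.index ∣ Nat.card R := by
  rw [← Subgroup.relIndex_top_right, ← hKR, Subgroup.relIndex_sup_left]
  exact Subgroup.relIndex_dvd_card K R

theorem fp_index_pow {X : Type u} [Group X] [Finite X] {p : ℕ} [Fact p.Prime] (K R : Subgroup X)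
    [K.Normal] (hR : IsPGroup p R) (hKR : K ⊔ R = ⊤) : ∃ k : ℕ, K.index = p ^ k := by
  have hp : p.Prime := Fact.out
  obtain ⟨n, hn⟩ := hR.exists_card_eq
  have h1 := fp_index_dvd K R hKR
  rw [hn] at h1
  obtain ⟨m, -, hm⟩ := (Nat.dvd_prime_pow hp).mp h1
  exact ⟨m, hm⟩

theorem fp_not_dvd_index {X : Type u} [Group X] [Finite X] {p : ℕ} [Fact p.Prime]
    (K R : Subgroup X) [K.Normal] (hKp : ¬ p ∣ Nat.card K) (hR : IsPGroup p R)
    (hKR : K ⊔ R = ⊤) : ¬ p ∣ R.index := by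
  have hp : p.Prime := Fact.out
  obtain ⟨n, hn⟩ := hR.exists_card_eq
  have h1 := fp_index_dvd K R hKR
  rw [hn] at h1
  intro hdvd
  have h2 : Nat.card K * K.index = Nat.card R * R.index := by
    rw [Subgroup.card_mul_index, Subgroup.card_mul_index]
  have h3 : p ^ (n + 1) ∣ Nat.card K * K.index := by
    rw [h2, hn, pow_succ]
    exact Nat.mul_dvd_mul_left _ hdvd
  have hcop : Nat.Coprime (p ^ (n + 1)) (Nat.card K) :=
    Nat.Coprime.pow_left _ ((Nat.Prime.coprime_iff_not_dvd hp).mpr hKp)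
  have h4 : p ^ (n + 1) ∣ K.index := hcop.dvd_of_dvd_mul_left h3
  have h5 := Nat.dvd_trans h4 h1
  have h6 := (Nat.pow_dvd_pow_iff_le_right hp.one_lt).mp h5
  omega

/-- An element of a normal `p'`-subgroup normalizing a `p`-subgroup centralizes it. -/
theorem fp_commute_of_normalizes {X : Type u} [Group X] {p : ℕ} [Fact p.Prime]
    (K R : Subgroup X) [hK : K.Normal] (hKp : (Nat.card K).Coprime p) (hR : IsPGroup p R)
    {k : X} (hk : k ∈ K) (hkN : k ∈ Subgroup.normalizer (R : Set X)) {r : X} (hr : r ∈ R) :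
    r * k = k * r := by
  have h1 : k * r * k⁻¹ * r⁻¹ ∈ R :=
    R.mul_mem ((Subgroup.mem_normalizer_iff.mp hkN r).mp hr) (R.inv_mem hr)
  have h2 : k * r * k⁻¹ * r⁻¹ ∈ K := by
    have h0 : r * k⁻¹ * r⁻¹ ∈ K := hK.conj_mem _ (K.inv_mem hk) r
    have := K.mul_mem hk h0
    simpa [mul_assoc] using this
  have h3 := Helper54.eq_one_of_mem_pgroup_of_mem_coprime hR hKp h1 h2
  have h4 : k * r = k * r * k⁻¹ * r⁻¹ * (r * k) := by group
  rw [h4, h3, one_mul]

variable {X : Type u} [Group X] [Fintype X] {p : ℕ} [Fact p.Prime] {M : Ideal Cfsg.AlgInt}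

theorem fp_glauberman_unique (hM : Cfsg.IsPModular p M) (K : Subgroup X) [hK : K.Normal]
    [Fintype K] (hKp : ¬ p ∣ Nat.card K) (R : Subgroup X) (hR : IsPGroup p R)
    (hKR : K ⊔ R = ⊤) (θ : Cfsg.IrrCharacter K)
    (hinv : ∀ (g : X) (n : K), (θ : K → ℂ) ⟨g * n * g⁻¹, hK.conj_mem n n.2 g⟩ = (θ : K → ℂ) n)
    [Fintype ↥(Subgroup.normalizer (R : Set X))]
    [Fintype ↥(K.subgroupOf (Subgroup.normalizer (R : Set X)))]
    (ν₁ ν₂ : Cfsg.IrrCharacter ↥(K.subgroupOf (Subgroup.normalizer (R : Set X))))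
    (h₁ : ¬ Cfsg.MemLocalIdeal M (Helper81.omega
      (ν₁ : ↥(K.subgroupOf (Subgroup.normalizer (R : Set X))) → ℂ)
      (fun n => Cfsg.blockCoeff ({θ} : Set (Cfsg.IrrCharacter K))
        ⟨((n : ↥(Subgroup.normalizer (R : Set X))) : X), Subgroup.mem_subgroupOf.mp n.2⟩)))
    (h₂ : ¬ Cfsg.MemLocalIdeal M (Helper81.omega
      (ν₂ : ↥(K.subgroupOf (Subgroup.normalizer (R : Set X))) → ℂ)
      (fun n => Cfsg.blockCoeff ({θ} : Set (Cfsg.IrrCharacter K))
        ⟨((n : ↥(Subgroup.normalizer (R : Set X))) : X), Subgroup.mem_subgroupOf.mp n.2⟩))) :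
    ν₁ = ν₂ := by
  classical
  have hMm := hM.2.1
  have hp : p.Prime := Fact.out
  have hKcop : (Nat.card K).Coprime p :=
    ((Nat.Prime.coprime_iff_not_dvd hp).mpr hKp).symm
  -- the block of `X` over `θ`
  have hb : Cfsg.IsPBlock M ({θ} : Set (Cfsg.IrrCharacter K)) :=
    ⟨θ, (fp_blockOf_eq_singleton hM hKp θ).symm⟩
  have hconj : ∀ g : X, Helper16.irrConj K g θ = θ := by
    intro g
    apply Subtype.ext
    funext k
    rw [Helper16.irrConj_apply]
    have h1 := hinv g⁻¹ k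
    rw [← h1]
    exact congrArg (θ : K → ℂ) (Subtype.ext (by simp))
  have hinv' : ∀ g : X, ∀ θ' ∈ ({θ} : Set (Cfsg.IrrCharacter K)),
      Helper16.irrConj K g θ' ∈ ({θ} : Set (Cfsg.IrrCharacter K)) := by
    intro g θ' hθ'
    rw [Set.mem_singleton_iff] at hθ' ⊢
    rw [hθ', hconj g]
  have hidx := fp_index_pow K R hR hKR
  obtain ⟨χ₀, hχ₀, hdeg⟩ := Helper79.fong_exists_pPrime_degree_over (p := p) K hKp θ hinv
  have hχ₀c : χ₀ ∈ Helper16.fongCover K ({θ} : Set (Cfsg.IrrCharacter K)) :=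
    ⟨θ, rfl, hχ₀⟩
  have hcover := Helper16.fongPIndex_cover_eq_blockOf K hM hidx hb hinv' hχ₀c
  have hcoeff : Cfsg.blockCoeff (Cfsg.blockOf M (χ₀ : X → ℂ))
      = Helper16.ext0 K (Cfsg.blockCoeff ({θ} : Set (Cfsg.IrrCharacter K))) := by
    rw [← hcover]
    exact Helper16.fong_blockCoeff_cover K hinv'
  have hBX : Cfsg.IsPBlock M (Cfsg.blockOf M (χ₀ : X → ℂ)) := ⟨χ₀, rfl⟩
  -- `R` is a defect group
  have hRdef : Cfsg.IsDefectGroup p M (Cfsg.blockOf M (χ₀ : X → ℂ)) R :=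
    (Helper79.fong_isDefectGroup_iff_of_pPrime_degree hM hBX χ₀
      (Helper16.sameBlock_refl hMm _) hdeg R).mpr
      ⟨hR.toSylow (fp_not_dvd_index K R hKp hR hKR), rfl⟩
  -- characters of the normalizer over `ν₁`, `ν₂`
  have key : ∀ ν : Cfsg.IrrCharacter ↥(K.subgroupOf (Subgroup.normalizer (R : Set X))),
      ¬ Cfsg.MemLocalIdeal M (Helper81.omega
        (ν : ↥(K.subgroupOf (Subgroup.normalizer (R : Set X))) → ℂ)
        (fun n => Cfsg.blockCoeff ({θ} : Set (Cfsg.IrrCharacter K))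
          ⟨((n : ↥(Subgroup.normalizer (R : Set X))) : X), Subgroup.mem_subgroupOf.mp n.2⟩)) →
      ∃ ψ : Cfsg.IrrCharacter ↥(Subgroup.normalizer (R : Set X)),
        Cfsg.classInner (fun n : ↥(K.subgroupOf (Subgroup.normalizer (R : Set X))) =>
          (ψ : ↥(Subgroup.normalizer (R : Set X)) → ℂ) n)
          (ν : ↥(K.subgroupOf (Subgroup.normalizer (R : Set X))) → ℂ) ≠ 0 ∧
        Cfsg.IsInducedBlock M (Subgroup.normalizer (R : Set X))
          (Cfsg.blockOf M (ψ : ↥(Subgroup.normalizer (R : Set X)) → ℂ))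
          (Cfsg.blockOf M (χ₀ : X → ℂ)) := by
    intro ν hν
    obtain ⟨ψ, hψ⟩ := Helper76.exists_irr_over
      (K.subgroupOf (Subgroup.normalizer (R : Set X))) ν
    refine ⟨ψ, hψ, ?_⟩
    have ha : Cfsg.IsClassFunction ↥(Subgroup.normalizer (R : Set X))
        (fun h : ↥(Subgroup.normalizer (R : Set X)) =>
          Cfsg.blockCoeff (Cfsg.blockOf M (χ₀ : X → ℂ)) (h : X)) :=
      Helper16.isClassFunction_res (Helper77.blockCoeff_isClassFunction _) _
    have hsupp : ∀ h : ↥(Subgroup.normalizer (R : Set X)),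
        h ∉ K.subgroupOf (Subgroup.normalizer (R : Set X)) →
        Cfsg.blockCoeff (Cfsg.blockOf M (χ₀ : X → ℂ)) (h : X) = 0 := by
      intro h hh
      rw [hcoeff]
      simp only [Helper16.ext0]
      rw [dif_neg]
      exact fun h' => hh (Subgroup.mem_subgroupOf.mpr h')
    have h3 := Helper76.omega_eq_omega_res_of_constituent
      (K.subgroupOf (Subgroup.normalizer (R : Set X))) ha hsupp ψ ν hψ
    have e1 : (fun n : ↥(K.subgroupOf (Subgroup.normalizer (R : Set X))) =>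
        Cfsg.blockCoeff (Cfsg.blockOf M (χ₀ : X → ℂ))
          (((n : ↥(Subgroup.normalizer (R : Set X))) : X)))
        = (fun n : ↥(K.subgroupOf (Subgroup.normalizer (R : Set X))) =>
          Cfsg.blockCoeff ({θ} : Set (Cfsg.IrrCharacter K))
          ⟨((n : ↥(Subgroup.normalizer (R : Set X))) : X), Subgroup.mem_subgroupOf.mp n.2⟩) := by
      funext n
      rw [hcoeff, Helper16.ext0_apply_mem K _ (Subgroup.mem_subgroupOf.mp n.2)]
    rw [e1] at h3
    rw [← h3] at hν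
    obtain ⟨B', hind⟩ := Helper16.exists_isInducedBlock hM R (Subgroup.normalizer (R : Set X)) hR
      Subgroup.le_normalizer (Subgroup.centralizer_le_normalizer _) le_rfl
      (⟨ψ, rfl⟩ : Cfsg.IsPBlock M
        (Cfsg.blockOf M (ψ : ↥(Subgroup.normalizer (R : Set X)) → ℂ)))
    obtain ⟨χ', hχ'⟩ := Helper16.exists_mem_of_isPBlock hMm hind.2.1
    have h4 := Helper16.omega_res_sub_memLocalIdeal hMm (Subgroup.normalizer (R : Set X)) hind
      (Helper16.sameBlock_refl hMm _ : ψ ∈ Cfsg.blockOf M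
        (ψ : ↥(Subgroup.normalizer (R : Set X)) → ℂ)) hχ'
      (Helper77.blockCoeff_isClassFunction (Cfsg.blockOf M (χ₀ : X → ℂ)))
      (Helper77.blockCoeff_memLocalRing hMm hBX)
    have hχ'B : χ' ∈ Cfsg.blockOf M (χ₀ : X → ℂ) := by
      by_contra hcon
      rw [Helper77.omega_blockCoeff_of_not_mem hcon, sub_zero] at h4
      exact hν h4
    have hBeq : B' = Cfsg.blockOf M (χ₀ : X → ℂ) := by
      rw [Helper16.eq_blockOf_of_mem hMm hind.2.1 hχ', Helper16.eq_blockOf_of_mem hMm hBX hχ'B]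
    rw [hBeq] at hind
    exact hind
  obtain ⟨ψ₁, hne₁, hind₁⟩ := key ν₁ h₁
  obtain ⟨ψ₂, hne₂, hind₂⟩ := key ν₂ h₂
  have hD₁ := Helper16.isDefectGroup_subgroupOf_of_induced hM hR Subgroup.le_normalizer le_rfl
    hind₁ hRdef
  have hβ := Helper16.fmt_unique hM R hR hD₁ hind₁ hind₂
  have hsame : Cfsg.SameBlock M (ψ₁ : ↥(Subgroup.normalizer (R : Set X)) → ℂ)
      (ψ₂ : ↥(Subgroup.normalizer (R : Set X)) → ℂ) := by
    have h5 : ψ₂ ∈ Cfsg.blockOf M (ψ₂ : ↥(Subgroup.normalizer (R : Set X)) → ℂ) :=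
      Helper16.sameBlock_refl hMm _
    rw [hβ] at h5
    exact h5
  -- `ν₂` is conjugate to `ν₁`
  have hNp : ¬ p ∣ Nat.card ↥(K.subgroupOf (Subgroup.normalizer (R : Set X))) := by
    intro h
    apply hKp
    refine dvd_trans h ?_
    apply Subgroup.card_dvd_of_injective
      ((Subgroup.normalizer (R : Set X)).subtype.subgroupComap K)
    intro a b hab
    apply Subtype.ext
    apply Subtype.ext
    exact congrArg (fun z : K => (z : X)) hab
  have hmem := Helper76.mem_blockOrbit_of_sameBlock hMm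
    (K.subgroupOf (Subgroup.normalizer (R : Set X)))
    (b := Cfsg.blockOf M (ν₁ : ↥(K.subgroupOf (Subgroup.normalizer (R : Set X))) → ℂ))
    ⟨ν₁, rfl⟩ ψ₁ ψ₂ hsame ν₁ (Helper16.sameBlock_refl hMm _) hne₁ ν₂ hne₂
  obtain ⟨g, θ', hθ', hν₂⟩ := hmem
  have e1 : ν₁ = θ' := Helper79.eq_of_sameBlock_of_not_dvd_card hM hNp ν₁ θ' hθ'
  rw [hν₂, ← e1]
  apply Subtype.ext
  funext k
  rw [Helper81.irrTwist_apply]
  -- decompose `g = k₀ r₀`
  have hg : ((g : ↥(Subgroup.normalizer (R : Set X))) : X) ∈ ((K ⊔ R : Subgroup X) : Set X) := by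
    rw [hKR]
    exact Set.mem_univ _
  rw [Subgroup.normal_mul] at hg
  obtain ⟨k₀, hk₀, r₀, hr₀, hg'⟩ := Set.mem_mul.mp hg
  have hr₀N : r₀ ∈ Subgroup.normalizer (R : Set X) := Subgroup.le_normalizer hr₀
  have hk₀N : k₀ ∈ Subgroup.normalizer (R : Set X) := by
    have h6 : k₀ = (g : X) * r₀⁻¹ := by rw [← hg']; group
    rw [h6]
    exact Subgroup.mul_mem _ g.2 (Subgroup.inv_mem _ hr₀N)
  have hkK : ((k : ↥(Subgroup.normalizer (R : Set X))) : X) ∈ K := Subgroup.mem_subgroupOf.mp k.2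
  have hcomm := fp_commute_of_normalizes K R hKcop hR hkK
    (k : ↥(Subgroup.normalizer (R : Set X))).2 hr₀
  have e2 : MulAut.conjNormal g k
      = (⟨⟨k₀, hk₀N⟩, Subgroup.mem_subgroupOf.mpr hk₀⟩ :
          ↥(K.subgroupOf (Subgroup.normalizer (R : Set X)))) * k
        * (⟨⟨k₀, hk₀N⟩, Subgroup.mem_subgroupOf.mpr hk₀⟩ :
          ↥(K.subgroupOf (Subgroup.normalizer (R : Set X))))⁻¹ := by
    apply Subtype.ext
    apply Subtype.ext
    show (g : X) * ((k : ↥(Subgroup.normalizer (R : Set X))) : X) * (g : X)⁻¹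
      = k₀ * ((k : ↥(Subgroup.normalizer (R : Set X))) : X) * k₀⁻¹
    rw [← hg']
    have e3 : k₀ * r₀ * ((k : ↥(Subgroup.normalizer (R : Set X))) : X) * (k₀ * r₀)⁻¹
        = k₀ * (r₀ * ((k : ↥(Subgroup.normalizer (R : Set X))) : X)) * r₀⁻¹ * k₀⁻¹ := by group
    rw [e3, hcomm]
    group
  rw [e2]
  exact (Helper81.irr_isClassFunction ν₁ k _).symm

end Cfsg.Agent.Helper73
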