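import Cfsg.Agent.Helper54.PConstrained

/-!
# Fong's principal-type blocks: group-theoretic preliminaries

* `fp_centralizer_pCore_le`: if a Sylow `p`-subgroup `Q` of `O_{p',p}(G)` satisfies
  `C_G(Q) ≤ O_{p',p}(G)`, then `O_p(G / O_{p'}(G))` contains its centralizer.
* `fp_local`: under that conclusion, for a `p`-subgroup `R` with centralizer `C`,
  `O_{p'}(C) = C ∩ O_{p'}(G)` and `O_p(C / O_{p'}(C))` contains its centralizer.
-/

set_option autoImplicit false
open Cfsg

namespace Cfsg.Agent.Helper73

variable {G : Type*} [Group G] [Finite G] {p : ℕ} [Fact p.Prime]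

theorem fp_centralizer_pCore_le (Q : Subgroup G) (hQL : Q ≤ pPrimePCore p G) (hQp : IsPGroup p Q)
    (hQS : ¬ p ∣ Q.relIndex (pPrimePCore p G))
    (hCQ : Subgroup.centralizer (Q : Set G) ≤ pPrimePCore p G) :
    Subgroup.centralizer (pCore p (G ⧸ pPrimeCore p G) : Set (G ⧸ pPrimeCore p G))
      ≤ pCore p (G ⧸ pPrimeCore p G) := by
  have hc := Helper22.card_pPrimeCore_coprime p G
  have hQ' : IsPGroup p (pCore p (G ⧸ pPrimeCore p G)) := Helper22.pCore_isPGroup p _
  have hQs : IsPGroup p (Q.subgroupOf (pPrimePCore p G)) := hQp.comap_subtype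
  have h1 := Helper54.sylow_map_eq (QuotientGroup.mk' (pPrimeCore p G))
    (QuotientGroup.mk'_surjective _) (pCore p (G ⧸ pPrimeCore p G)) hQ' (pPrimePCore p G) rfl
    (hQs.toSylow hQS)
  have h2 : (((hQs.toSylow hQS : Sylow p ↥(pPrimePCore p G)) :
      Subgroup ↥(pPrimePCore p G)).map (pPrimePCore p G).subtype) = Q := by
    show (Q.subgroupOf _).map _ = Q
    exact Subgroup.map_subgroupOf_eq_of_le hQL
  rw [h2] at h1
  obtain ⟨-, hC⟩ := S3800.result (pPrimeCore p G) hc Q hQp
  intro x hx
  have hx' : x ∈ Subgroup.centralizer ((Q.map (QuotientGroup.mk' (pPrimeCore p G)) :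
      Subgroup (G ⧸ pPrimeCore p G)) : Set (G ⧸ pPrimeCore p G)) := by
    rw [h1]
    exact hx
  rw [hC] at hx'
  obtain ⟨y, hy, rfl⟩ := hx'
  exact Subgroup.mem_comap.mp (hCQ hy)

theorem fp_local
    (hC : Subgroup.centralizer (pCore p (G ⧸ pPrimeCore p G) : Set (G ⧸ pPrimeCore p G))
      ≤ pCore p (G ⧸ pPrimeCore p G))
    (R : Subgroup G) (hR : IsPGroup p R) :
    (∀ x : ↥(Subgroup.centralizer (R : Set G)),
        x ∈ pPrimeCore p ↥(Subgroup.centralizer (R : Set G)) ↔ (x : G) ∈ pPrimeCore p G) ∧
      Subgroup.centralizer (pCore p (↥(Subgroup.centralizer (R : Set G)) ⧸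
          pPrimeCore p ↥(Subgroup.centralizer (R : Set G))) : Set _)
        ≤ pCore p (↥(Subgroup.centralizer (R : Set G)) ⧸
          pPrimeCore p ↥(Subgroup.centralizer (R : Set G))) := by
  have hc := Helper22.card_pPrimeCore_coprime p G
  obtain ⟨hN, hCC⟩ := S3800.result (pPrimeCore p G) hc R hR
  have hloc := Helper54.local_core_aux hC (R.map (QuotientGroup.mk' (pPrimeCore p G))) (hR.map _)
    ((Subgroup.centralizer (R : Set G)).map (QuotientGroup.mk' (pPrimeCore p G)))
    (by rw [hCC])
    (by rw [hN]; exact Subgroup.map_mono (Subgroup.centralizer_le_normalizer _))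
    (Or.inr (by rw [hCC]))
  have hker : (Nat.card ((QuotientGroup.mk' (pPrimeCore p G)).subgroupMap
      (Subgroup.centralizer (R : Set G))).ker).Coprime p := by
    have hle : (((QuotientGroup.mk' (pPrimeCore p G)).subgroupMap
        (Subgroup.centralizer (R : Set G))).ker).map (Subgroup.centralizer (R : Set G)).subtype ≤
        pPrimeCore p G := by
      intro z hz
      obtain ⟨x, hx, rfl⟩ := Subgroup.mem_map.mp hz
      rw [MonoidHom.mem_ker] at hx
      have h3 : (QuotientGroup.mk' (pPrimeCore p G)) (x : G) = 1 := congrArg Subtype.val hx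
      rwa [← MonoidHom.mem_ker, QuotientGroup.ker_mk'] at h3
    have h4 := Subgroup.card_dvd_of_le hle
    rw [Subgroup.card_map_of_injective (Subgroup.centralizer (R : Set G)).subtype_injective] at h4
    exact Nat.Coprime.coprime_dvd_left h4 hc
  have hsurj := (QuotientGroup.mk' (pPrimeCore p G)).subgroupMap_surjective
    (Subgroup.centralizer (R : Set G))
  have h2 := Helper54.pPrimePCore_eq_comap _ hsurj hker hloc.1
  constructor
  · intro x
    rw [← h2.1, MonoidHom.mem_ker]
    constructor
    · intro hx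
      have h3 : (QuotientGroup.mk' (pPrimeCore p G)) (x : G) = 1 := congrArg Subtype.val hx
      rwa [← MonoidHom.mem_ker, QuotientGroup.ker_mk'] at h3
    · intro hx
      apply Subtype.ext
      show (QuotientGroup.mk' (pPrimeCore p G)) (x : G) = 1
      rwa [← MonoidHom.mem_ker, QuotientGroup.ker_mk']
  · have hG' : IsPConstrained p ↥(Subgroup.centralizer (R : Set G)) :=
      (Helper54.isPConstrained_iff_of_surjective _ hsurj hker hloc.1).mpr hloc.2
    exact (Helper54.isPConstrained_iff_of_surjective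
      (QuotientGroup.mk' (pPrimeCore p ↥(Subgroup.centralizer (R : Set G))))
      (QuotientGroup.mk'_surjective _)
      (by rw [QuotientGroup.ker_mk']; exact Helper22.card_pPrimeCore_coprime p _)
      (Helper55.pPrimeCore_quotient_eq_bot p _)).mp hG'

end Cfsg.Agent.Helper73
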