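import Cfsg.Agent.Helper73.HKBasic

/-!
# Harris–Knörr: conjugation equivariance of block induction inside a normal subgroup

* `hk_in_conj`: if `e` (a block of `K`) induces `d` inside `N` and `h` normalizes `K` and `N`,
  then the `h`-conjugate of `e` induces the `h`-conjugate of `d`.
* `hk_defect_conj`: defect groups of conjugate blocks.
* `hk_fmt_unique_in`: the First Main Theorem (uniqueness) for induction inside `N`.
* `hk_exists_in`: every block of `N_N(Q)` induces a block of `N`.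
* `hk_exists_conj_of_cover`: two blocks of `N` covered by the same block of `G` are conjugate.
-/

set_option autoImplicit false
open Cfsg
open scoped ComplexConjugate

namespace Cfsg.Agent.Helper73

universe u

variable {G : Type u} [Group G]

/-- The induced central character inside `N` of a conjugate character. -/
theorem hk_inducedIn_conj [Finite G] (N K : Subgroup G) (h : G)
    (hhN : h ∈ Subgroup.normalizer (N : Set G)) (hhK : h ∈ Subgroup.normalizer (K : Set G))
    (ξ : K → ℂ) (n : N) :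
    Cfsg.inducedCentralCharIn N K
        (fun k => ξ (Helper75.conjEquivOfNormalizer K h hhK k)) (n : G)
      = Cfsg.inducedCentralCharIn N K ξ
          ((Helper75.conjEquivOfNormalizer N h hhN n : N) : G) := by
  classical
  unfold Cfsg.inducedCentralCharIn
  rw [finsum_mem_eq_finite_toFinset_sum _ (Set.toFinite _),
    finsum_mem_eq_finite_toFinset_sum _ (Set.toFinite _)]
  refine Finset.sum_equiv (Helper75.conjEquivOfNormalizer K h hhK).toEquiv ?_ ?_
  · intro k
    simp only [Set.Finite.mem_toFinset, Set.mem_ofPred_eq, MulEquiv.toEquiv_eq_coe,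
      MulEquiv.coe_toEquiv]
    rw [Helper75.conjEquivOfNormalizer_apply, Helper75.conjEquivOfNormalizer_apply]
    constructor
    · rintro ⟨x, hx⟩
      refine ⟨Helper75.conjEquivOfNormalizer N h hhN x, ?_⟩
      rw [Helper75.conjEquivOfNormalizer_apply, ← hx]
      group
    · rintro ⟨x, hx⟩
      refine ⟨(Helper75.conjEquivOfNormalizer N h hhN).symm x, ?_⟩
      have h1 : (((Helper75.conjEquivOfNormalizer N h hhN).symm x : N) : G)
          = h * (x : G) * h⁻¹ := rfl
      rw [h1]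
      have h2 : (n : G) = h * (h⁻¹ * (n : G) * h) * h⁻¹ := by group
      rw [h2, ← hx]
      group
  · intro k _
    simp only [MulEquiv.toEquiv_eq_coe, MulEquiv.coe_toEquiv, map_one]

variable [Fintype G]

/-- Conjugation equivariance of block induction inside `N`. -/
theorem hk_in_conj {M : Ideal Cfsg.AlgInt} (N K : Subgroup G) (h : G)
    (hhN : h ∈ Subgroup.normalizer (N : Set G)) (hhK : h ∈ Subgroup.normalizer (K : Set G))
    {e : Set (Cfsg.IrrCharacter K)} {d : Set (Cfsg.IrrCharacter N)}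
    (hed : Cfsg.IsInducedBlockIn M N K e d) :
    Cfsg.IsInducedBlockIn M N K
      (Helper75.irrComp (Helper75.conjEquivOfNormalizer K h hhK) '' e)
      (Helper75.irrComp (Helper75.conjEquivOfNormalizer N h hhN) '' d) := by
  refine ⟨Helper75.isPBlock_image_irrComp _ hed.1, Helper75.isPBlock_image_irrComp _ hed.2.1, ?_⟩
  rintro _ ⟨ξ, hξ, rfl⟩ _ ⟨θ, hθ, rfl⟩ n
  have h1 := hed.2.2 ξ hξ θ hθ (Helper75.conjEquivOfNormalizer N h hhN n)
  have h2 := hk_inducedIn_conj N K h hhN hhK (ξ : K → ℂ) n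
  have h3 := Helper75.centralChar_comp_mulEquiv (Helper75.conjEquivOfNormalizer N h hhN)
    (θ : N → ℂ) n
  show Cfsg.MemLocalIdeal M (Cfsg.inducedCentralCharIn N K
      (fun k => (ξ : K → ℂ) (Helper75.conjEquivOfNormalizer K h hhK k)) (n : G)
    - Cfsg.centralChar (fun x : N => (θ : N → ℂ) (Helper75.conjEquivOfNormalizer N h hhN x)) n)
  rw [h2, h3]
  exact h1

omit [Fintype G] in
/-- Defect groups of conjugate blocks. -/
theorem hk_defect_conj {p : ℕ} [Fact p.Prime] {M : Ideal Cfsg.AlgInt} (K : Subgroup G)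
    [Fintype K] (h : G) (hhK : h ∈ Subgroup.normalizer (K : Set G))
    {e : Set (Cfsg.IrrCharacter K)} {D : Subgroup G}
    (hD : Cfsg.IsDefectGroup p M e (D.subgroupOf K)) :
    Cfsg.IsDefectGroup p M (Helper75.irrComp (Helper75.conjEquivOfNormalizer K h hhK) '' e)
      ((D.map (MulAut.conj h).toMonoidHom).subgroupOf K) := by
  have h1 := Helper75.isDefectGroup_image_irrComp (Helper75.conjEquivOfNormalizer K h hhK) hD
  have h2 : (D.subgroupOf K).comap (Helper75.conjEquivOfNormalizer K h hhK).toMonoidHom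
      = (D.map (MulAut.conj h).toMonoidHom).subgroupOf K := by
    ext k
    rw [Subgroup.mem_comap, Subgroup.mem_subgroupOf, Subgroup.mem_subgroupOf, Subgroup.mem_map]
    have e1 : (((Helper75.conjEquivOfNormalizer K h hhK).toMonoidHom k : K) : G)
        = h⁻¹ * (k : G) * h := rfl
    rw [e1]
    constructor
    · intro hk
      refine ⟨_, hk, ?_⟩
      simp only [MulEquiv.coe_toMonoidHom, MulAut.conj_apply]
      group
    · rintro ⟨q, hq, hqk⟩
      simp only [MulEquiv.coe_toMonoidHom, MulAut.conj_apply] at hqk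
      rw [← hqk]
      have : h⁻¹ * (h * q * h⁻¹) * h = q := by group
      rw [this]
      exact hq
  rw [h2] at h1
  exact h1

omit [Fintype G] in
/-- The image of a subgroup under conjugation by an element of its normalizer. -/
theorem hk_map_conj_of_mem_normalizer (Q : Subgroup G) {h : G}
    (hh : h ∈ Subgroup.normalizer (Q : Set G)) : Q.map (MulAut.conj h).toMonoidHom = Q := by
  ext x
  rw [Subgroup.mem_map]
  constructor
  · rintro ⟨q, hq, rfl⟩
    simp only [MulEquiv.coe_toMonoidHom, MulAut.conj_apply]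
    exact (Subgroup.mem_normalizer_iff.mp hh q).mp hq
  · intro hx
    refine ⟨h⁻¹ * x * h, ?_, ?_⟩
    · exact (Subgroup.mem_normalizer_iff''.mp hh x).mp hx
    · simp only [MulEquiv.coe_toMonoidHom, MulAut.conj_apply]
      group

/-- `fmt_unique` for a subgroup equal to the normalizer. -/
theorem hk_fmt_unique_gen {p : ℕ} [Fact p.Prime] {M : Ideal Cfsg.AlgInt}
    (hM : Cfsg.IsPModular p M) (D : Subgroup G) (hD : IsPGroup p D) (K' : Subgroup G)
    (hK' : K' = Subgroup.normalizer (D : Set G)) [Fintype K']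
    {B : Set (Cfsg.IrrCharacter G)} {b₁ b₂ : Set (Cfsg.IrrCharacter K')}
    (hD₁ : Cfsg.IsDefectGroup p M b₁ (D.subgroupOf K'))
    (hind₁ : Cfsg.IsInducedBlock M K' b₁ B) (hind₂ : Cfsg.IsInducedBlock M K' b₂ B) :
    b₂ = b₁ := by
  subst hK'
  exact Helper16.fmt_unique hM D hD hD₁ hind₁ hind₂

/-- **First Main Theorem, uniqueness, for induction inside `N`.** -/
theorem hk_fmt_unique_in {p : ℕ} [Fact p.Prime] {M : Ideal Cfsg.AlgInt}
    (hM : Cfsg.IsPModular p M) (N : Subgroup G) [Fintype N] (Q : Subgroup G) (hQ : IsPGroup p Q)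
    (hQN : Q ≤ N) [Fintype ↥(Subgroup.normalizer (Q : Set G) ⊓ N)]
    {d : Set (Cfsg.IrrCharacter N)}
    {e₁ e₂ : Set (Cfsg.IrrCharacter ↥(Subgroup.normalizer (Q : Set G) ⊓ N))}
    (hD₁ : Cfsg.IsDefectGroup p M e₁ (Q.subgroupOf (Subgroup.normalizer (Q : Set G) ⊓ N)))
    (h₁ : Cfsg.IsInducedBlockIn M N (Subgroup.normalizer (Q : Set G) ⊓ N) e₁ d)
    (h₂ : Cfsg.IsInducedBlockIn M N (Subgroup.normalizer (Q : Set G) ⊓ N) e₂ d) :
    e₂ = e₁ := by
  classical
  have hKN : Subgroup.normalizer (Q : Set G) ⊓ N ≤ N := inf_le_right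
  have i₁ := hk_isInducedBlock_of_in N _ hKN h₁
  have i₂ := hk_isInducedBlock_of_in N _ hKN h₂
  have hK' : (Subgroup.normalizer (Q : Set G) ⊓ N).subgroupOf N
      = Subgroup.normalizer ((Q.subgroupOf N : Subgroup N) : Set N) := by
    ext x
    rw [Subgroup.mem_subgroupOf, Subgroup.mem_inf, Subgroup.mem_normalizer_iff,
      Subgroup.mem_normalizer_iff]
    constructor
    · rintro ⟨hx, -⟩ y
      rw [Subgroup.mem_subgroupOf, Subgroup.mem_subgroupOf]
      exact hx (y : G)
    · intro hx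
      refine ⟨fun y => ?_, x.2⟩
      constructor
      · intro hy
        have := (hx ⟨y, hQN hy⟩).mp (by rw [Subgroup.mem_subgroupOf]; exact hy)
        rw [Subgroup.mem_subgroupOf] at this
        exact this
      · intro hy
        have hyN : y ∈ N := by
          have h1 : y = (x : G)⁻¹ * ((x : G) * y * (x : G)⁻¹) * (x : G) := by group
          rw [h1]
          exact N.mul_mem (N.mul_mem (N.inv_mem x.2) (hQN hy)) x.2
        have := (hx ⟨y, hyN⟩).mpr (by rw [Subgroup.mem_subgroupOf]; exact hy)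
        rw [Subgroup.mem_subgroupOf] at this
        exact this
  have hD₁' := Helper75.isDefectGroup_image_irrComp (Subgroup.subgroupOfEquivOfLe hKN) hD₁
  have h2 : (Q.subgroupOf (Subgroup.normalizer (Q : Set G) ⊓ N)).comap
        (Subgroup.subgroupOfEquivOfLe hKN).toMonoidHom
      = (Q.subgroupOf N).subgroupOf ((Subgroup.normalizer (Q : Set G) ⊓ N).subgroupOf N) := by
    ext x
    rfl
  rw [h2] at hD₁'
  have h3 := hk_fmt_unique_gen hM (Q.subgroupOf N) hQ.comap_subtype _ hK' hD₁' i₁ i₂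
  exact (Set.image_injective.mpr (Helper75.irrComp_injective _)) h3

/-- Every block of `N_N(Q)` induces a block of `N`. -/
theorem hk_exists_in {p : ℕ} [Fact p.Prime] {M : Ideal Cfsg.AlgInt}
    (hM : Cfsg.IsPModular p M) (N : Subgroup G) [Fintype N] (Q : Subgroup G) (hQ : IsPGroup p Q)
    (hQN : Q ≤ N) [Fintype ↥(Subgroup.normalizer (Q : Set G) ⊓ N)]
    {e₁ : Set (Cfsg.IrrCharacter ↥(Subgroup.normalizer (Q : Set G) ⊓ N))}
    (he₁ : Cfsg.IsPBlock M e₁) :
    ∃ d₁ : Set (Cfsg.IrrCharacter N),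
      Cfsg.IsInducedBlockIn M N (Subgroup.normalizer (Q : Set G) ⊓ N) e₁ d₁ := by
  classical
  have hKN : Subgroup.normalizer (Q : Set G) ⊓ N ≤ N := inf_le_right
  have hQK : Q ≤ Subgroup.normalizer (Q : Set G) ⊓ N := le_inf Subgroup.le_normalizer hQN
  have hPH : Q.subgroupOf N ≤ (Subgroup.normalizer (Q : Set G) ⊓ N).subgroupOf N := by
    intro x hx
    rw [Subgroup.mem_subgroupOf] at hx ⊢
    exact hQK hx
  have hCH : Subgroup.centralizer ((Q.subgroupOf N : Subgroup N) : Set N)
      ≤ (Subgroup.normalizer (Q : Set G) ⊓ N).subgroupOf N := by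
    intro x hx
    rw [Subgroup.mem_subgroupOf]
    refine Subgroup.mem_inf.mpr ⟨?_, x.2⟩
    apply Subgroup.centralizer_le_normalizer
    rw [Subgroup.mem_centralizer_iff] at hx ⊢
    intro q hq
    have := hx ⟨q, hQN hq⟩ (by
      show (⟨q, hQN hq⟩ : N) ∈ Q.subgroupOf N
      rw [Subgroup.mem_subgroupOf]; exact hq)
    exact congrArg Subtype.val this
  have hHN : (Subgroup.normalizer (Q : Set G) ⊓ N).subgroupOf N
      ≤ Subgroup.normalizer ((Q.subgroupOf N : Subgroup N) : Set N) := by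
    intro x hx
    rw [Subgroup.mem_subgroupOf, Subgroup.mem_inf] at hx
    rw [Subgroup.mem_normalizer_iff]
    intro y
    rw [Subgroup.mem_subgroupOf, Subgroup.mem_subgroupOf]
    exact Subgroup.mem_normalizer_iff.mp hx.1 (y : G)
  obtain ⟨d₁, hd₁⟩ := Helper16.exists_isInducedBlock hM (Q.subgroupOf N)
    ((Subgroup.normalizer (Q : Set G) ⊓ N).subgroupOf N) hQ.comap_subtype hPH hCH hHN
    (Helper75.isPBlock_image_irrComp (Subgroup.subgroupOfEquivOfLe hKN) he₁)
  exact ⟨d₁, hk_in_of_isInducedBlock N _ hKN he₁ hd₁⟩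

/-- Two blocks of the normal subgroup `N` covered by the same block of `G` are conjugate. -/
theorem hk_exists_conj_of_cover {M : Ideal Cfsg.AlgInt} (hM : M.IsMaximal) (N : Subgroup G)
    [N.Normal] [Fintype N] {d d₁ : Set (Cfsg.IrrCharacter N)} (hd : Cfsg.IsPBlock M d)
    (hd₁ : Cfsg.IsPBlock M d₁) {B : Set (Cfsg.IrrCharacter G)} (hB : Cfsg.IsPBlock M B)
    (hcov : ∃ χ ∈ B, ∃ θ ∈ d, Cfsg.classInner (fun n : N => (χ : G → ℂ) n) (θ : N → ℂ) ≠ 0)
    (hcov₁ : ∃ χ ∈ B, ∃ θ ∈ d₁, Cfsg.classInner (fun n : N => (χ : G → ℂ) n) (θ : N → ℂ) ≠ 0) :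
    ∃ g : G, ∃ hg : g ∈ Subgroup.normalizer (N : Set G),
      d₁ = Helper75.irrComp (Helper75.conjEquivOfNormalizer N g hg) '' d := by
  obtain ⟨χ₀, hχ₀, θ₀, hθ₀, hne₀⟩ := hcov
  obtain ⟨χ₁, hχ₁, θ₁, hθ₁, hne₁⟩ := hcov₁
  have h1 := Helper76.mem_blockOrbit_of_sameBlock hM N hd χ₀ χ₁
    (Helper16.sameBlock_of_mem hM hB hχ₀ hχ₁) θ₀ hθ₀ hne₀ θ₁ hne₁
  obtain ⟨g, θ', hθ', rfl⟩ := h1
  have hg : g⁻¹ ∈ Subgroup.normalizer (N : Set G) := by
    rw [Subgroup.normalizer_eq_top]; exact Subgroup.mem_top _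
  refine ⟨g⁻¹, hg, ?_⟩
  have h2 : Helper81.irrTwist (MulAut.conjNormal g) θ'
      = Helper75.irrComp (Helper75.conjEquivOfNormalizer N g⁻¹ hg) θ' := by
    apply Subtype.ext
    funext n
    rw [Helper81.irrTwist_apply, Helper75.irrComp_apply]
    refine congrArg (θ' : N → ℂ) (Subtype.ext ?_)
    rw [MulAut.conjNormal_apply, Helper75.conjEquivOfNormalizer_apply, inv_inv]
  rw [h2] at hθ₁
  rw [Helper16.eq_blockOf_of_mem hM hd₁ hθ₁,
    Helper16.eq_blockOf_of_mem hM (Helper75.isPBlock_image_irrComp _ hd) ⟨θ', hθ', rfl⟩]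

end Cfsg.Agent.Helper73
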