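import Cfsg.Agent.Helper73.HKCover
import Cfsg.Agent.Helper73.HKConj

/-!
# Harris–Knörr: a block of `N_G(Q)` inducing a block covering `d` covers the Brauer
correspondent of `d`

`hk_cover_e`: let `N ⊴ G`, `d` a block of `N` with defect group `Q`, `e` the block of `N_N(Q)`
with defect group `Q` inducing `d`, and `B` a block of `G` covering `d`.  Then every block of
`N_G(Q)` inducing `B` covers `e`.
-/

set_option autoImplicit false
open Cfsg
open scoped ComplexConjugate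

namespace Cfsg.Agent.Helper73

universe u

variable {G : Type u} [Group G] [Fintype G]

omit [Fintype G] in
/-- An element with `t Q t⁻¹ ⊆ Q` normalizes the finite subgroup `Q`. -/
theorem hk_mem_normalizer_of_conj_le [Finite G] (Q : Subgroup G) (t : G)
    (h : ∀ q ∈ Q, t * q * t⁻¹ ∈ Q) : t ∈ Subgroup.normalizer (Q : Set G) := by
  have h1 : Q.map (MulAut.conj t).toMonoidHom ≤ Q := by
    rintro _ ⟨q, hq, rfl⟩
    simpa using h q hq
  have h2 : Q.map (MulAut.conj t).toMonoidHom = Q :=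
    Subgroup.eq_of_le_of_card_ge h1
      (by rw [Subgroup.card_map_of_injective (MulAut.conj t).injective])
  rw [Subgroup.mem_normalizer_iff]
  intro n
  constructor
  · exact h n
  · intro hn
    rw [← h2] at hn
    obtain ⟨q, hq, hqn⟩ := hn
    simp only [MulEquiv.coe_toMonoidHom, MulAut.conj_apply] at hqn
    have : q = n := by
      have h3 : t⁻¹ * (t * q * t⁻¹) * t = t⁻¹ * (t * n * t⁻¹) * t := by rw [hqn]
      have e1 : t⁻¹ * (t * q * t⁻¹) * t = q := by group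
      have e2 : t⁻¹ * (t * n * t⁻¹) * t = n := by group
      rw [e1, e2] at h3
      exact h3
    rw [← this]
    exact hq

/-- **Covering of the Brauer correspondent.** -/
theorem hk_cover_e {p : ℕ} [Fact p.Prime] {M : Ideal Cfsg.AlgInt} (hM : Cfsg.IsPModular p M)
    (N : Subgroup G) [hN : N.Normal] [Fintype N] (Q : Subgroup G) (hQ : IsPGroup p Q)
    (hQN : Q ≤ N) [Fintype ↥(Subgroup.normalizer (Q : Set G) ⊓ N)]
    [Fintype ↥(Subgroup.normalizer (Q : Set G))]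
    {d : Set (Cfsg.IrrCharacter N)} (hdQ : Cfsg.IsDefectGroup p M d (Q.subgroupOf N))
    {e : Set (Cfsg.IrrCharacter ↥(Subgroup.normalizer (Q : Set G) ⊓ N))}
    (heQ : Cfsg.IsDefectGroup p M e (Q.subgroupOf (Subgroup.normalizer (Q : Set G) ⊓ N)))
    (hed : Cfsg.IsInducedBlockIn M N (Subgroup.normalizer (Q : Set G) ⊓ N) e d)
    {B : Set (Cfsg.IrrCharacter G)} (hB : Cfsg.IsPBlock M B)
    (hcov : ∃ χ ∈ B, ∃ θ ∈ d, Cfsg.classInner (fun n : N => (χ : G → ℂ) n) (θ : N → ℂ) ≠ 0)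
    {c₀ : Set (Cfsg.IrrCharacter ↥(Subgroup.normalizer (Q : Set G)))}
    (hind : Cfsg.IsInducedBlock M (Subgroup.normalizer (Q : Set G)) c₀ B)
    (ψ : Cfsg.IrrCharacter ↥(Subgroup.normalizer (Q : Set G))) (hψ : ψ ∈ c₀) :
    ∃ ξ ∈ e, Cfsg.classInner (fun l : ↥(Subgroup.normalizer (Q : Set G) ⊓ N) =>
      (ψ : ↥(Subgroup.normalizer (Q : Set G)) → ℂ) (Subgroup.inclusion inf_le_left l))
      (ξ : ↥(Subgroup.normalizer (Q : Set G) ⊓ N) → ℂ) ≠ 0 := by
  classical
  have hMm := hM.2.1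
  have hKH : Subgroup.normalizer (Q : Set G) ⊓ N ≤ Subgroup.normalizer (Q : Set G) := inf_le_left
  have hKN : Subgroup.normalizer (Q : Set G) ⊓ N ≤ N := inf_le_right
  -- a constituent of the restriction of `ψ`
  have hcl : Cfsg.IsClassFunction ↥(Subgroup.normalizer (Q : Set G) ⊓ N)
      (fun l => (ψ : ↥(Subgroup.normalizer (Q : Set G)) → ℂ) (Subgroup.inclusion hKH l)) := by
    intro g h
    have := Helper81.irr_isClassFunction ψ (Subgroup.inclusion hKH g) (Subgroup.inclusion hKH h)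
    show (ψ : ↥(Subgroup.normalizer (Q : Set G)) → ℂ) (Subgroup.inclusion hKH (h * g * h⁻¹))
      = (ψ : ↥(Subgroup.normalizer (Q : Set G)) → ℂ) (Subgroup.inclusion hKH g)
    rw [← this, map_mul, map_mul, map_inv]
  have hne0 : (fun l : ↥(Subgroup.normalizer (Q : Set G) ⊓ N) =>
      (ψ : ↥(Subgroup.normalizer (Q : Set G)) → ℂ) (Subgroup.inclusion hKH l)) ≠ 0 := by
    intro h0
    have := congrFun h0 1
    exact Helper81.irr_one_ne_zero ψ (by simpa using this)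
  obtain ⟨ξ₁, hξ₁⟩ := Helper15.exists_constituent hcl hne0
  have he₁ : Cfsg.IsPBlock M (Cfsg.blockOf M (ξ₁ : ↥(Subgroup.normalizer (Q : Set G) ⊓ N) → ℂ)) :=
    ⟨ξ₁, rfl⟩
  have hξ₁e₁ : ξ₁ ∈ Cfsg.blockOf M (ξ₁ : ↥(Subgroup.normalizer (Q : Set G) ⊓ N) → ℂ) :=
    Helper16.sameBlock_refl hMm _
  -- the induced block `d₁`
  obtain ⟨d₁, hd₁⟩ := hk_exists_in hM N Q hQ hQN he₁
  obtain ⟨χ₀, hχ₀, θ₀, hθ₀, hne₀⟩ := hcov
  have hcov₁ := hk_cover_of_induced hMm N (Subgroup.normalizer (Q : Set G))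
    (Subgroup.normalizer (Q : Set G) ⊓ N) hKH hKN (fun h hh hn => Subgroup.mem_inf.mpr ⟨hh, hn⟩)
    hind hd₁ ⟨ψ, hψ, ξ₁, hξ₁e₁, hξ₁⟩ χ₀ hχ₀
  -- `d₁` is a conjugate of `d`
  obtain ⟨g, hg, hdg⟩ := hk_exists_conj_of_cover hMm N hed.2.1 hd₁.2.1 hB
    ⟨χ₀, hχ₀, θ₀, hθ₀, hne₀⟩ ⟨χ₀, hχ₀, hcov₁⟩
  -- defect groups
  obtain ⟨D₁, hD₁⟩ := Helper16.exists_isDefectGroup (p := p) hMm he₁
  have hQKn : (Q.subgroupOf (Subgroup.normalizer (Q : Set G) ⊓ N)).Normal :=
    Subgroup.normal_subgroupOf_of_le_normalizer hKH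
  have hQD₁ := Helper16.normal_pSubgroup_le_defectGroup hM
    (Q.subgroupOf (Subgroup.normalizer (Q : Set G) ⊓ N)) hQ.comap_subtype he₁ hD₁
  have hE := hk_defect_conj N g hg hdQ
  rw [← hdg] at hE
  have hind₁ := hk_isInducedBlock_of_in N _ hKN hd₁
  have hD₁' := Helper75.isDefectGroup_image_irrComp (Subgroup.subgroupOfEquivOfLe hKN) hD₁
  obtain ⟨x, hx⟩ := Helper16.induced_defect_conjLE hM _ hind₁ hD₁' hE
  have hxQ : ∀ q ∈ Q, (x : G) * q * (x : G)⁻¹ ∈ Q.map (MulAut.conj g).toMonoidHom := by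
    intro q hq
    have hqK : q ∈ Subgroup.normalizer (Q : Set G) ⊓ N :=
      Subgroup.mem_inf.mpr ⟨Subgroup.le_normalizer hq, hQN hq⟩
    have h1 : (⟨q, hQN hq⟩ : N) ∈ (D₁.comap (Subgroup.subgroupOfEquivOfLe hKN).toMonoidHom).map
        ((Subgroup.normalizer (Q : Set G) ⊓ N).subgroupOf N).subtype := by
      refine ⟨⟨⟨q, hQN hq⟩, by rw [Subgroup.mem_subgroupOf]; exact hqK⟩, ?_, rfl⟩
      rw [SetLike.mem_coe, Subgroup.mem_comap]
      apply hQD₁
      rw [Subgroup.mem_subgroupOf]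
      exact hq
    have h2 := hx _ h1
    rw [Subgroup.mem_subgroupOf] at h2
    exact h2
  -- `h = x⁻¹ g` normalizes `Q`
  have ht : g⁻¹ * (x : G) ∈ Subgroup.normalizer (Q : Set G) := by
    apply hk_mem_normalizer_of_conj_le
    intro q hq
    obtain ⟨q', hq', hqq⟩ := hxQ q hq
    simp only [MulEquiv.coe_toMonoidHom, MulAut.conj_apply] at hqq
    have e1 : g⁻¹ * (x : G) * q * (g⁻¹ * (x : G))⁻¹ = g⁻¹ * ((x : G) * q * (x : G)⁻¹) * g := by
      group
    rw [e1, ← hqq]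
    have e2 : g⁻¹ * (g * q' * g⁻¹) * g = q' := by group
    rw [e2]
    exact hq'
  obtain ⟨h, hh_def⟩ : ∃ h : G, h = (x : G)⁻¹ * g := ⟨_, rfl⟩
  have hh : h ∈ Subgroup.normalizer (Q : Set G) := by
    have := Subgroup.inv_mem _ ht
    have e1 : (g⁻¹ * (x : G))⁻¹ = (x : G)⁻¹ * g := by group
    rw [e1] at this
    rw [hh_def]
    exact this
  have hgxh : g = (x : G) * h := by rw [hh_def]; group
  have hhN : h ∈ Subgroup.normalizer (N : Set G) := by
    rw [Subgroup.normalizer_eq_top]; exact Subgroup.mem_top _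
  have hhK : h ∈ Subgroup.normalizer ((Subgroup.normalizer (Q : Set G) ⊓ N : Subgroup G) : Set G) := by
    rw [Subgroup.mem_normalizer_iff]
    intro k
    rw [Subgroup.mem_inf, Subgroup.mem_inf]
    constructor
    · rintro ⟨h1, h2⟩
      exact ⟨Subgroup.mul_mem _ (Subgroup.mul_mem _ hh h1) (Subgroup.inv_mem _ hh),
        hN.conj_mem k h2 h⟩
    · rintro ⟨h1, h2⟩
      have e1 : k = h⁻¹ * (h * k * h⁻¹) * h := by group
      refine ⟨?_, ?_⟩
      · rw [e1]
        exact Subgroup.mul_mem _ (Subgroup.mul_mem _ (Subgroup.inv_mem _ hh) h1) hh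
      · have := hN.conj_mem _ h2 h⁻¹
        rw [inv_inv] at this
        rw [e1]
        exact this
  -- `d₁` is the `h`-conjugate of `d`
  have hconj_eq : ∀ θ : Cfsg.IrrCharacter N,
      Helper75.irrComp (Helper75.conjEquivOfNormalizer N g hg) θ
        = Helper75.irrComp (Helper75.conjEquivOfNormalizer N h hhN) θ := by
    intro θ
    apply Subtype.ext
    funext n
    have h1 := Helper81.irr_isClassFunction
      (Helper75.irrComp (Helper75.conjEquivOfNormalizer N h hhN) θ) n x⁻¹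
    rw [Helper75.irrComp_apply, Helper75.irrComp_apply] at h1
    rw [Helper75.irrComp_apply, Helper75.irrComp_apply, ← h1]
    refine congrArg (θ : N → ℂ) (Subtype.ext ?_)
    rw [Helper75.conjEquivOfNormalizer_apply, Helper75.conjEquivOfNormalizer_apply, hgxh]
    simp only [Subgroup.coe_mul, Subgroup.coe_inv, inv_inv]
    group
  have hdh : d₁ = Helper75.irrComp (Helper75.conjEquivOfNormalizer N h hhN) '' d := by
    rw [hdg]
    exact Set.image_congr (fun θ _ => hconj_eq θ)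
  -- the conjugate of `e` induces `d₁` and has defect group `Q`
  have h8 := hk_in_conj N _ h hhN hhK hed
  rw [← hdh] at h8
  have h9 := hk_defect_conj _ h hhK heQ
  rw [hk_map_conj_of_mem_normalizer Q hh] at h9
  have h10 := hk_fmt_unique_in hM N Q hQ hQN h9 h8 hd₁
  rw [h10] at hξ₁e₁
  obtain ⟨ξ, hξ, hξeq⟩ := hξ₁e₁
  refine ⟨ξ, hξ, ?_⟩
  rw [← hξeq] at hξ₁
  have h11 := hk_classInner_comp (Helper75.conjEquivOfNormalizer _ h hhK)
    (fun l : ↥(Subgroup.normalizer (Q : Set G) ⊓ N) =>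
      (ψ : ↥(Subgroup.normalizer (Q : Set G)) → ℂ) (Subgroup.inclusion hKH l))
    (ξ : ↥(Subgroup.normalizer (Q : Set G) ⊓ N) → ℂ)
  have h12 : (fun k : ↥(Subgroup.normalizer (Q : Set G) ⊓ N) =>
      (ψ : ↥(Subgroup.normalizer (Q : Set G)) → ℂ)
        (Subgroup.inclusion hKH (Helper75.conjEquivOfNormalizer _ h hhK k)))
      = (fun l : ↥(Subgroup.normalizer (Q : Set G) ⊓ N) =>
      (ψ : ↥(Subgroup.normalizer (Q : Set G)) → ℂ) (Subgroup.inclusion hKH l)) := by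
    funext k
    have h13 := Helper81.irr_isClassFunction ψ (Subgroup.inclusion hKH k)
      (⟨h, hh⟩ : ↥(Subgroup.normalizer (Q : Set G)))⁻¹
    rw [← h13]
    refine congrArg (ψ : ↥(Subgroup.normalizer (Q : Set G)) → ℂ) (Subtype.ext ?_)
    simp only [Subgroup.coe_mul, Subgroup.coe_inv, inv_inv, Subgroup.coe_inclusion,
      Helper75.conjEquivOfNormalizer_apply]
  rw [h12] at h11
  rw [← h11]
  exact hξ₁

end Cfsg.Agent.Helper73
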