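import Cfsg.Agent.Helper73.FPGlauberman
import Cfsg.Agent.Helper73.FPGroup
import Cfsg.Agent.Helper73.HKExist

/-!
# Fong's principal-type blocks: uniqueness of the block of a centralizer

* `fp_unique_under`: at most one irreducible character `μ` of `C_K(R)` has
  `Ω_μ(e_θ|_{C_K(R)})` a unit (transport of `fp_glauberman_unique` to `X = K R ≤ G`).
* `fp_omega_under`: if the block `f` of `C_G(R)` induces the block `Irr(G | θ)`, every
  irreducible constituent `μ` of the restriction to `C_K(R)` of a member of `f` has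
  `Ω_μ(e_θ|_{C_K(R)})` a unit.
* `fp_unique`: two blocks of `C_G(R)` inducing `Irr(G | θ)` coincide.
-/

set_option autoImplicit false
set_option linter.unusedSectionVars false
open Cfsg

namespace Cfsg.Agent.Helper73

universe u

variable {G : Type u} [Group G] [Fintype G] {p : ℕ} [Fact p.Prime] {M : Ideal Cfsg.AlgInt}

theorem fp_unique_under (hM : Cfsg.IsPModular p M) (K : Subgroup G) [hK : K.Normal] [Fintype K]
    (hKp : ¬ p ∣ Nat.card K) (θ : Cfsg.IrrCharacter K)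
    (hinv : ∀ (g : G) (n : K), (θ : K → ℂ) ⟨g * n * g⁻¹, hK.conj_mem n n.2 g⟩ = (θ : K → ℂ) n)
    (R : Subgroup G) (hR : IsPGroup p R)
    (KC : Subgroup ↥(Subgroup.centralizer (R : Set G))) [Fintype ↥KC]
    (hKC : ∀ x : ↥(Subgroup.centralizer (R : Set G)), x ∈ KC ↔ (x : G) ∈ K)
    (μ₁ μ₂ : Cfsg.IrrCharacter ↥KC)
    (h₁ : ¬ Cfsg.MemLocalIdeal M (Helper81.omega (μ₁ : ↥KC → ℂ)
      (fun k : ↥KC => Cfsg.blockCoeff ({θ} : Set (Cfsg.IrrCharacter K))
        ⟨((k : ↥(Subgroup.centralizer (R : Set G))) : G), (hKC k).mp k.2⟩)))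
    (h₂ : ¬ Cfsg.MemLocalIdeal M (Helper81.omega (μ₂ : ↥KC → ℂ)
      (fun k : ↥KC => Cfsg.blockCoeff ({θ} : Set (Cfsg.IrrCharacter K))
        ⟨((k : ↥(Subgroup.centralizer (R : Set G))) : G), (hKC k).mp k.2⟩))) :
    μ₁ = μ₂ := by
  classical
  have hp : p.Prime := Fact.out
  have hKcop : (Nat.card K).Coprime p := ((Nat.Prime.coprime_iff_not_dvd hp).mpr hKp).symm
  have hKX : K ≤ K ⊔ R := le_sup_left
  have hRX : R ≤ K ⊔ R := le_sup_right
  have : Fintype ↥(K ⊔ R) := Fintype.ofFinite _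
  have hKXn : (K.subgroupOf (K ⊔ R)).Normal := hK.subgroupOf _
  have : Fintype ↥(K.subgroupOf (K ⊔ R)) := Fintype.ofFinite _
  have hKpX : ¬ p ∣ Nat.card ↥(K.subgroupOf (K ⊔ R)) := by
    rw [Nat.card_congr (Subgroup.subgroupOfEquivOfLe hKX).toEquiv]
    exact hKp
  have hRpX : IsPGroup p (R.subgroupOf (K ⊔ R)) := hR.comap_subtype
  have hsup : K.subgroupOf (K ⊔ R) ⊔ R.subgroupOf (K ⊔ R) = ⊤ := by
    rw [← Subgroup.subgroupOf_sup hKX hRX, Subgroup.subgroupOf_self]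
  have hinvX : ∀ (g : ↥(K ⊔ R)) (n : ↥(K.subgroupOf (K ⊔ R))),
      (Helper75.irrComp (Subgroup.subgroupOfEquivOfLe hKX) θ : ↥(K.subgroupOf (K ⊔ R)) → ℂ)
        ⟨g * n * g⁻¹, hKXn.conj_mem n n.2 g⟩
      = (Helper75.irrComp (Subgroup.subgroupOfEquivOfLe hKX) θ :
          ↥(K.subgroupOf (K ⊔ R)) → ℂ) n := by
    intro g n
    rw [Helper75.irrComp_apply, Helper75.irrComp_apply]
    have h1 := hinv (g : G) (Subgroup.subgroupOfEquivOfLe hKX n)
    rw [← h1]
    exact congrArg (θ : K → ℂ) (Subtype.ext rfl)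
  have : Fintype ↥(Subgroup.normalizer
      ((R.subgroupOf (K ⊔ R) : Subgroup ↥(K ⊔ R)) : Set ↥(K ⊔ R))) := Fintype.ofFinite _
  have : Fintype ↥((K.subgroupOf (K ⊔ R)).subgroupOf (Subgroup.normalizer
      ((R.subgroupOf (K ⊔ R) : Subgroup ↥(K ⊔ R)) : Set ↥(K ⊔ R)))) := Fintype.ofFinite _
  -- membership facts
  have hmemK : ∀ n : ↥((K.subgroupOf (K ⊔ R)).subgroupOf (Subgroup.normalizer
      ((R.subgroupOf (K ⊔ R) : Subgroup ↥(K ⊔ R)) : Set ↥(K ⊔ R)))),
      (((n : ↥(Subgroup.normalizer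
        ((R.subgroupOf (K ⊔ R) : Subgroup ↥(K ⊔ R)) : Set ↥(K ⊔ R)))) : ↥(K ⊔ R)) : G) ∈ K :=
    fun n => Subgroup.mem_subgroupOf.mp (Subgroup.mem_subgroupOf.mp n.2)
  have hmemC : ∀ n : ↥((K.subgroupOf (K ⊔ R)).subgroupOf (Subgroup.normalizer
      ((R.subgroupOf (K ⊔ R) : Subgroup ↥(K ⊔ R)) : Set ↥(K ⊔ R)))),
      (((n : ↥(Subgroup.normalizer
        ((R.subgroupOf (K ⊔ R) : Subgroup ↥(K ⊔ R)) : Set ↥(K ⊔ R)))) : ↥(K ⊔ R)) : G)
        ∈ Subgroup.centralizer (R : Set G) := by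
    intro n
    have hkN : (((n : ↥(Subgroup.normalizer
        ((R.subgroupOf (K ⊔ R) : Subgroup ↥(K ⊔ R)) : Set ↥(K ⊔ R)))) : ↥(K ⊔ R)) : G)
        ∈ Subgroup.normalizer (R : Set G) := by
      apply hk_mem_normalizer_of_conj_le R
      intro q hq
      have h1 := (Subgroup.mem_normalizer_iff.mp (n : ↥(Subgroup.normalizer
        ((R.subgroupOf (K ⊔ R) : Subgroup ↥(K ⊔ R)) : Set ↥(K ⊔ R)))).2
          (⟨q, hRX hq⟩ : ↥(K ⊔ R))).mp (Subgroup.mem_subgroupOf.mpr hq)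
      exact Subgroup.mem_subgroupOf.mp h1
    rw [Subgroup.mem_centralizer_iff]
    intro r hr
    exact fp_commute_of_normalizes K R hKcop hR (hmemK n) hkN hr
  have hnorm : ∀ c : ↥KC, (⟨((c : ↥(Subgroup.centralizer (R : Set G))) : G),
      hKX ((hKC c).mp c.2)⟩ : ↥(K ⊔ R)) ∈ Subgroup.normalizer
        ((R.subgroupOf (K ⊔ R) : Subgroup ↥(K ⊔ R)) : Set ↥(K ⊔ R)) := by
    intro c
    rw [Subgroup.mem_normalizer_iff]
    intro x
    rw [Subgroup.mem_subgroupOf, Subgroup.mem_subgroupOf]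
    show (x : G) ∈ R ↔ ((c : ↥(Subgroup.centralizer (R : Set G))) : G) * (x : G)
      * ((c : ↥(Subgroup.centralizer (R : Set G))) : G)⁻¹ ∈ R
    have hc := Subgroup.mem_centralizer_iff.mp (c : ↥(Subgroup.centralizer (R : Set G))).2
    constructor
    · intro hx
      have h1 := hc _ hx
      have e1 : ((c : ↥(Subgroup.centralizer (R : Set G))) : G) * (x : G)
          * ((c : ↥(Subgroup.centralizer (R : Set G))) : G)⁻¹ = (x : G) := by
        rw [← h1]; group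
      rw [e1]
      exact hx
    · intro hx
      have h1 := hc _ hx
      have e1 : (x : G) = ((c : ↥(Subgroup.centralizer (R : Set G))) : G) * (x : G)
          * ((c : ↥(Subgroup.centralizer (R : Set G))) : G)⁻¹ := by
        calc (x : G) = ((c : ↥(Subgroup.centralizer (R : Set G))) : G)⁻¹
            * (((c : ↥(Subgroup.centralizer (R : Set G))) : G) * (x : G)
              * ((c : ↥(Subgroup.centralizer (R : Set G))) : G)⁻¹
              * ((c : ↥(Subgroup.centralizer (R : Set G))) : G)) := by group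
          _ = ((c : ↥(Subgroup.centralizer (R : Set G))) : G)⁻¹
            * (((c : ↥(Subgroup.centralizer (R : Set G))) : G)
              * (((c : ↥(Subgroup.centralizer (R : Set G))) : G) * (x : G)
              * ((c : ↥(Subgroup.centralizer (R : Set G))) : G)⁻¹)) := by rw [h1]
          _ = ((c : ↥(Subgroup.centralizer (R : Set G))) : G) * (x : G)
              * ((c : ↥(Subgroup.centralizer (R : Set G))) : G)⁻¹ := by group
      rw [e1]
      exact hx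
  -- the isomorphism
  let τ : ↥((K.subgroupOf (K ⊔ R)).subgroupOf (Subgroup.normalizer
      ((R.subgroupOf (K ⊔ R) : Subgroup ↥(K ⊔ R)) : Set ↥(K ⊔ R)))) ≃* ↥KC :=
    { toFun := fun n => ⟨⟨_, hmemC n⟩, (hKC _).mpr (hmemK n)⟩
      invFun := fun c => ⟨⟨_, hnorm c⟩,
        Subgroup.mem_subgroupOf.mpr (Subgroup.mem_subgroupOf.mpr ((hKC c).mp c.2))⟩
      left_inv := fun n => Subtype.ext (Subtype.ext (Subtype.ext rfl))
      right_inv := fun c => Subtype.ext (Subtype.ext rfl)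
      map_mul' := fun a b => Subtype.ext (Subtype.ext rfl) }
  have key : ∀ μ : Cfsg.IrrCharacter ↥KC,
      ¬ Cfsg.MemLocalIdeal M (Helper81.omega (μ : ↥KC → ℂ)
        (fun k : ↥KC => Cfsg.blockCoeff ({θ} : Set (Cfsg.IrrCharacter K))
          ⟨((k : ↥(Subgroup.centralizer (R : Set G))) : G), (hKC k).mp k.2⟩)) →
      ¬ Cfsg.MemLocalIdeal M (Helper81.omega
        (Helper75.irrComp τ μ : ↥((K.subgroupOf (K ⊔ R)).subgroupOf (Subgroup.normalizer
          ((R.subgroupOf (K ⊔ R) : Subgroup ↥(K ⊔ R)) : Set ↥(K ⊔ R)))) → ℂ)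
        (fun n => Cfsg.blockCoeff
          ({Helper75.irrComp (Subgroup.subgroupOfEquivOfLe hKX) θ} :
            Set (Cfsg.IrrCharacter ↥(K.subgroupOf (K ⊔ R))))
          ⟨((n : ↥(Subgroup.normalizer
            ((R.subgroupOf (K ⊔ R) : Subgroup ↥(K ⊔ R)) : Set ↥(K ⊔ R)))) : ↥(K ⊔ R)),
            Subgroup.mem_subgroupOf.mp n.2⟩)) := by
    intro μ hμ
    have e : (fun n : ↥((K.subgroupOf (K ⊔ R)).subgroupOf (Subgroup.normalizer
          ((R.subgroupOf (K ⊔ R) : Subgroup ↥(K ⊔ R)) : Set ↥(K ⊔ R)))) =>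
        Cfsg.blockCoeff
          ({Helper75.irrComp (Subgroup.subgroupOfEquivOfLe hKX) θ} :
            Set (Cfsg.IrrCharacter ↥(K.subgroupOf (K ⊔ R))))
          ⟨((n : ↥(Subgroup.normalizer
            ((R.subgroupOf (K ⊔ R) : Subgroup ↥(K ⊔ R)) : Set ↥(K ⊔ R)))) : ↥(K ⊔ R)),
            Subgroup.mem_subgroupOf.mp n.2⟩)
        = fun n => (fun k : ↥KC => Cfsg.blockCoeff ({θ} : Set (Cfsg.IrrCharacter K))
          ⟨((k : ↥(Subgroup.centralizer (R : Set G))) : G), (hKC k).mp k.2⟩) (τ n) := by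
      funext n
      rw [← Set.image_singleton, Helper75.blockCoeff_image_irrComp]
      rfl
    rw [e]
    have h3 := hk_omega_comp τ (μ : ↥KC → ℂ)
      (fun k : ↥KC => Cfsg.blockCoeff ({θ} : Set (Cfsg.IrrCharacter K))
        ⟨((k : ↥(Subgroup.centralizer (R : Set G))) : G), (hKC k).mp k.2⟩)
    rw [← h3] at hμ
    exact hμ
  have h4 := fp_glauberman_unique hM (K.subgroupOf (K ⊔ R)) hKpX (R.subgroupOf (K ⊔ R)) hRpX hsup
    (Helper75.irrComp (Subgroup.subgroupOfEquivOfLe hKX) θ) hinvX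
    (Helper75.irrComp τ μ₁) (Helper75.irrComp τ μ₂) (key μ₁ h₁) (key μ₂ h₂)
  exact Helper75.irrComp_injective τ h4

theorem fp_omega_under (hM : Cfsg.IsPModular p M) (K : Subgroup G) [hK : K.Normal] [Fintype K]
    (θ : Cfsg.IrrCharacter K)
    (hinv : ∀ (g : G) (n : K), (θ : K → ℂ) ⟨g * n * g⁻¹, hK.conj_mem n n.2 g⟩ = (θ : K → ℂ) n)
    {B : Set (Cfsg.IrrCharacter G)}
    (hBdef : ∀ χ : Cfsg.IrrCharacter G, χ ∈ B ↔
      Cfsg.classInner (fun k : K => (χ : G → ℂ) k) (θ : K → ℂ) ≠ 0)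
    (R : Subgroup G) [Fintype ↥(Subgroup.centralizer (R : Set G))]
    (KC : Subgroup ↥(Subgroup.centralizer (R : Set G))) [Fintype ↥KC]
    (hKC : ∀ x : ↥(Subgroup.centralizer (R : Set G)), x ∈ KC ↔ (x : G) ∈ K)
    {f : Set (Cfsg.IrrCharacter ↥(Subgroup.centralizer (R : Set G)))}
    (hind : Cfsg.IsInducedBlock M (Subgroup.centralizer (R : Set G)) f B)
    (ξ : Cfsg.IrrCharacter ↥(Subgroup.centralizer (R : Set G))) (hξ : ξ ∈ f)
    (μ : Cfsg.IrrCharacter ↥KC)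
    (hne : Cfsg.classInner (fun k : ↥KC => (ξ : ↥(Subgroup.centralizer (R : Set G)) → ℂ) k)
      (μ : ↥KC → ℂ) ≠ 0) :
    ¬ Cfsg.MemLocalIdeal M (Helper81.omega (μ : ↥KC → ℂ)
      (fun k : ↥KC => Cfsg.blockCoeff ({θ} : Set (Cfsg.IrrCharacter K))
        ⟨((k : ↥(Subgroup.centralizer (R : Set G))) : G), (hKC k).mp k.2⟩)) := by
  classical
  have hMm := hM.2.1
  have hB := hind.2.1
  have hconj : ∀ g : G, Helper16.irrConj K g θ = θ := by
    intro g
    apply Subtype.ext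
    funext k
    rw [Helper16.irrConj_apply]
    have h1 := hinv g⁻¹ k
    rw [← h1]
    exact congrArg (θ : K → ℂ) (Subtype.ext (by simp))
  have hinv' : ∀ g : G, ∀ θ' ∈ ({θ} : Set (Cfsg.IrrCharacter K)),
      Helper16.irrConj K g θ' ∈ ({θ} : Set (Cfsg.IrrCharacter K)) := by
    intro g θ' hθ'
    rw [Set.mem_singleton_iff] at hθ' ⊢
    rw [hθ', hconj g]
  have hBeq : B = Helper16.fongCover K ({θ} : Set (Cfsg.IrrCharacter K)) := by
    ext χ
    rw [hBdef]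
    constructor
    · intro h
      exact ⟨θ, rfl, h⟩
    · rintro ⟨θ', hθ', h⟩
      rw [Set.mem_singleton_iff] at hθ'
      rw [← hθ']
      exact h
  have hcoeff : Cfsg.blockCoeff B
      = Helper16.ext0 K (Cfsg.blockCoeff ({θ} : Set (Cfsg.IrrCharacter K))) := by
    rw [hBeq]
    exact Helper16.fong_blockCoeff_cover K hinv'
  obtain ⟨χ, hχ⟩ := Helper16.exists_mem_of_isPBlock hMm hB
  have h1 := Helper16.omega_res_sub_memLocalIdeal hMm _ hind hξ hχ
    (Helper77.blockCoeff_isClassFunction B) (Helper77.blockCoeff_memLocalRing hMm hB)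
  rw [Helper77.omega_blockCoeff_of_mem hχ] at h1
  have ha : Cfsg.IsClassFunction ↥(Subgroup.centralizer (R : Set G))
      (fun c : ↥(Subgroup.centralizer (R : Set G)) => Cfsg.blockCoeff B (c : G)) :=
    Helper16.isClassFunction_res (Helper77.blockCoeff_isClassFunction B) _
  have hsupp : ∀ c : ↥(Subgroup.centralizer (R : Set G)), c ∉ KC →
      Cfsg.blockCoeff B (c : G) = 0 := by
    intro c hc
    rw [hcoeff]
    simp only [Helper16.ext0]
    rw [dif_neg]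
    exact fun h' => hc ((hKC c).mpr h')
  have h3 := Helper76.omega_eq_omega_res_of_constituent KC ha hsupp ξ μ hne
  have e1 : (fun n : ↥KC => Cfsg.blockCoeff B
        (((n : ↥(Subgroup.centralizer (R : Set G))) : G)))
      = (fun k : ↥KC => Cfsg.blockCoeff ({θ} : Set (Cfsg.IrrCharacter K))
        ⟨((k : ↥(Subgroup.centralizer (R : Set G))) : G), (hKC k).mp k.2⟩) := by
    funext n
    rw [hcoeff, Helper16.ext0_apply_mem K _ ((hKC n).mp n.2)]
  rw [e1] at h3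
  rw [← h3]
  intro hcon
  have h5 := Helper77.memLocalIdeal_sub hMm hcon h1
  rw [sub_sub_cancel] at h5
  exact Helper77.not_memLocalIdeal_one hMm h5

/-- **Uniqueness.**  Two blocks of `C_G(R)` inducing `Irr(G | θ)` coincide, provided
`C_G(R) / C_K(R)` has a normal `p`-subgroup containing its centralizer. -/
theorem fp_unique (hM : Cfsg.IsPModular p M) (K : Subgroup G) [hK : K.Normal] [Fintype K]
    (hKp : ¬ p ∣ Nat.card K) (θ : Cfsg.IrrCharacter K)
    (hinv : ∀ (g : G) (n : K), (θ : K → ℂ) ⟨g * n * g⁻¹, hK.conj_mem n n.2 g⟩ = (θ : K → ℂ) n)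
    {B : Set (Cfsg.IrrCharacter G)}
    (hBdef : ∀ χ : Cfsg.IrrCharacter G, χ ∈ B ↔
      Cfsg.classInner (fun k : K => (χ : G → ℂ) k) (θ : K → ℂ) ≠ 0)
    (R : Subgroup G) (hR : IsPGroup p R) [Fintype ↥(Subgroup.centralizer (R : Set G))]
    (KC : Subgroup ↥(Subgroup.centralizer (R : Set G))) [hKCn : KC.Normal] [Fintype ↥KC]
    (hKC : ∀ x : ↥(Subgroup.centralizer (R : Set G)), x ∈ KC ↔ (x : G) ∈ K)
    (PC : Subgroup (↥(Subgroup.centralizer (R : Set G)) ⧸ KC)) [PC.Normal] (hPC : IsPGroup p PC)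
    (hCC : Subgroup.centralizer (PC : Set (↥(Subgroup.centralizer (R : Set G)) ⧸ KC)) ≤ PC)
    {f₁ f₂ : Set (Cfsg.IrrCharacter ↥(Subgroup.centralizer (R : Set G)))}
    (hind₁ : Cfsg.IsInducedBlock M (Subgroup.centralizer (R : Set G)) f₁ B)
    (hind₂ : Cfsg.IsInducedBlock M (Subgroup.centralizer (R : Set G)) f₂ B) : f₁ = f₂ := by
  classical
  have hMm := hM.2.1
  obtain ⟨ξ₁, hξ₁⟩ := Helper16.exists_mem_of_isPBlock hMm hind₁.1
  obtain ⟨ξ₂, hξ₂⟩ := Helper16.exists_mem_of_isPBlock hMm hind₂.1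
  have hres : ∀ ξ : Cfsg.IrrCharacter ↥(Subgroup.centralizer (R : Set G)),
      ∃ μ : Cfsg.IrrCharacter ↥KC, Cfsg.classInner
        (fun k : ↥KC => (ξ : ↥(Subgroup.centralizer (R : Set G)) → ℂ) k) (μ : ↥KC → ℂ) ≠ 0 := by
    intro ξ
    have hne0 : (fun n : ↥KC => (ξ : ↥(Subgroup.centralizer (R : Set G)) → ℂ) n) ≠ 0 := by
      intro h0
      have h1 := congrFun h0 1
      exact Helper81.irr_one_ne_zero ξ (by simpa using h1)
    exact Helper15.exists_constituent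
      (Helper16.isClassFunction_res (Helper81.irr_isClassFunction ξ) KC) hne0
  obtain ⟨μ₁, hμ₁⟩ := hres ξ₁
  obtain ⟨μ₂, hμ₂⟩ := hres ξ₂
  have hu₁ := fp_omega_under hM K θ hinv hBdef R KC hKC hind₁ ξ₁ hξ₁ μ₁ hμ₁
  have hu₂ := fp_omega_under hM K θ hinv hBdef R KC hKC hind₂ ξ₂ hξ₂ μ₂ hμ₂
  have hμ := fp_unique_under hM K hKp θ hinv R hR KC hKC μ₁ μ₂ hu₁ hu₂
  subst hμ
  have hinvμ : ∀ (c : ↥(Subgroup.centralizer (R : Set G))) (n : ↥KC),
      (μ₁ : ↥KC → ℂ) ⟨c * n * c⁻¹, hKCn.conj_mem n n.2 c⟩ = (μ₁ : ↥KC → ℂ) n := by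
    intro c n
    have h1 := Helper81.classInner_conjNormal KC (Helper81.irr_isClassFunction ξ₁) c
      (μ₁ : ↥KC → ℂ)
    have h2 : Cfsg.classInner
        (fun k : ↥KC => (ξ₁ : ↥(Subgroup.centralizer (R : Set G)) → ℂ) k)
        (Helper81.irrTwist (MulAut.conjNormal c) μ₁ : ↥KC → ℂ) ≠ 0 := by
      show Cfsg.classInner
        (fun k : ↥KC => (ξ₁ : ↥(Subgroup.centralizer (R : Set G)) → ℂ) k)
        (fun n => (μ₁ : ↥KC → ℂ) (MulAut.conjNormal c n)) ≠ 0
      rw [h1]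
      exact hμ₁
    have hu := fp_omega_under hM K θ hinv hBdef R KC hKC hind₁ ξ₁ hξ₁ _ h2
    have e := fp_unique_under hM K hKp θ hinv R hR KC hKC _ μ₁ hu hu₁
    have h3 := congrArg (fun ν : Cfsg.IrrCharacter ↥KC => (ν : ↥KC → ℂ) n) e
    exact h3
  have hKCp : ¬ p ∣ Nat.card ↥KC := by
    intro h
    apply hKp
    refine dvd_trans h ?_
    let φ : ↥KC →* ↥K :=
      { toFun := fun k => ⟨((k : ↥(Subgroup.centralizer (R : Set G))) : G), (hKC k).mp k.2⟩
        map_one' := rfl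
        map_mul' := fun a b => rfl }
    apply Subgroup.card_dvd_of_injective φ
    intro a b hab
    apply Subtype.ext
    apply Subtype.ext
    exact congrArg (fun z : K => (z : G)) hab
  have hs := Helper79.fong_sameBlock_over hM KC hKCp PC hPC hCC μ₁ hinvμ ξ₁ ξ₂ hμ₁ hμ₂
  rw [Helper16.eq_blockOf_of_mem hMm hind₁.1 hξ₁, Helper16.eq_blockOf_of_mem hMm hind₂.1 hξ₂]
  exact (Helper16.blockOf_eq_of_mem hMm hs).symm

end Cfsg.Agent.Helper73
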