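import Mathlib

/-!
# CALL S0899 (helper9), piece B2b
-/

set_option autoImplicit false

namespace Cfsg.Agent.Helper73

universe u

variable {G : Type u} [Group G] [Finite G] {p : ℕ} [Fact p.Prime]

open scoped Pointwise in
/-- B2b: (from the conclusions of MIN2, F2, TR) if `P` is not normal and `commutator G ≠ ⊤`,
then `P` meets the commutator subgroup trivially. -/
theorem ftb_B2b
    (hmin2 : ∀ K : Subgroup G, K ≠ ⊤ → ∀ (P₁ P₂ : Sylow p G) (x y : G), x ∈ K → y ∈ K →
      x ∈ (P₁ : Subgroup G) → y ∈ (P₂ : Subgroup G) →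
      ∃ P₀ : Sylow p G, x ∈ (P₀ : Subgroup G) ∧ y ∈ (P₀ : Subgroup G))
    (hf2 : ∀ P₁ P₂ : Sylow p G, P₁ ≠ P₂ → ∀ x : G, x ∈ (P₁ : Subgroup G) →
      x ∈ (P₂ : Subgroup G) → x ∈ Subgroup.center G)
    (P : Sylow p G)
    (htr : ∀ z : G, z ∈ (P : Subgroup G) → z ∈ Subgroup.center G → z ∈ commutator G → z = 1)
    (hP : ¬ (P : Subgroup G).Normal) (hC : commutator G ≠ ⊤)
    (x : G) (hxP : x ∈ (P : Subgroup G)) (hxC : x ∈ commutator G) : x = 1 := by
  obtain ⟨a, ha⟩ : ∃ a : G, a • P ≠ P := by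
    by_contra hcon
    push Not at hcon
    apply hP
    rw [← Subgroup.normalizer_eq_top_iff, eq_top_iff]
    intro g _
    exact Sylow.smul_eq_iff_mem_normalizer.mp (hcon g)
  have hx'aP : a * x * a⁻¹ ∈ ((a • P : Sylow p G) : Subgroup G) := by
    rw [Sylow.smul_def, Sylow.pointwise_smul_def]
    have := Subgroup.smul_mem_pointwise_smul x (MulAut.conj a) (P : Subgroup G) hxP
    simpa [MulAut.smul_def] using this
  have hx'C : a * x * a⁻¹ ∈ commutator G :=
    (inferInstance : (commutator G).Normal).conj_mem x hxC a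
  obtain ⟨P₀, hxP₀, hx'P₀⟩ :=
    hmin2 (commutator G) hC P (a • P) x (a * x * a⁻¹) hxC hx'C hxP hx'aP
  have hxZ : x ∈ Subgroup.center G := by
    by_cases h0 : P₀ = P
    · have hx'P : a * x * a⁻¹ ∈ (P : Subgroup G) := h0 ▸ hx'P₀
      have hx'Z := hf2 (a • P) P ha (a * x * a⁻¹) hx'aP hx'P
      have h1 := Subgroup.mem_center_iff.mp hx'Z a
      have h2 : a * x * a⁻¹ = x := by
        have h3 : a * (a * x * a⁻¹) = a * x := by
          rw [h1]
          group
        exact mul_left_cancel h3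
      rw [h2] at hx'Z
      exact hx'Z
    · exact hf2 P P₀ (fun h => h0 h.symm) x hxP hxP₀
  exact htr x hxP hxZ hxC

end Cfsg.Agent.Helper73
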