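import Mathlib

/-!
# CALL S0899 (helper9), piece B2c
-/

set_option autoImplicit false

namespace Cfsg.Agent.Helper73

universe u

variable {G : Type u} [Group G] [Finite G] {p : ℕ} [Fact p.Prime]

open scoped Pointwise in
/-- B2c: if `P` meets the commutator subgroup trivially then `p ∤ |G'|`. -/
theorem ftb_B2c (P : Sylow p G)
    (h : ∀ x : G, x ∈ (P : Subgroup G) → x ∈ commutator G → x = 1) :
    ¬ p ∣ Nat.card (commutator G) := by
  intro hdvd
  have hp : p.Prime := Fact.out
  obtain ⟨y, hy⟩ := exists_prime_orderOf_dvd_card' p hdvd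
  have hyG : orderOf (y : G) = p := by rw [Subgroup.orderOf_coe]; exact hy
  have hpg : IsPGroup p (Subgroup.zpowers (y : G)) := by
    apply IsPGroup.of_card (n := 1)
    rw [Nat.card_zpowers, hyG, pow_one]
  obtain ⟨Q, hQ⟩ := hpg.exists_le_sylow
  obtain ⟨g, hg⟩ := MulAction.exists_smul_eq G P Q
  have hyQ : (y : G) ∈ (Q : Subgroup G) := hQ (Subgroup.mem_zpowers _)
  have hx : g⁻¹ * (y : G) * g ∈ (P : Subgroup G) := by
    have h1 : (y : G) ∈ ((g • P : Sylow p G) : Subgroup G) := by rw [hg]; exact hyQ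
    rw [Sylow.smul_def, Sylow.pointwise_smul_def, Subgroup.mem_pointwise_smul_iff_inv_smul_mem] at h1
    simpa [MulAut.smul_def] using h1
  have hxC : g⁻¹ * (y : G) * g ∈ commutator G := by
    have h2 := (inferInstance : (commutator G).Normal).conj_mem (y : G) y.2 g⁻¹
    simpa using h2
  have h1 := h _ hx hxC
  have hy1 : (y : G) = 1 := by
    have h3 : (y : G) = g * (g⁻¹ * (y : G) * g) * g⁻¹ := by group
    rw [h3, h1]
    group
  rw [hy1, orderOf_one] at hyG
  exact hp.one_lt.ne hyG

end Cfsg.Agent.Helper73
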