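import Mathlib

/-!
# CALL S0899 (helper9), piece B2d
-/

set_option autoImplicit false

namespace Cfsg.Agent.Helper73

universe u

variable {G : Type u} [Group G] [Finite G] {p : ℕ} [Fact p.Prime]

/-- B2d: if `G' ⊔ P = ⊤` then the index of `G'` is a power of `p`. -/
theorem ftb_B2d (P : Sylow p G) (h : commutator G ⊔ (P : Subgroup G) = ⊤) :
    ∃ m : ℕ, (commutator G).index = p ^ m := by
  have hp : p.Prime := Fact.out
  have h1 : (commutator G).index = (commutator G).relIndex (P : Subgroup G) := by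
    rw [← Subgroup.relIndex_top_right, ← h, Subgroup.relIndex_sup_left]
  obtain ⟨n, hn⟩ := IsPGroup.iff_card.mp P.isPGroup'
  have h2 : (commutator G).relIndex (P : Subgroup G) ∣ p ^ n := by
    rw [← hn]
    exact Subgroup.relIndex_dvd_card _ _
  obtain ⟨m, -, hm⟩ := (Nat.dvd_prime_pow hp).mp h2
  exact ⟨m, by rw [h1, hm]⟩

end Cfsg.Agent.Helper73
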