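import Mathlib
import Cfsg.Prelude.Def_Local

/-!
# CALL S0899 (helper9), piece B2e
-/

set_option autoImplicit false

namespace Cfsg.Agent.Helper73

open Cfsg

universe u

variable {G : Type u} [Group G] [Finite G] {p : ℕ} [Fact p.Prime]

/-- B2e: `G` is `p`-solvable as soon as `p ∤ |G'|` and `|G : G'|` is a power of `p`
(chain `![⊥, commutator G, ⊤]`). -/
theorem ftb_B2e (h1 : ¬ p ∣ Nat.card (commutator G))
    (h2 : ∃ m : ℕ, (commutator G).index = p ^ m) : IsPSolvable p G := by
  have hp : p.Prime := Fact.out
  refine ⟨2, ![⊥, commutator G, ⊤], rfl, rfl, ?_, ?_, ?_⟩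
  · rw [Fin.monotone_iff_le_succ]
    intro i
    fin_cases i
    · exact bot_le
    · exact le_top
  · intro i
    fin_cases i
    · show (⊥ : Subgroup G).Normal
      infer_instance
    · show (commutator G).Normal
      infer_instance
    · show (⊤ : Subgroup G).Normal
      infer_instance
  · intro i
    fin_cases i
    · right
      show ((⊥ : Subgroup G).relIndex (commutator G)).Coprime p
      rw [Subgroup.relIndex_bot_left]
      exact ((Nat.Prime.coprime_iff_not_dvd hp).mpr h1).symm
    · left
      obtain ⟨m, hm⟩ := h2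
      refine ⟨m, ?_⟩
      show (commutator G).relIndex (⊤ : Subgroup G) = p ^ m
      rw [Subgroup.relIndex_top_right, hm]

end Cfsg.Agent.Helper73
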