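import Mathlib

/-!
# CALL S0899 (helper9), piece TR
-/

set_option autoImplicit false

namespace Cfsg.Agent.Helper73

universe u

variable {G : Type u} [Group G] [Finite G] {p : ℕ} [Fact p.Prime]

open scoped IsMulCommutative in
/-- TR: transfer. A central element of an abelian Sylow `p`-subgroup lying in the commutator
subgroup is trivial. -/
theorem ftb_TR (P : Sylow p G)
    (hab : ∀ a ∈ (P : Subgroup G), ∀ b ∈ (P : Subgroup G), a * b = b * a)
    (z : G) (hzP : z ∈ (P : Subgroup G)) (hzZ : z ∈ Subgroup.center G)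
    (hzC : z ∈ commutator G) : z = 1 := by
  have hp : p.Prime := Fact.out
  have : IsMulCommutative (P : Subgroup G) := ⟨⟨fun a b => Subtype.ext (hab a a.2 b b.2)⟩⟩
  have key : ∀ (k : ℕ) (g₀ : G), g₀⁻¹ * z ^ k * g₀ ∈ (P : Subgroup G) →
      g₀⁻¹ * z ^ k * g₀ = z ^ k := by
    intro k g₀ _
    have hzk : z ^ k ∈ Subgroup.center G := Subgroup.pow_mem _ hzZ k
    have h1 := Subgroup.mem_center_iff.mp hzk g₀
    rw [mul_assoc, ← h1, inv_mul_cancel_left]
  have h1 := MonoidHom.transfer_eq_pow (MonoidHom.id (P : Subgroup G)) z key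
  have hker : MonoidHom.transfer (MonoidHom.id (P : Subgroup G)) z = 1 :=
    MonoidHom.mem_ker.mp (Abelianization.commutator_subset_ker _ hzC)
  rw [hker] at h1
  have h2 : z ^ (P : Subgroup G).index = 1 := by
    have := congrArg Subtype.val h1
    simpa using this.symm
  have h3 : (⟨z, hzP⟩ : (P : Subgroup G)) ^ (P : Subgroup G).index = 1 ^ (P : Subgroup G).index := by
    apply Subtype.ext
    simp [h2]
  have h4 := (P.2.powEquiv' P.not_dvd_index).injective h3
  exact congrArg Subtype.val h4

end Cfsg.Agent.Helper73
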