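/-
Helper library of seat helper73: the degree of the field generated over ℚ by finitely many
algebraic complex numbers equals the size of the orbit of the tuple under the field automorphisms
of ℂ.
-/
import Mathlib
import Cfsg.Agent.Helper75.Rational

set_option autoImplicit false

namespace Cfsg.Agent.Helper73

open IntermediateField

/-- Every `ℚ`-algebra homomorphism from an algebraic subfield of `ℂ` into `ℂ` extends to a field
automorphism of `ℂ`. -/
theorem fo_exists_ringEquiv_extending (K : IntermediateField ℚ ℂ) [Algebra.IsAlgebraic ℚ K]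
    (τ : K →ₐ[ℚ] ℂ) : ∃ σ : ℂ ≃+* ℂ, ∀ c : K, σ (c : ℂ) = τ c := by
  let S : Set ℂ := {x | IsIntegral ℚ x}
  have hL : K ≤ adjoin ℚ S := by
    intro c hc
    apply subset_adjoin ℚ S
    have h1 : IsIntegral ℚ (⟨c, hc⟩ : K) := Algebra.IsIntegral.isIntegral _
    exact h1.map K.val
  obtain ⟨φ, hφ⟩ := exists_algHom_adjoin_of_splits (F := ℚ) (E := ℂ) (K := ℂ) (S := S)
    (fun s hs => ⟨hs, IsAlgClosed.splits _⟩) τ hL
  have halg : Algebra.IsAlgebraic ℚ (adjoin ℚ S) :=
    isAlgebraic_adjoin (fun s hs => hs)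
  have hmem : ∀ a : adjoin ℚ S, φ a ∈ adjoin ℚ S := by
    intro a
    apply subset_adjoin ℚ S
    have h1 : IsIntegral ℚ a := Algebra.IsIntegral.isIntegral _
    exact h1.map φ
  let φ' : adjoin ℚ S →ₐ[ℚ] adjoin ℚ S := φ.codRestrict (adjoin ℚ S).toSubalgebra hmem
  have hbij : Function.Bijective φ' := Algebra.IsAlgebraic.algHom_bijective φ'
  let σ₀ : adjoin ℚ S ≃+* adjoin ℚ S := (AlgEquiv.ofBijective φ' hbij).toRingEquiv
  obtain ⟨σ, hσ⟩ := Cfsg.Agent.Helper75.exists_ringEquiv_extending_field (K := adjoin ℚ S) σ₀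
  refine ⟨σ, fun c => ?_⟩
  have h1 := hσ (inclusion hL c)
  have h2 : algebraMap (adjoin ℚ S) ℂ (inclusion hL c) = (c : ℂ) := rfl
  have h3 : algebraMap (adjoin ℚ S) ℂ (σ₀ (inclusion hL c)) = φ (inclusion hL c) := rfl
  rw [h2, h3] at h1
  rw [h1, ← hφ]
  rfl

/-- The degree over `ℚ` of the field generated by the values of a function with algebraic values
equals the number of its conjugates under the field automorphisms of `ℂ`. -/
theorem fo_finrank_eq_card_orbit {X : Type*} [Finite X] (θ : X → ℂ)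
    (hθ : ∀ x, IsIntegral ℚ (θ x)) :
    Module.finrank ℚ (adjoin ℚ (Set.range θ)) =
      Nat.card (Set.range (fun σ : ℂ ≃+* ℂ => fun x => σ (θ x))) := by
  have hfd : FiniteDimensional ℚ (adjoin ℚ (Set.range θ)) :=
    finiteDimensional_adjoin (by rintro _ ⟨x, rfl⟩; exact hθ x)
  have halg : Algebra.IsAlgebraic ℚ (adjoin ℚ (Set.range θ)) := Algebra.IsAlgebraic.of_finite _ _
  have hmem : ∀ x, θ x ∈ adjoin ℚ (Set.range θ) := fun x => subset_adjoin ℚ _ ⟨x, rfl⟩
  rw [← AlgHom.natCard_of_splits ℚ (adjoin ℚ (Set.range θ)) ℂ (fun _ => IsAlgClosed.splits _)]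
  let Ψ : (adjoin ℚ (Set.range θ) →ₐ[ℚ] ℂ) →
      Set.range (fun σ : ℂ ≃+* ℂ => fun x => σ (θ x)) := fun τ =>
    ⟨fun x => τ ⟨θ x, hmem x⟩, by
      obtain ⟨σ, hσ⟩ := fo_exists_ringEquiv_extending _ τ
      exact ⟨σ, funext fun x => hσ ⟨θ x, hmem x⟩⟩⟩
  apply Nat.card_congr (Equiv.ofBijective Ψ ⟨?_, ?_⟩)
  · intro τ₁ τ₂ h
    apply adjoin_algHom_ext
    rintro _ ⟨x, rfl⟩
    exact congrFun (congrArg Subtype.val h) x
  · rintro ⟨_, σ, rfl⟩
    refine ⟨(σ.toRingHom.toRatAlgHom).comp (adjoin ℚ (Set.range θ)).val, ?_⟩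
    apply Subtype.ext
    funext x
    rfl

end Cfsg.Agent.Helper73
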