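import Cfsg.Agent.Helper16.ExtFMT
import Cfsg.Agent.Helper16.FMT
import Cfsg.Agent.Helper75.BlockTransport
import Cfsg.Agent.Helper76.Cover2
import Cfsg.Prelude.Def_BlockLocal

/-!
# Harris–Knörr: transport tools

* `hk_classInner_comp`, `hk_omega_comp`: inner products and `Ω` along a group isomorphism.
* `hk_omega_of_incl`: `Ω_ψ(a) = Ω_ξ(a ∘ φ)` for an injective homomorphism `φ : K → H`, a class
  function `a` of `H` supported on the image of `φ`, and `ξ` a constituent of `ψ ∘ φ`.
* `hk_inducedIn_eq`: the induced central character computed inside a subgroup `N`, in terms of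
  the induced central character of the ambient group `N`.
* `hk_isInducedBlock_of_in`, `hk_in_of_isInducedBlock`: the two forms of block induction inside
  `N`.
-/

set_option autoImplicit false
open Cfsg
open scoped ComplexConjugate

namespace Cfsg.Agent.Helper73

universe u v

section transport

variable {H : Type u} {K : Type v} [Group H] [Group K] [Fintype H] [Fintype K]

theorem hk_classInner_comp (σ : H ≃* K) (φ ψ : K → ℂ) :
    Cfsg.classInner (fun h => φ (σ h)) (fun h => ψ (σ h)) = Cfsg.classInner φ ψ := by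
  unfold Cfsg.classInner
  rw [Nat.card_congr σ.toEquiv]
  congr 1
  exact Equiv.sum_comp σ.toEquiv (fun k => φ k * conj (ψ k))

theorem hk_omega_comp (σ : H ≃* K) (ξ a : K → ℂ) :
    Helper81.omega (fun h => ξ (σ h)) (fun h => a (σ h)) = Helper81.omega ξ a := by
  unfold Helper81.omega
  show (∑ g, a (σ g) * ξ (σ g)) / ξ (σ 1) = _
  rw [map_one]
  congr 1
  exact Equiv.sum_comp σ.toEquiv (fun k => a k * ξ k)

/-- `Ω_ψ(a) = Ω_ξ(a ∘ φ)` for an injective homomorphism `φ : K → H`, a class function `a` of `H`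
supported on the image of `φ`, and `ξ` a constituent of `ψ ∘ φ`. -/
theorem hk_omega_of_incl (φ : K →* H) (hφ : Function.Injective φ) {a : H → ℂ}
    (ha : Cfsg.IsClassFunction H a) (hsupp : ∀ h : H, h ∉ φ.range → a h = 0)
    (ψ : Cfsg.IrrCharacter H) (ξ : Cfsg.IrrCharacter K)
    (hne : Cfsg.classInner (fun k => (ψ : H → ℂ) (φ k)) (ξ : K → ℂ) ≠ 0) :
    Helper81.omega (ψ : H → ℂ) a = Helper81.omega (ξ : K → ℂ) (fun k => a (φ k)) := by
  classical
  let σ : K ≃* φ.range := MonoidHom.ofInjective hφ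
  have : Fintype φ.range := Fintype.ofFinite _
  have h1 : Cfsg.classInner (fun r : φ.range => (ψ : H → ℂ) r)
      (Helper75.irrComp σ.symm ξ : φ.range → ℂ) ≠ 0 := by
    rw [← hk_classInner_comp σ]
    have e1 : (fun k : K => (Helper75.irrComp σ.symm ξ : φ.range → ℂ) (σ k)) = (ξ : K → ℂ) := by
      funext k
      rw [Helper75.irrComp_apply, MulEquiv.symm_apply_apply]
    rw [e1]
    exact hne
  have h2 := Helper76.omega_eq_omega_res_of_constituent φ.range ha hsupp ψ
    (Helper75.irrComp σ.symm ξ) h1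
  rw [h2, ← hk_omega_comp σ]
  have e1 : (fun k : K => (Helper75.irrComp σ.symm ξ : φ.range → ℂ) (σ k)) = (ξ : K → ℂ) := by
    funext k
    rw [Helper75.irrComp_apply, MulEquiv.symm_apply_apply]
  rw [e1]
  rfl

end transport

section induced

variable {G : Type u} [Group G]

/-- The induced central character computed inside the subgroup `N`, in terms of the induced
central character for the ambient group `N`. -/
theorem hk_inducedIn_eq (N K : Subgroup G) (hKN : K ≤ N) [Finite G] (ξ : K → ℂ) (n : N) :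
    Cfsg.inducedCentralCharIn N K ξ (n : G)
      = Cfsg.inducedCentralChar (K.subgroupOf N)
          (fun k => ξ (Subgroup.subgroupOfEquivOfLe hKN k)) n := by
  classical
  unfold Cfsg.inducedCentralCharIn Cfsg.inducedCentralChar
  rw [finsum_mem_eq_finite_toFinset_sum _ (Set.toFinite _),
    finsum_mem_eq_finite_toFinset_sum _ (Set.toFinite _)]
  symm
  refine Finset.sum_equiv (Subgroup.subgroupOfEquivOfLe hKN).toEquiv ?_ ?_
  · intro h
    simp only [Set.Finite.mem_toFinset, Set.mem_ofPred_eq, MulEquiv.toEquiv_eq_coe,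
      MulEquiv.coe_toEquiv]
    rw [isConj_iff]
    constructor
    · rintro ⟨c, hc⟩
      refine ⟨c⁻¹, ?_⟩
      have h1 : ((Subgroup.subgroupOfEquivOfLe hKN h : K) : G) = ((h : N) : G) := rfl
      rw [h1, ← hc]
      simp [mul_assoc]
    · rintro ⟨x, hx⟩
      refine ⟨x⁻¹, ?_⟩
      apply Subtype.ext
      have h1 : ((Subgroup.subgroupOfEquivOfLe hKN h : K) : G) = ((h : N) : G) := rfl
      rw [h1] at hx
      simp only [Subgroup.coe_mul, Subgroup.coe_inv, inv_inv]
      rw [← hx]
      group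
  · intro h _
    simp only [MulEquiv.toEquiv_eq_coe, MulEquiv.coe_toEquiv, map_one]

variable [Fintype G]

theorem hk_isInducedBlock_of_in {M : Ideal Cfsg.AlgInt} (N K : Subgroup G) (hKN : K ≤ N)
    {e : Set (Cfsg.IrrCharacter K)} {d : Set (Cfsg.IrrCharacter N)}
    (h : Cfsg.IsInducedBlockIn M N K e d) :
    Cfsg.IsInducedBlock M (K.subgroupOf N)
      (Helper75.irrComp (Subgroup.subgroupOfEquivOfLe hKN) '' e) d := by
  refine ⟨Helper75.isPBlock_image_irrComp _ h.1, h.2.1, ?_⟩
  rintro ξ' ⟨ξ, hξ, rfl⟩ χ hχ n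
  have h1 := h.2.2 ξ hξ χ hχ n
  rw [hk_inducedIn_eq N K hKN] at h1
  exact h1

theorem hk_in_of_isInducedBlock {M : Ideal Cfsg.AlgInt} (N K : Subgroup G) (hKN : K ≤ N)
    {e : Set (Cfsg.IrrCharacter K)} (he : Cfsg.IsPBlock M e) {d : Set (Cfsg.IrrCharacter N)}
    (h : Cfsg.IsInducedBlock M (K.subgroupOf N)
      (Helper75.irrComp (Subgroup.subgroupOfEquivOfLe hKN) '' e) d) :
    Cfsg.IsInducedBlockIn M N K e d := by
  refine ⟨he, h.2.1, ?_⟩
  intro ξ hξ χ hχ n
  rw [hk_inducedIn_eq N K hKN]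
  exact h.2.2 _ ⟨ξ, hξ, rfl⟩ χ hχ n

end induced

end Cfsg.Agent.Helper73
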