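import Cfsg.Agent.Helper73.HKBasic
import Cfsg.Agent.Helper81.BlockNormal
import Cfsg.Agent.Helper15.CharInner

/-!
# Harris–Knörr: induced blocks cover induced blocks

`hk_cover_of_induced`: let `N ⊴ G`, `H ≤ G` and `K = H ∩ N`.  If the block `c` of `H` covers the
block `e` of `K`, `c` induces the block `B` of `G`, and `e` induces (inside `N`) the block `d` of
`N`, then `B` covers `d`.
-/

set_option autoImplicit false
open Cfsg
open scoped ComplexConjugate

namespace Cfsg.Agent.Helper73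

universe u

variable {G : Type u} [Group G] [Fintype G]

omit [Fintype G] in
/-- A character of `G` lying over a member of the orbit of the block `d` lies over a member of
`d`. -/
theorem hk_over_of_blockOrbit (N : Subgroup G) [N.Normal] [Fintype N]
    {d : Set (Cfsg.IrrCharacter N)} (χ : Cfsg.IrrCharacter G) (θ' : Cfsg.IrrCharacter N)
    (hθ' : θ' ∈ Helper76.blockOrbit N d)
    (hne : Cfsg.classInner (fun n : N => (χ : G → ℂ) n) (θ' : N → ℂ) ≠ 0) :
    ∃ θ ∈ d, Cfsg.classInner (fun n : N => (χ : G → ℂ) n) (θ : N → ℂ) ≠ 0 := by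
  obtain ⟨g, θ, hθ, rfl⟩ := hθ'
  refine ⟨θ, hθ, ?_⟩
  have h1 := Helper81.classInner_conjNormal N (Helper81.irr_isClassFunction χ) g (θ : N → ℂ)
  rw [← h1]
  exact hne

/-- **Induced blocks cover induced blocks.** -/
theorem hk_cover_of_induced {M : Ideal Cfsg.AlgInt} (hM : M.IsMaximal) (N : Subgroup G)
    [N.Normal] [Fintype N] (H K : Subgroup G) (hKH : K ≤ H) (hKN : K ≤ N)
    (hHN : ∀ h ∈ H, h ∈ N → h ∈ K) [Fintype H] [Fintype K]
    {c : Set (Cfsg.IrrCharacter H)} {B : Set (Cfsg.IrrCharacter G)}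
    (hind : Cfsg.IsInducedBlock M H c B)
    {e : Set (Cfsg.IrrCharacter K)} {d : Set (Cfsg.IrrCharacter N)}
    (hed : Cfsg.IsInducedBlockIn M N K e d)
    (hcov : ∃ ψ ∈ c, ∃ ξ ∈ e,
      Cfsg.classInner (fun l : K => (ψ : H → ℂ) (Subgroup.inclusion hKH l)) (ξ : K → ℂ) ≠ 0)
    (χ : Cfsg.IrrCharacter G) (hχ : χ ∈ B) :
    ∃ θ ∈ d, Cfsg.classInner (fun n : N => (χ : G → ℂ) n) (θ : N → ℂ) ≠ 0 := by
  classical
  obtain ⟨ψ, hψ, ξ, hξ, hne⟩ := hcov
  have hd := hed.2.1
  obtain ⟨θ₀, hθ₀⟩ := Helper16.exists_mem_of_isPBlock hM hd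
  have hcl := Helper76.orbitCoeff_isClassFunction N d
  have hloc := Helper76.orbitCoeff_memLocalRing hM N hd
  have hsuppN : ∀ g : G, g ∉ N → Helper76.orbitCoeff N d g = 0 :=
    fun g hg => Helper76.orbitCoeff_of_not_mem N d hg
  -- `Ω_ψ(A|_H) ≡ Ω_χ(A)`
  have h1 := Helper16.omega_res_sub_memLocalIdeal hM H hind hψ hχ hcl hloc
  -- `Ω_ψ(A|_H) = Ω_ξ(A|_K)`
  have hsupp : ∀ h : H, h ∉ (Subgroup.inclusion hKH).range →
      (fun h : H => Helper76.orbitCoeff N d (h : G)) h = 0 := by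
    intro h hh
    apply hsuppN
    intro hN
    apply hh
    exact ⟨⟨(h : G), hHN h h.2 hN⟩, rfl⟩
  have h2 := hk_omega_of_incl (Subgroup.inclusion hKH) (Subgroup.inclusion_injective hKH)
    (Helper16.isClassFunction_res hcl H) hsupp ψ ξ hne
  -- `Ω_ξ(A|_K) ≡ Ω_θ₀(A|_N) = 1`
  have hind' := hk_isInducedBlock_of_in N K hKN hed
  have hξ' : Helper75.irrComp (Subgroup.subgroupOfEquivOfLe hKN) ξ
      ∈ Helper75.irrComp (Subgroup.subgroupOfEquivOfLe hKN) '' e := ⟨ξ, hξ, rfl⟩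
  have h3 := Helper16.omega_res_sub_memLocalIdeal hM (K.subgroupOf N) hind' hξ' hθ₀
    (Helper16.isClassFunction_res hcl N) (fun n => hloc _)
  have h4 : Helper81.omega
      (Helper75.irrComp (Subgroup.subgroupOfEquivOfLe hKN) ξ : K.subgroupOf N → ℂ)
      (fun h : K.subgroupOf N => (fun n : N => Helper76.orbitCoeff N d (n : G)) h)
      = Helper81.omega (ξ : K → ℂ) (fun l : K => Helper76.orbitCoeff N d (l : G)) :=
    hk_omega_comp (Subgroup.subgroupOfEquivOfLe hKN) (ξ : K → ℂ)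
      (fun l : K => Helper76.orbitCoeff N d (l : G))
  rw [h4, Helper76.omega_orbitCoeff_res, if_pos (Helper76.subset_blockOrbit N d hθ₀)] at h3
  have h2' : Helper81.omega (ψ : H → ℂ) (fun h : H => Helper76.orbitCoeff N d (h : G))
      = Helper81.omega (ξ : K → ℂ) (fun l : K => Helper76.orbitCoeff N d (l : G)) := h2
  rw [h2'] at h1
  -- hence `Ω_χ(A) ≡ 1`
  have h5 : Cfsg.MemLocalIdeal M (1 - Helper81.omega (χ : G → ℂ) (Helper76.orbitCoeff N d)) := by
    have := Helper77.memLocalIdeal_sub hM h1 h3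
    rwa [sub_sub_sub_cancel_left] at this
  -- a constituent of `χ|_N`
  have hne0 : (fun n : N => (χ : G → ℂ) n) ≠ 0 := by
    intro h0
    have := congrFun h0 1
    exact Helper81.irr_one_ne_zero χ (by simpa using this)
  obtain ⟨θ', hθ'⟩ := Helper15.exists_constituent
    (Helper16.isClassFunction_res (Helper81.irr_isClassFunction χ) N) hne0
  have h6 := Helper76.omega_eq_omega_res_of_constituent N hcl hsuppN χ θ' hθ'
  rw [Helper76.omega_orbitCoeff_res] at h6
  have hθ'orb : θ' ∈ Helper76.blockOrbit N d := by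
    by_contra hcon
    rw [if_neg hcon] at h6
    rw [h6, sub_zero] at h5
    exact Helper77.not_memLocalIdeal_one hM h5
  exact hk_over_of_blockOrbit N χ θ' hθ'orb hθ'

end Cfsg.Agent.Helper73
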