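import Cfsg.Agent.Helper73.IndBlockPart
import Cfsg.Agent.Helper73.BrauerFeit

/-!
# Height-zero constituents of induced characters

If `b^G = B` with `b` and `B` of the same defect and `ζ ∈ b` has height zero, then some
height-zero `χ ∈ B` has multiplicity prime to `p` in `ζ^G`.
-/

set_option autoImplicit false
open Cfsg
open scoped ComplexConjugate

namespace Cfsg.Agent.Helper73

universe u

variable {G : Type u} [Group G] [Fintype G]

theorem exists_height_zero_indFun_not_dvd {p : ℕ} {M : Ideal Cfsg.AlgInt}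
    (hM : Cfsg.IsPModular p M) (H : Subgroup G) [Fintype H] {b : Set (Cfsg.IrrCharacter H)}
    {B : Set (Cfsg.IrrCharacter G)} (hind : Cfsg.IsInducedBlock M H b B)
    (hdef : Cfsg.blockDefect p b = Cfsg.blockDefect p B)
    {ζ : Cfsg.IrrCharacter H} (hζ : ζ ∈ b) (hζ0 : Cfsg.blockHeight p b (ζ : H → ℂ) = 0) :
    ∃ χ ∈ B, Cfsg.blockHeight p B (χ : G → ℂ) = 0 ∧ ∃ a : ℕ,
      Cfsg.classInner (Cfsg.indFun H (ζ : H → ℂ)) (χ : G → ℂ) = (a : ℂ) ∧ ¬ p ∣ a := by
  classical
  have hp := hM.1
  have hMm := hM.2.1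
  obtain ⟨χ₀, hχ₀, hχ₀0⟩ := Helper16.exists_height_zero (p := p) hMm hind.2.1
  have ha : ∀ ψ : Cfsg.IrrCharacter G, ∃ a : ℕ,
      Cfsg.classInner (Cfsg.indFun H (ζ : H → ℂ)) (ψ : G → ℂ) = (a : ℂ) := fun ψ =>
    Helper3.classInner_isCharacter_nat
      (Helper3.isCharacter_indFun H _ (Helper79.irr_isCharacter ζ)) (Helper79.irr_isCharacter ψ)
  choose a ha using ha
  by_contra hcon
  push Not at hcon
  obtain ⟨n, hn, h1, -⟩ := blockPart_indFun_val hM H hind hζ hind.2.1
  obtain ⟨hn0, hnval⟩ := h1 rfl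
  set s := (Cfsg.charDegree (χ₀ : G → ℂ)).factorization p with hs
  have hnsum : n = ∑ᶠ ψ ∈ B, a ψ * Cfsg.charDegree (ψ : G → ℂ) := by
    apply Nat.cast_injective (R := ℂ)
    rw [← hn, blockPart_eq_finsum, Nat.cast_finsum_mem (Set.toFinite B)]
    apply finsum_mem_congr rfl
    intro ψ _
    rw [ha ψ, Helper81.irr_one_eq_charDegree]
    push_cast
    ring
  have hdvd : p ^ (s + 1) ∣ n := by
    rw [hnsum, finsum_mem_eq_finite_toFinset_sum _ (Set.toFinite B)]
    apply Finset.dvd_sum
    intro ψ hψ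
    rw [Set.Finite.mem_toFinset] at hψ
    have hfac := factorization_eq_add_height hχ₀ hχ₀0 hψ
    by_cases hh : Cfsg.blockHeight p B (ψ : G → ℂ) = 0
    · have h1 := hcon ψ hψ hh (a ψ) (ha ψ)
      rw [pow_succ, mul_comm]
      apply Nat.mul_dvd_mul h1
      rw [hh, add_zero] at hfac
      rw [hs, ← hfac]
      exact Nat.ordProj_dvd _ _
    · apply Dvd.dvd.mul_left
      have : s + 1 ≤ (Cfsg.charDegree (ψ : G → ℂ)).factorization p := by omega
      exact (pow_dvd_pow p this).trans (Nat.ordProj_dvd _ _)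
  have h2 : s + 1 ≤ n.factorization p := (hp.pow_dvd_iff_le_factorization hn0).mp hdvd
  have hidx : H.index ≠ 0 := Subgroup.index_ne_zero_of_finite
  rw [hnval, charDegree_indFun_irr, Nat.factorization_mul hidx
    (Helper81.charDegree_pos ζ).ne'] at h2
  simp only [Finsupp.coe_add, Pi.add_apply] at h2
  have h3 := Helper16.factorization_charDegree_add_blockDefect hζ hζ0
  have h4 := Helper16.factorization_charDegree_add_blockDefect hχ₀ hχ₀0
  have h5 : (Nat.card H).factorization p + H.index.factorization p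
      = (Nat.card G).factorization p := by
    rw [← Subgroup.card_mul_index H, Nat.factorization_mul Nat.card_pos.ne' hidx]
    rfl
  omega

end Cfsg.Agent.Helper73
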