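import Mathlib

/-!
# The corner of an idempotent as a unital algebra (helper73, PIECE C of CALL S4648)
-/

set_option autoImplicit false

namespace Cfsg.Agent.Helper73

universe u v w

variable {k : Type v} [Field k] {A : Type u} [Ring A] [Algebra k A]

theorem kul_corner [FiniteDimensional k A] (e : A) (he : e * e = e) :
    ∃ (C : Type u) (_ : Ring C) (_ : Algebra k C) (_ : FiniteDimensional k C) (φ : C →ₗ[k] A),
      Function.Injective φ ∧ (∀ x y, φ (x * y) = φ x * φ y) ∧ φ 1 = e ∧
      ∀ a, (∃ x, φ x = a) ↔ (e * a = a ∧ a * e = a) := by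
  have idem : IsIdempotentElem e := he
  letI : SMul k idem.Corner := ⟨fun c x => ⟨c • x.1, by
    have hx := (Subsemigroup.mem_corner_iff idem).mp x.2
    rw [Subsemigroup.mem_corner_iff idem]
    exact ⟨by rw [mul_smul_comm, hx.1], by rw [smul_mul_assoc, hx.2]⟩⟩⟩
  let ι : idem.Corner →+ A :=
    { toFun := Subtype.val, map_zero' := rfl, map_add' := fun _ _ => rfl }
  letI : Module k idem.Corner :=
    Function.Injective.module k ι Subtype.val_injective (fun c x => rfl)
  letI : Algebra k idem.Corner :=
    Algebra.ofModule (fun r x y => Subtype.ext (smul_mul_assoc r x.1 y.1))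
      (fun r x y => Subtype.ext (mul_smul_comm r x.1 y.1))
  let φ : idem.Corner →ₗ[k] A :=
    { toFun := Subtype.val, map_add' := fun _ _ => rfl, map_smul' := fun _ _ => rfl }
  refine ⟨idem.Corner, inferInstance, inferInstance, ?_, φ, Subtype.val_injective, fun x y => rfl,
    rfl, ?_⟩
  · exact FiniteDimensional.of_injective φ Subtype.val_injective
  · intro a
    constructor
    · rintro ⟨x, rfl⟩
      exact (Subsemigroup.mem_corner_iff idem).mp x.2
    · intro h
      exact ⟨⟨a, (Subsemigroup.mem_corner_iff idem).mpr h⟩, rfl⟩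

end Cfsg.Agent.Helper73
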