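-- helper73 library: piece OGOOD of helper96's CALL S5992.
import Mathlib
import Cfsg.Agent.Helper96.OHDefs
import Cfsg.Agent.Helper31.OHOFIX
import Cfsg.Agent.Helper31.OHOGROW
import Cfsg.Agent.Helper37.OHOTYPEODD
import Cfsg.Agent.Helper70.OHOSUB
import Cfsg.Agent.Helper88.OHOTYPEEVEN
import Cfsg.Agent.Helper96.OHATOM
import Cfsg.Agent.Helper96.OHCDVD

set_option autoImplicit false
set_option linter.unusedSectionVars false
set_option linter.unusedVariables false

namespace Cfsg.Agent.Helper73.OH5992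

open Module Polynomial Cfsg Cfsg.Geo
open Cfsg.Agent.Helper13.TIu Cfsg.Agent.Helper96.OH

variable {ι : Type} [Fintype ι] [DecidableEq ι] {F : Type*} [Field F] (Q : (ι → F) → F)

/-- OGOOD (odd `r`, `⟸`). -/
theorem o_good [Fintype F] (hQ : IsNondegenerateQuadraticForm Q) (h2 : (2 : F) ≠ 0)
    (T : Module.End F (ι → F)) (hT : OPres Q T) (r : ℕ) [Fact r.Prime] (hr2 : 2 < r)
    (hrF : (r : F) ≠ 0) (hTr : T ^ r = 1) (i c : ℕ)
    (hi : i = orderOf ((Fintype.card F : ℕ) : ZMod r)) (hc : c = if Even i then i else 2 * i)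
    (m : ℕ) (hme : Even m) (hcm : c ≤ m) (hmn : m < Fintype.card ι)
    (hk : m % c < Fintype.card ι % c) (hty : Odd i ∨ 0 < m % c ∨ Even (m / i)) :
    ∃ W : Submodule F (ι → F), (finrank F W = m ∧ ONd Q W ∧ OPl Q W) ∧ W.map T ≤ W := by
  classical
  have hrpr : r.Prime := Fact.out
  have hr0 : 0 < r := hrpr.pos
  have hi0 : 0 < i := by
    rw [hi]
    exact Cfsg.Agent.Helper13.TIsp.ti_ord_pos_of_ne r hrF
  have hc0 : 0 < c := by
    rw [hc]
    split_ifs <;> omega
  have hceven : Even c := by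
    rw [hc]
    split_ifs with hie
    · exact hie
    · exact even_two_mul i
  have htopT : (⊤ : Submodule F (ι → F)).map T ≤ ⊤ := le_top
  obtain ⟨hFnd, P, -, hPT, hPnd, hPk, hsup, hFP, hdim⟩ :=
    Cfsg.Agent.Helper31.OH5992.o_fix Q hQ T hT r hr0 hrF hTr ⊤ htopT (ond_top Q hQ)
  have hcd := Cfsg.Agent.Helper96.OH5992.o_cdvd Q hQ h2 T hT r hr2 hrF hTr i c hi hc ⊤ htopT (ond_top Q hQ)
  have hn' : finrank F (⊤ : Submodule F (ι → F)) = Fintype.card ι := by
    rw [finrank_top, Module.finrank_fintype_fun_eq_card]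
  rw [hn'] at hdim hcd
  obtain ⟨ρ, hρ⟩ := hcd
  obtain ⟨Fx, hFx⟩ : ∃ Fx : Submodule F (ι → F), Fx = ⊤ ⊓ LinearMap.ker (T - 1) := ⟨_, rfl⟩
  rw [← hFx] at hFnd hsup hFP hdim hρ
  have hPdim : finrank F P = c * ρ := by omega
  obtain ⟨h₁, hh₁def⟩ : ∃ h₁ : ℕ, h₁ = min (m / c) ρ := ⟨_, rfl⟩
  have hh₁ρ : h₁ ≤ ρ := by
    rw [hh₁def]
    exact min_le_right _ _
  have hh₁m : h₁ ≤ m / c := by
    rw [hh₁def]
    exact min_le_left _ _
  obtain ⟨N₁, hN₁P, hN₁T, hN₁nd, hN₁dim⟩ := Cfsg.Agent.Helper31.OH5992.o_grow Q hQ T hT r hr0 hTr c hc0 P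
    (fun N hNle hNT hNnd hN0 => Cfsg.Agent.Helper96.OH5992.o_atom Q hQ h2 T hT r hr2 hrF hTr i c hi hc N hNT hNnd hN0 (by
        rw [eq_bot_iff]
        intro v hv
        have h1 : v ∈ P ⊓ LinearMap.ker (T - 1) := ⟨hNle hv.1, hv.2⟩
        rw [hPk] at h1
        exact h1))
    P le_rfl hPT hPnd h₁ (by rw [hPdim]; exact Nat.mul_le_mul_left c hh₁ρ)
  have hN₁k : N₁ ⊓ LinearMap.ker (T - 1) = ⊥ := by
    rw [eq_bot_iff]
    intro v hv
    have h1 : v ∈ P ⊓ LinearMap.ker (T - 1) := ⟨hN₁P hv.1, hv.2⟩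
    rw [hPk] at h1
    exact h1
  have hN₁even : Even (finrank F N₁) := by
    rw [hN₁dim]
    exact hceven.mul_right h₁
  have hch₁ : c * h₁ ≤ m := (Nat.mul_le_mul_left c hh₁m).trans (Nat.mul_div_le m c)
  have htypeE : Even i → (OPl Q N₁ ↔ Even h₁) := by
    intro hie
    have h := Cfsg.Agent.Helper88.OH5992.o_type_even Q hQ h2 T hT r hr2 hrF hTr (by rw [← hi]; exact hie) N₁ hN₁T hN₁nd hN₁k
    rw [← hi, hN₁dim] at h
    have hci : c = i := by rw [hc, if_pos hie]
    rw [hci, Nat.mul_div_cancel_left h₁ hi0] at h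
    exact h
  have htypeO : ¬ Even i → OPl Q N₁ := by
    intro hio
    exact Cfsg.Agent.Helper37.OH5992.o_type_odd Q hQ h2 T hT r hr2 hrF hTr
      (by rw [← hi]; exact Nat.not_even_iff_odd.mp hio) N₁ hN₁T hN₁nd hN₁k
  by_cases he : m = c * h₁
  · refine ⟨N₁, ⟨by rw [hN₁dim, he], hN₁nd, ?_⟩, hN₁T⟩
    by_cases hie : Even i
    · rw [htypeE hie]
      have hci : c = i := by rw [hc, if_pos hie]
      have hmc : m % c = 0 := by
        rw [he]
        exact Nat.mul_mod_right c h₁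
      rcases hty with h | h | h
      · exact absurd hie (Nat.not_even_iff_odd.mpr h)
      · omega
      · have h3 : m / i = h₁ := by
          rw [he, hci]
          exact Nat.mul_div_cancel_left h₁ hi0
        rw [h3] at h
        exact h
    · exact htypeO hie
  · have he₁pos : 0 < m - c * h₁ := by omega
    have he₁even : Even (m - c * h₁) :=
      (Nat.even_sub hch₁).mpr ⟨fun _ => hceven.mul_right h₁, fun _ => hme⟩
    have he₁lt : m - c * h₁ < finrank F Fx := by
      by_cases hcase : m / c ≤ ρ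
      · have hh : h₁ = m / c := by
          rw [hh₁def]
          exact min_eq_left hcase
        have h1 : m - c * h₁ = m % c := by
          rw [hh]
          have h3 := Nat.div_add_mod m c
          omega
        have h2' : Fintype.card ι % c ≤ finrank F Fx := by
          have h3 : Fintype.card ι = finrank F Fx + c * ρ := by omega
          rw [h3, Nat.add_mul_mod_self_left]
          exact Nat.mod_le _ _
        omega
      · have hh : h₁ = ρ := by
          rw [hh₁def]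
          exact min_eq_right (by omega)
        have h3 : c * ρ ≤ m := by
          rw [← hh]
          exact hch₁
        rw [hh]
        omega
    obtain ⟨X, hXF, hXnd, hXdim, hXty⟩ :=
      Cfsg.Agent.Helper70.OH5992.o_sub Q hQ h2 Fx hFnd (m - c * h₁) he₁even he₁pos he₁lt (OPl Q N₁)
    have horth : OOrth Q X N₁ := fun u hu v hv => hFP u (hXF hu) v (hN₁P hv)
    have hXT : X.map T ≤ X := by
      rintro _ ⟨v, hv, rfl⟩
      have h1 : v ∈ LinearMap.ker (T - 1) := by
        have h3 := hXF hv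
        rw [hFx] at h3
        exact h3.2
      rw [(Cfsg.Agent.Helper90.BG.mem_ker_sub_one T v).mp h1]
      exact hv
    refine ⟨X ⊔ N₁, ⟨?_, ?_, ?_⟩, ?_⟩
    · rw [Cfsg.Agent.Helper33.OType.finrank_sup_of_orth Q X N₁ hXnd horth, hXdim, hN₁dim]
      omega
    · exact Cfsg.Agent.Helper33.OType.nondeg_sup Q hQ X N₁ hXnd hN₁nd horth
    · have h3 := Cfsg.Agent.Helper33.o_type_mul Q hQ X N₁ hXnd hN₁nd horth
        (by rw [hXdim]; exact he₁even) hN₁even
      exact h3.mpr hXty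
    · rw [Submodule.map_sup]
      exact sup_le_sup hXT hN₁T

end Cfsg.Agent.Helper73.OH5992
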