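import Cfsg.Agent.Helper73.SumSqDeg
import Cfsg.Agent.Helper73.BrauerFeit2
import Cfsg.Agent.Helper73.PRegularDeg
import Cfsg.Agent.Helper75.Eigen

/-!
# Families of `p`-conjugate characters (Brauer)

If `T` is a set of irreducible characters all agreeing with `χ` on the `p`-regular elements and
obtained from `χ` by field automorphisms (for instance the `p`-conjugates of `χ`), then
`ν_p(|T| χ(1)) ≤ a`, and `p^a ∣ |T| χ(1)` forces `p^a ∣ χ(1)`.
-/

set_option autoImplicit false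
open Cfsg
open scoped ComplexConjugate

namespace Cfsg.Agent.Helper73

universe u

variable {G : Type u} [Group G]

/-- A field automorphism fixing `exp (2πi/n)` fixes the values of irreducible characters at
elements of order dividing `n`. -/
theorem ringEquiv_irr_apply_eq (σ : ℂ ≃+* ℂ) (n : ℕ) (hn : n ≠ 0)
    (hσ : σ (Complex.exp (2 * Real.pi * Complex.I / (n : ℂ)))
      = Complex.exp (2 * Real.pi * Complex.I / (n : ℂ)))
    (χ : Cfsg.IrrCharacter G) (x : G) (hx : orderOf x ∣ n) :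
    σ ((χ : G → ℂ) x) = (χ : G → ℂ) x := by
  obtain ⟨d, ρ, -, hχ⟩ := χ.2
  have hf : (ρ x) ^ n = 1 := by
    rw [← map_pow, orderOf_dvd_iff_pow_eq_one.mp hx, map_one]
  obtain ⟨s, hs1, -, hs3⟩ := Helper75.exists_eigen_multiset (ρ x) n hn hf
  have h1 := hs3 1
  simp only [pow_one, Multiset.map_id'] at h1
  have hval : (χ : G → ℂ) x = s.sum := by
    rw [← hχ]
    exact h1
  have hfix : ∀ μ ∈ s, σ μ = μ := by
    intro μ hμ
    have hζ := Complex.isPrimitiveRoot_exp n hn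
    have : NeZero n := ⟨hn⟩
    obtain ⟨i, -, rfl⟩ := hζ.eq_pow_of_pow_eq_one (hs1 μ hμ)
    rw [map_pow, hσ]
  rw [hval, map_multiset_sum, Multiset.map_congr rfl hfix, Multiset.map_id']

variable [Fintype G]

theorem pconj_family {p : ℕ} (hp : p.Prime) (χ : Cfsg.IrrCharacter G)
    (T : Set (Cfsg.IrrCharacter G)) (hχT : χ ∈ T)
    (hT : ∀ ψ ∈ T, ∃ σ : ℂ ≃+* ℂ,
      (∀ x : G, ¬ p ∣ orderOf x → σ ((χ : G → ℂ) x) = (χ : G → ℂ) x) ∧
        (ψ : G → ℂ) = fun g => σ ((χ : G → ℂ) g)) :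
    (Nat.card T * Cfsg.charDegree (χ : G → ℂ)).factorization p ≤ (Nat.card G).factorization p ∧
    (p ^ (Nat.card G).factorization p ∣ Nat.card T * Cfsg.charDegree (χ : G → ℂ) →
      p ^ (Nat.card G).factorization p ∣ Cfsg.charDegree (χ : G → ℂ)) := by
  classical
  have hpf : Fact p.Prime := ⟨hp⟩
  have := Fintype.ofFinite (Cfsg.IrrCharacter G)
  obtain ⟨a, ha⟩ : ∃ a, a = (Nat.card G).factorization p := ⟨_, rfl⟩
  obtain ⟨b, hb⟩ : ∃ b, b = (Cfsg.charDegree (χ : G → ℂ)).factorization p := ⟨_, rfl⟩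
  have hba : b ≤ a := by
    rw [ha, hb]
    exact factorization_charDegree_le_card p χ
  obtain ⟨k, hk⟩ : ∃ k, k = p ^ (a - b) := ⟨_, rfl⟩
  have hk0 : 0 < k := by rw [hk]; exact pow_pos hp.pos _
  have hkZ : (0 : ℤ) < (k : ℤ) := by exact_mod_cast hk0
  have hkC : (k : ℂ) ≠ 0 := by exact_mod_cast hk0.ne'
  have hmem : pregScal p (k : ℂ) (χ : G → ℂ) ∈ genSpanZ G :=
    pRegular_div_mem_genSpanZ hp χ _
      (fun x hx => by unfold pregScal; rw [if_neg hx, hk, ha, hb])
      (fun x hx => by unfold pregScal; rw [if_pos hx])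
  choose m hm using fun ψ : Cfsg.IrrCharacter G => classInner_int_of_mem_genSpanZ hmem ψ
  have hpars := sum_sq_classInner_pregScal p k χ m hm
  have hreg : ∀ ψ ∈ T, ∀ x : G, ¬ p ∣ orderOf x → (ψ : G → ℂ) x = (χ : G → ℂ) x := by
    intro ψ hψ x hx
    obtain ⟨σ, hσ, hψσ⟩ := hT ψ hψ
    rw [hψσ]
    exact hσ x hx
  have hmT : ∀ ψ ∈ T, m ψ = m χ := by
    intro ψ hψ
    have h1 : Cfsg.classInner (pregScal p (k : ℂ) (χ : G → ℂ)) (ψ : G → ℂ)
        = Cfsg.classInner (pregScal p (k : ℂ) (χ : G → ℂ)) (χ : G → ℂ) := by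
      unfold Cfsg.classInner pregScal
      congr 1
      refine Finset.sum_congr rfl fun x _ => ?_
      by_cases hx : p ∣ orderOf x
      · simp [hx]
      · simp only [hx, if_false]
        rw [hreg ψ hψ x hx]
    rw [hm, hm] at h1
    exact_mod_cast h1
  have hcl : Cfsg.IsClassFunction G (pregScal p (k : ℂ) (χ : G → ℂ)) :=
    pregScal_isClassFunction p _ (Helper81.irr_isClassFunction χ)
  have hexp := Helper3.classFunction_eq_sum _ hcl
  have h1reg : ¬ p ∣ orderOf (1 : G) := by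
    rw [orderOf_one]
    exact hp.one_lt.ne' ∘ Nat.dvd_one.mp
  have hΦ1 : pregScal p (k : ℂ) (χ : G → ℂ) 1 = (k : ℂ) * (χ : G → ℂ) 1 := by
    unfold pregScal
    rw [if_neg h1reg]
  have hexp' : ∀ x : G, pregScal p (k : ℂ) (χ : G → ℂ) x
      = ∑ ψ : Cfsg.IrrCharacter G, (m ψ : ℂ) * (ψ : G → ℂ) x := by
    intro x
    have h2 := congrFun hexp x
    rw [Finset.sum_apply] at h2
    simp only [Pi.smul_apply, smul_eq_mul, hm] at h2
    exact h2
  have hm0 : m χ ≠ 0 := by
    intro h0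
    have hall : ∀ ψ, m ψ = 0 := by
      rw [h0, mul_zero] at hpars
      intro ψ
      have h2 := (Finset.sum_eq_zero_iff_of_nonneg (fun ψ _ => sq_nonneg (m ψ))).mp hpars ψ
        (Finset.mem_univ ψ)
      exact pow_eq_zero_iff (two_ne_zero) |>.mp h2
    have h2 := hexp' 1
    rw [hΦ1] at h2
    simp only [hall, Int.cast_zero, zero_mul, Finset.sum_const_zero] at h2
    rcases mul_eq_zero.mp h2 with h | h
    · exact hkC h
    · exact Helper81.irr_one_ne_zero χ h
  have hmpos : 0 < m χ := by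
    have h1 : 0 ≤ (k : ℤ) * m χ := by
      rw [← hpars]
      exact Finset.sum_nonneg (fun ψ _ => sq_nonneg _)
    have h2 : 0 ≤ m χ := by
      by_contra h
      push Not at h
      nlinarith
    omega
  obtain ⟨s, hsdef⟩ : ∃ s : Finset (Cfsg.IrrCharacter G),
      s = Finset.univ.filter (fun ψ => ψ ∈ T) := ⟨_, rfl⟩
  have hmem_s : ∀ ψ, ψ ∈ s ↔ ψ ∈ T := fun ψ => by simp [hsdef]
  have hcardT : Nat.card T = s.card := by
    rw [hsdef]
    exact Nat.subtype_card _ (by simp)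
  have h2 : (s.card : ℤ) * (m χ) ^ 2 ≤ (k : ℤ) * m χ := by
    rw [← hpars]
    calc (s.card : ℤ) * (m χ) ^ 2 = ∑ ψ ∈ s, (m ψ) ^ 2 := by
          rw [Finset.sum_congr rfl (fun ψ hψ => by rw [hmT ψ ((hmem_s ψ).mp hψ)]),
            Finset.sum_const, nsmul_eq_mul]
      _ ≤ ∑ ψ, (m ψ) ^ 2 := Finset.sum_le_sum_of_subset_of_nonneg (Finset.subset_univ _)
          (fun ψ _ _ => sq_nonneg _)
  have h3 : (s.card : ℤ) * m χ ≤ (k : ℤ) := by nlinarith
  have hr_le : s.card ≤ k := by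
    have h4 : (s.card : ℤ) ≤ (k : ℤ) := by nlinarith
    exact_mod_cast h4
  have hr0 : s.card ≠ 0 := Finset.card_ne_zero.mpr ⟨χ, (hmem_s χ).mpr hχT⟩
  have hd0 : Cfsg.charDegree (χ : G → ℂ) ≠ 0 := (Helper81.charDegree_pos χ).ne'
  have hνr : (s.card).factorization p ≤ a - b := by
    have h4 : p ^ (s.card).factorization p ≤ s.card :=
      Nat.le_of_dvd (Nat.pos_of_ne_zero hr0) (Nat.ordProj_dvd _ _)
    have h5 : p ^ (s.card).factorization p ≤ p ^ (a - b) := by
      rw [← hk]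
      exact h4.trans hr_le
    exact (Nat.pow_le_pow_iff_right hp.one_lt).mp h5
  rw [hcardT, ← ha]
  constructor
  · rw [Nat.factorization_mul hr0 hd0]
    simp only [Finsupp.coe_add, Pi.add_apply]
    rw [← hb]
    omega
  · intro hdvd
    have h6 : a ≤ (s.card * Cfsg.charDegree (χ : G → ℂ)).factorization p :=
      (hp.pow_dvd_iff_le_factorization (mul_ne_zero hr0 hd0)).mp hdvd
    rw [Nat.factorization_mul hr0 hd0] at h6
    simp only [Finsupp.coe_add, Pi.add_apply] at h6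
    rw [← hb] at h6
    have hνeq : (s.card).factorization p = a - b := by omega
    have hkr : k ∣ s.card := by
      rw [hk, ← hνeq]
      exact Nat.ordProj_dvd _ _
    have hrk : s.card = k := Nat.le_antisymm hr_le (Nat.le_of_dvd (Nat.pos_of_ne_zero hr0) hkr)
    have hm1 : m χ = 1 := by
      rw [hrk] at h3
      nlinarith
    have hoff : ∀ ψ, ψ ∉ T → m ψ = 0 := by
      have hs_sum : ∑ ψ ∈ s, (m ψ) ^ 2 = (k : ℤ) := by
        rw [Finset.sum_congr rfl (fun ψ hψ => by rw [hmT ψ ((hmem_s ψ).mp hψ), hm1]),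
          Finset.sum_const, nsmul_eq_mul, hrk]
        ring
      have htot : ∑ ψ, (m ψ) ^ 2 = (k : ℤ) := by rw [hpars, hm1, mul_one]
      have hcompl : ∑ ψ ∈ sᶜ, (m ψ) ^ 2 = 0 := by
        have h7 := Finset.sum_add_sum_compl s (fun ψ => (m ψ) ^ 2)
        rw [hs_sum, htot] at h7
        linarith
      intro ψ hψ
      have h7 := (Finset.sum_eq_zero_iff_of_nonneg (fun ψ _ => sq_nonneg (m ψ))).mp hcompl ψ
        (by rw [Finset.mem_compl, hmem_s]; exact hψ)
      exact pow_eq_zero_iff two_ne_zero |>.mp h7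
    obtain ⟨P⟩ : Nonempty (Sylow p G) := inferInstance
    have hPcard : Nat.card (P : Subgroup G) = p ^ a := by
      rw [ha]
      exact P.card_eq_multiplicity
    have : Fintype (P : Subgroup G) := Fintype.ofFinite _
    obtain ⟨kχ, hkχ⟩ := Helper81.irr_sum_subgroup (P : Subgroup G) χ
    have hsumT : ∀ ψ ∈ T, ∑ x : (P : Subgroup G), (ψ : G → ℂ) x
        = (Nat.card (P : Subgroup G) : ℂ) * kχ := by
      intro ψ hψ
      obtain ⟨σ, -, hψσ⟩ := hT ψ hψ
      rw [hψσ]
      simp only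
      rw [← map_sum, hkχ, map_mul, map_natCast, map_natCast]
    have h7 := sum_pGroup_eq_one hp (P : Subgroup G) P.isPGroup' (pregScal p (k : ℂ) (χ : G → ℂ))
      (fun x hx => by unfold pregScal; rw [if_pos hx])
    rw [hΦ1] at h7
    have h8 : ∑ x : (P : Subgroup G), pregScal p (k : ℂ) (χ : G → ℂ) x
        = (s.card : ℂ) * ((Nat.card (P : Subgroup G) : ℂ) * kχ) := by
      have e : ∑ x : (P : Subgroup G), pregScal p (k : ℂ) (χ : G → ℂ) x
          = ∑ x : (P : Subgroup G), ∑ ψ : Cfsg.IrrCharacter G, (m ψ : ℂ) * (ψ : G → ℂ) x :=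
        Finset.sum_congr rfl (fun x _ => hexp' (x : G))
      rw [e, Finset.sum_comm, ← Finset.sum_subset (Finset.subset_univ s)]
      · rw [Finset.sum_congr rfl (fun ψ hψ => by
            rw [← Finset.mul_sum, hsumT ψ ((hmem_s ψ).mp hψ), hmT ψ ((hmem_s ψ).mp hψ), hm1,
              Int.cast_one, one_mul])]
        rw [Finset.sum_const, nsmul_eq_mul]
      · intro ψ _ hψ
        rw [← Finset.mul_sum, hoff ψ (fun h => hψ ((hmem_s ψ).mpr h)), Int.cast_zero, zero_mul]
    rw [h8, hrk, hPcard, Helper81.irr_one_eq_charDegree] at h7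
    have h9 : ((p ^ a * kχ : ℕ) : ℂ) = (Cfsg.charDegree (χ : G → ℂ) : ℂ) := by
      push_cast
      have h10 := mul_left_cancel₀ hkC h7
      push_cast at h10
      exact h10
    have h10 : p ^ a * kχ = Cfsg.charDegree (χ : G → ℂ) := by exact_mod_cast h9
    exact ⟨kχ, h10.symm⟩

end Cfsg.Agent.Helper73
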