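/-
Helper library of seat helper73 (towards S4489): fields of values of induced characters and
Galois orbits; the step lemmas for characters induced from a normal subgroup.
-/
import Cfsg.Agent.Helper73.FieldOrb
import Cfsg.Agent.Helper3.IndFun
import Cfsg.Agent.Helper3.Induced
import Cfsg.Agent.Helper75.ConjFun
import Cfsg.Agent.Helper75.Galois
import Cfsg.Agent.Helper75.RationalChar
import Cfsg.Agent.Helper15.CharInner
import Cfsg.Agent.Helper15.Gallagher
import Cfsg.Agent.Helper80.CharIrr
import Cfsg.Agent.Helper79.Quotient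

set_option autoImplicit false

namespace Cfsg.Agent.Helper73

open Cfsg
open scoped ComplexConjugate

universe u

/-- The degree over `ℚ` of the field generated by the values of a function. -/
noncomputable def fieldDeg {X : Type*} (θ : X → ℂ) : ℕ :=
  Module.finrank ℚ (IntermediateField.adjoin ℚ (Set.range θ))

/-- The orbit of a function under the field automorphisms of `ℂ`. -/
def galOrb {X : Type*} (θ : X → ℂ) : Set (X → ℂ) :=
  Set.range (fun σ : ℂ ≃+* ℂ => fun x => σ (θ x))

theorem pgf_isIntegral {G : Type*} [Group G] [Finite G] {χ : G → ℂ} (h : IsCharacter G χ)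
    (g : G) : IsIntegral ℚ (χ g) := by
  obtain ⟨n, ρ, rfl⟩ := h
  exact (Helper75.character_isIntegral ρ g).tower_top

theorem pgf_fieldDeg_eq {G : Type*} [Group G] [Finite G] {χ : G → ℂ} (h : IsCharacter G χ) :
    fieldDeg χ = Nat.card (galOrb χ) :=
  fo_finrank_eq_card_orbit χ (pgf_isIntegral h)

theorem pgf_fieldDeg_pos {G : Type*} [Group G] [Finite G] {χ : G → ℂ} (h : IsCharacter G χ) :
    0 < fieldDeg χ := by
  have hfd : FiniteDimensional ℚ (IntermediateField.adjoin ℚ (Set.range χ)) :=
    IntermediateField.finiteDimensional_adjoin (by rintro _ ⟨x, rfl⟩; exact pgf_isIntegral h x)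
  exact Module.finrank_pos

theorem pgf_galOrb_finite {G : Type*} [Group G] [Finite G] {χ : G → ℂ} (h : IsCharacter G χ) :
    (galOrb χ).Finite := by
  have h1 := pgf_fieldDeg_pos h
  rw [pgf_fieldDeg_eq h] at h1
  exact Set.finite_coe_iff.mp (Nat.finite_of_card_ne_zero h1.ne')

theorem pgf_self_mem_galOrb {X : Type*} (θ : X → ℂ) : θ ∈ galOrb θ :=
  ⟨RingEquiv.refl ℂ, rfl⟩

/-- Induction commutes with field automorphisms. -/
theorem pgf_ind_comp {P : Type u} [Group P] [Fintype P] (M : Subgroup P) (ψ : M → ℂ)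
    (σ : ℂ ≃+* ℂ) :
    indFun M (fun m => σ (ψ m)) = fun g => σ (indFun M ψ g) := by
  funext g
  unfold indFun
  rw [map_mul, map_inv₀, map_natCast, map_sum]
  congr 1
  apply Finset.sum_congr rfl
  intro x _
  by_cases hx : x⁻¹ * g * x ∈ M
  · rw [Helper3.extendByZero_of_mem M _ hx, Helper3.extendByZero_of_mem M _ hx]
  · rw [Helper3.extendByZero_of_not_mem M _ hx, Helper3.extendByZero_of_not_mem M _ hx, map_zero]

/-- The field of values of an induced function lies in the field of values of the function. -/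
theorem pgf_fieldDeg_dvd {P : Type u} [Group P] [Fintype P] (M : Subgroup P) (ψ : M → ℂ) :
    fieldDeg (indFun M ψ) ∣ fieldDeg ψ := by
  apply IntermediateField.finrank_dvd_of_le_right
  rw [IntermediateField.adjoin_le_iff]
  rintro _ ⟨g, rfl⟩
  unfold indFun
  apply mul_mem
  · exact inv_mem (natCast_mem _ _)
  · apply sum_mem
    intro x _
    by_cases hx : x⁻¹ * g * x ∈ M
    · rw [Helper3.extendByZero_of_mem M _ hx]
      exact IntermediateField.subset_adjoin ℚ _ ⟨_, rfl⟩
    · rw [Helper3.extendByZero_of_not_mem M _ hx]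
      exact zero_mem _

/-- Inner product of two functions induced from a normal subgroup. -/
theorem pgf_inner_ind {P : Type u} [Group P] [Fintype P] (M : Subgroup P) [hN : M.Normal]
    [Fintype M] (ψ ψ' : M → ℂ) :
    classInner (indFun M ψ') (indFun M ψ) =
      (Nat.card M : ℂ)⁻¹ * ∑ x : P, classInner ψ' (Helper75.conjFun M x ψ) := by
  rw [Helper3.frobenius_reciprocity M ψ' _ (Helper3.indFun_isClassFunction M ψ)]
  have hres : (fun m : M => indFun M ψ m) =
      (Nat.card M : ℂ)⁻¹ • ∑ x : P, Helper75.conjFun M x ψ := by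
    funext m
    rw [Helper75.indFun_apply_mem]
    simp [Finset.sum_apply]
  rw [hres, Helper15.classInner_smul_right, Helper15.classInner_sum_right]
  simp

/-- Conjugation by an element of the subgroup fixes a character. -/
theorem pgf_conjFun_of_mem {P : Type u} [Group P] (M : Subgroup P) [hN : M.Normal] {ψ : M → ℂ}
    (hψ : IsCharacter M ψ) {x : P} (hx : x ∈ M) : Helper75.conjFun M x ψ = ψ := by
  funext m
  rw [Helper75.conjFun_apply]
  exact Helper79.isCharacter_conj_eq hψ m ⟨x, hx⟩

/-- Conjugation only depends on the coset. -/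
theorem pgf_conjFun_out {P : Type u} [Group P] (M : Subgroup P) [hN : M.Normal] {ψ : M → ℂ}
    (hψ : IsCharacter M ψ) (x : P) :
    Helper75.conjFun M x ψ = Helper75.conjFun M (QuotientGroup.mk (s := M) x).out ψ := by
  obtain ⟨m, hm⟩ := QuotientGroup.mk_out_eq_mul M x
  have h1 : x = (QuotientGroup.mk (s := M) x).out * (m : P)⁻¹ := by rw [hm]; group
  conv_lhs => rw [h1]
  rw [Helper75.conjFun_mul]
  exact pgf_conjFun_of_mem M (Helper75.isCharacter_conjFun M _ hψ) (M.inv_mem m.2)

/-- If the function induced from a character of a normal subgroup is irreducible, so is the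
character. -/
theorem pgf_irr_of_ind_irr {P : Type u} [Group P] [Fintype P] (M : Subgroup P) [hN : M.Normal]
    [Fintype M] {ψ : M → ℂ} (hψ : IsCharacter M ψ) (hirr : IsIrrCharacter P (indFun M ψ)) :
    IsIrrCharacter M ψ := by
  classical
  have h1 := pgf_inner_ind M ψ ψ
  rw [Helper15.irr_inner_self hirr] at h1
  have hnat : ∀ x : P, ∃ n : ℕ, classInner ψ (Helper75.conjFun M x ψ) = (n : ℂ) :=
    fun x => Helper15.inner_nat hψ (Helper75.isCharacter_conjFun M x hψ)
  choose n hn using hnat
  obtain ⟨n₁, hn₁⟩ := Helper15.inner_nat hψ hψ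
  have hcardM : (Nat.card M : ℂ) ≠ 0 := by exact_mod_cast Nat.card_pos.ne'
  have h2 : (Nat.card M : ℂ) = ∑ x : P, (n x : ℂ) := by
    have h3 : (1 : ℂ) = (Nat.card M : ℂ)⁻¹ * ∑ x : P, (n x : ℂ) := by
      rw [h1]; congr 1; exact Finset.sum_congr rfl (fun x _ => hn x)
    field_simp at h3
    exact h3
  have h3 : Nat.card M = ∑ x : P, n x := by exact_mod_cast h2
  have h4 : Nat.card M * n₁ ≤ ∑ x : P, n x := by
    calc Nat.card M * n₁ = ∑ x ∈ Finset.univ.filter (fun x : P => x ∈ M), n₁ := by
          rw [Finset.sum_const, smul_eq_mul, Nat.card_eq_fintype_card, Fintype.card_subtype]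
      _ = ∑ x ∈ Finset.univ.filter (fun x : P => x ∈ M), n x := by
          apply Finset.sum_congr rfl
          intro x hx
          rw [Finset.mem_filter] at hx
          have h5 : (n x : ℂ) = (n₁ : ℂ) := by
            rw [← hn x, pgf_conjFun_of_mem M hψ hx.2, hn₁]
          exact_mod_cast h5.symm
      _ ≤ ∑ x : P, n x := Finset.sum_le_sum_of_subset (Finset.filter_subset _ _)
  have h5 : n₁ ≤ 1 := by
    have hpos : 0 < Nat.card M := Nat.card_pos
    rw [← h3] at h4
    by_contra h6
    push Not at h6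
    have : Nat.card M * 2 ≤ Nat.card M * n₁ := Nat.mul_le_mul_left _ h6
    omega
  have h6 : n₁ ≠ 0 := by
    intro h0
    rw [h0, Nat.cast_zero] at hn₁
    have hz := Helper15.classInner_self_eq_zero hn₁
    have h7 := Helper80.irr_one_ne_zero ⟨_, hirr⟩
    apply h7
    change indFun M ψ 1 = 0
    rw [Helper75.indFun_one, hz]
    simp
  have h7 : n₁ = 1 := by omega
  apply Helper15.isIrr_of_inner_one hψ
  rw [hn₁, h7, Nat.cast_one]

/-- Two irreducible characters of a normal subgroup inducing the same irreducible character are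
conjugate. -/
theorem pgf_conj_of_ind_eq {P : Type u} [Group P] [Fintype P] (M : Subgroup P) [hN : M.Normal]
    [Fintype M] {ψ ψ' : M → ℂ} (hψ : IsIrrCharacter M ψ) (hψ' : IsIrrCharacter M ψ')
    (hirr : IsIrrCharacter P (indFun M ψ)) (h : indFun M ψ' = indFun M ψ) :
    ∃ x : P, ψ' = Helper75.conjFun M x ψ := by
  by_contra hcon
  push Not at hcon
  have h1 := pgf_inner_ind M ψ ψ'
  rw [h, Helper15.irr_inner_self hirr] at h1
  have h0 : ∀ x : P, classInner ψ' (Helper75.conjFun M x ψ) = 0 := fun x =>
    Helper15.irr_inner_ne hψ' (Helper75.isIrrCharacter_conjFun M x hψ) (hcon x)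
  simp [h0] at h1

end Cfsg.Agent.Helper73
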