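/-
Helper library of seat helper73 (towards S4489): faithful irreducible characters of `p`-groups,
the bound on the order in terms of the degree and the field of values.
-/
import Cfsg.Agent.Helper73.PGrpFieldA
import Cfsg.Agent.Helper3.MGroup

set_option autoImplicit false

namespace Cfsg.Agent.Helper73

open Cfsg
open scoped ComplexConjugate

universe u

/-- Two irreducible characters inducing the same irreducible character are conjugate by a chosen
coset representative. -/
theorem pgf_fiber {P : Type u} [Group P] [Fintype P] (M : Subgroup P) [hN : M.Normal]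
    [Fintype M] {ψ ψ' : M → ℂ} (hψ : IsIrrCharacter M ψ) (hψ' : IsIrrCharacter M ψ')
    (hirr : IsIrrCharacter P (indFun M ψ)) (h : indFun M ψ' = indFun M ψ) :
    ∃ q : P ⧸ M, ψ' = Helper75.conjFun M q.out ψ := by
  obtain ⟨x, hx⟩ := pgf_conj_of_ind_eq M hψ hψ' hirr h
  exact ⟨QuotientGroup.mk x, by
    rw [hx]; exact pgf_conjFun_out M (Helper79.isCharacter_of_irr hψ) x⟩

/-- Counting Galois orbits: the orbit of `ψ` is at most `|P : M|` times as large as the orbit of
the induced character, and in the case of equality all `P`-conjugates of `ψ` are Galois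
conjugate to `ψ`. -/
theorem pgf_orbit_count {P : Type u} [Group P] [Fintype P] (M : Subgroup P) [hN : M.Normal]
    [Fintype M] {ψ : M → ℂ} (hψ : IsIrrCharacter M ψ) (hirr : IsIrrCharacter P (indFun M ψ)) :
    fieldDeg ψ ≤ M.index * fieldDeg (indFun M ψ) ∧
      (fieldDeg ψ = M.index * fieldDeg (indFun M ψ) →
        ∀ x : P, Helper75.conjFun M x ψ ∈ galOrb ψ) := by
  classical
  have hψc := Helper79.isCharacter_of_irr hψ
  have hχc := Helper79.isCharacter_of_irr hirr
  have hfinS := pgf_galOrb_finite hψc
  have hfinT := pgf_galOrb_finite hχc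
  have hcS : fieldDeg ψ = hfinS.toFinset.card := by
    rw [pgf_fieldDeg_eq hψc]; exact Nat.card_eq_card_finite_toFinset hfinS
  have hcT : fieldDeg (indFun M ψ) = hfinT.toFinset.card := by
    rw [pgf_fieldDeg_eq hχc]; exact Nat.card_eq_card_finite_toFinset hfinT
  have hmap : ∀ ψ' ∈ hfinS.toFinset, indFun M ψ' ∈ hfinT.toFinset := by
    intro ψ' hψ'
    rw [Set.Finite.mem_toFinset] at hψ' ⊢
    obtain ⟨σ, rfl⟩ := hψ'
    exact ⟨σ, (pgf_ind_comp M ψ σ).symm⟩
  have hidx : M.index = (Finset.univ : Finset (P ⧸ M)).card := by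
    rw [Finset.card_univ, ← Nat.card_eq_fintype_card]; rfl
  have hle : ∀ τ ∈ hfinT.toFinset,
      (hfinS.toFinset.filter (fun ψ' => indFun M ψ' = τ)).card ≤ M.index := by
    intro τ hτ
    rw [Set.Finite.mem_toFinset] at hτ
    obtain ⟨σ, rfl⟩ := hτ
    have hirr' : IsIrrCharacter P (indFun M (fun m => σ (ψ m))) := by
      rw [pgf_ind_comp]; exact Helper75.isIrrCharacter_ringEquiv σ hirr
    have hsub : hfinS.toFinset.filter (fun ψ' => indFun M ψ' = fun g => σ (indFun M ψ g)) ⊆
        Finset.univ.image (fun q : P ⧸ M => Helper75.conjFun M q.out (fun m => σ (ψ m))) := by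
      intro ψ' hψ'
      rw [Finset.mem_filter, Set.Finite.mem_toFinset] at hψ'
      obtain ⟨⟨σ', rfl⟩, h2⟩ := hψ'
      obtain ⟨q, hq⟩ := pgf_fiber M (Helper75.isIrrCharacter_ringEquiv σ hψ)
        (Helper75.isIrrCharacter_ringEquiv σ' hψ) hirr' (h2.trans (pgf_ind_comp M ψ σ).symm)
      rw [Finset.mem_image]
      exact ⟨q, Finset.mem_univ _, hq.symm⟩
    calc _ ≤ _ := Finset.card_le_card hsub
      _ ≤ _ := Finset.card_image_le
      _ = M.index := hidx.symm
  have hsum : hfinS.toFinset.card =
      ∑ τ ∈ hfinT.toFinset, (hfinS.toFinset.filter (fun ψ' => indFun M ψ' = τ)).card :=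
    Finset.card_eq_sum_card_fiberwise hmap
  have hsum2 : ∑ _τ ∈ hfinT.toFinset, M.index = M.index * fieldDeg (indFun M ψ) := by
    rw [Finset.sum_const, smul_eq_mul, hcT, mul_comm]
  refine ⟨?_, ?_⟩
  · rw [hcS, hsum, ← hsum2]; exact Finset.sum_le_sum hle
  · intro heq x
    rw [hcS, hsum, ← hsum2] at heq
    have h3 := (Finset.sum_eq_sum_iff_of_le hle).mp heq
    have hχT : indFun M ψ ∈ hfinT.toFinset := by
      rw [Set.Finite.mem_toFinset]; exact pgf_self_mem_galOrb _
    have h4 := h3 _ hχT
    have hsub : hfinS.toFinset.filter (fun ψ' => indFun M ψ' = indFun M ψ) ⊆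
        Finset.univ.image (fun q : P ⧸ M => Helper75.conjFun M q.out ψ) := by
      intro ψ' hψ'
      rw [Finset.mem_filter, Set.Finite.mem_toFinset] at hψ'
      obtain ⟨⟨σ', rfl⟩, h2⟩ := hψ'
      obtain ⟨q, hq⟩ := pgf_fiber M hψ (Helper75.isIrrCharacter_ringEquiv σ' hψ) hirr h2
      rw [Finset.mem_image]
      exact ⟨q, Finset.mem_univ _, hq.symm⟩
    have h5 := Finset.eq_of_subset_of_card_le hsub (by rw [h4, hidx]; exact Finset.card_image_le)
    have h6 : Helper75.conjFun M (QuotientGroup.mk (s := M) x).out ψ ∈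
        hfinS.toFinset.filter (fun ψ' => indFun M ψ' = indFun M ψ) := by
      rw [h5, Finset.mem_image]; exact ⟨_, Finset.mem_univ _, rfl⟩
    rw [Finset.mem_filter, Set.Finite.mem_toFinset] at h6
    rw [pgf_conjFun_out M hψc x]
    exact h6.1

theorem pgf_conjFun_one {P : Type u} [Group P] (M : Subgroup P) [hN : M.Normal] (ψ : M → ℂ)
    (x : P) : Helper75.conjFun M x ψ 1 = ψ 1 := by
  rw [Helper75.conjFun_apply]
  congr 1
  apply Subtype.ext
  simp

/-- If all conjugates of `ψ` take the value `ψ 1` at `m` and the induced function is faithful,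
then `m = 1`. -/
theorem pgf_eq_one_of_conj {P : Type u} [Group P] [Fintype P] (M : Subgroup P) [hN : M.Normal]
    (ψ : M → ℂ) (hfaith : ∀ g : P, indFun M ψ g = indFun M ψ 1 → g = 1) (m : M)
    (h : ∀ x : P, Helper75.conjFun M x ψ m = ψ 1) : m = 1 := by
  apply Subtype.ext
  rw [Subgroup.coe_one]
  apply hfaith
  have h1 := Helper75.indFun_apply_mem M ψ m
  have h2 := Helper75.indFun_apply_mem M ψ 1
  rw [Subgroup.coe_one] at h2
  rw [h1, h2]
  congr 1
  apply Finset.sum_congr rfl
  intro x _
  rw [h x, pgf_conjFun_one]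

/-- The order of `M` is bounded by the index of the kernel of `ψ`, when the induced character is
faithful. -/
theorem pgf_card_le_index_pow {P : Type u} [Group P] [Fintype P] (M : Subgroup P)
    [hN : M.Normal] {ψ : M → ℂ} (hψ : IsCharacter M ψ)
    (hfaith : ∀ g : P, indFun M ψ g = indFun M ψ 1 → g = 1) :
    Nat.card M ≤ (Helper79.charKer hψ).index ^ M.index := by
  classical
  have hbot : (⨅ q : P ⧸ M,
      Helper79.charKer (Helper75.isCharacter_conjFun M q.out hψ)) = ⊥ := by
    rw [eq_bot_iff]
    intro m hm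
    rw [Subgroup.mem_iInf] at hm
    rw [Subgroup.mem_bot]
    apply pgf_eq_one_of_conj M ψ hfaith m
    intro x
    have h1 := hm (QuotientGroup.mk x)
    rw [Helper79.mem_charKer] at h1
    rw [pgf_conjFun_out M hψ x, h1]
    exact pgf_conjFun_one M ψ _
  have hidx : ∀ q : P ⧸ M,
      (Helper79.charKer (Helper75.isCharacter_conjFun M q.out hψ)).index =
        (Helper79.charKer hψ).index := by
    intro q
    have h1 : Helper79.charKer (Helper75.isCharacter_conjFun M q.out hψ) =
        (Helper79.charKer hψ).comap (MulAut.conjNormal q.out : M ≃* M).toMonoidHom := by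
      ext m
      rw [Subgroup.mem_comap, Helper79.mem_charKer, Helper79.mem_charKer, pgf_conjFun_one,
        Helper75.conjFun_apply]
      rfl
    rw [h1]
    exact Subgroup.index_comap_of_surjective _ (MulEquiv.surjective _)
  calc Nat.card M = (⊥ : Subgroup M).index := Subgroup.index_bot.symm
    _ = (⨅ q : P ⧸ M,
          Helper79.charKer (Helper75.isCharacter_conjFun M q.out hψ)).index := by rw [hbot]
    _ ≤ ∏ q : P ⧸ M,
          (Helper79.charKer (Helper75.isCharacter_conjFun M q.out hψ)).index :=
        Subgroup.index_iInf_le _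
    _ = (Helper79.charKer hψ).index ^ M.index := by
        rw [Finset.prod_congr rfl (fun q _ => hidx q), Finset.prod_const, Finset.card_univ,
          ← Nat.card_eq_fintype_card]
        rfl

/-- If all conjugates of `ψ` are Galois conjugate to `ψ` and the induced character is faithful,
then `ψ` is faithful. -/
theorem pgf_ker_bot {P : Type u} [Group P] [Fintype P] (M : Subgroup P) [hN : M.Normal]
    {ψ : M → ℂ} (hψ : IsCharacter M ψ)
    (hfaith : ∀ g : P, indFun M ψ g = indFun M ψ 1 → g = 1)
    (hgal : ∀ x : P, Helper75.conjFun M x ψ ∈ galOrb ψ) : Helper79.charKer hψ = ⊥ := by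
  rw [eq_bot_iff]
  intro m hm
  rw [Helper79.mem_charKer] at hm
  rw [Subgroup.mem_bot]
  apply pgf_eq_one_of_conj M ψ hfaith m
  intro x
  obtain ⟨σ, hσ⟩ := hgal x
  have h1 : Helper75.conjFun M x ψ m = σ (ψ m) := (congrFun hσ m).symm
  have h2 : Helper75.conjFun M x ψ 1 = σ (ψ 1) := (congrFun hσ 1).symm
  rw [h1, hm, ← h2, pgf_conjFun_one]

/-- Base case: a faithful linear character of a group of order `p ^ a`. -/
theorem pgf_base {P : Type u} [Group P] [Finite P] (p a : ℕ) (hp : p.Prime) (ha : 0 < a)
    (hP : Nat.card P = p ^ a) {χ : P → ℂ} (hχ : IsCharacter P χ) (h1 : χ 1 = 1)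
    (hfaith : ∀ g : P, χ g = χ 1 → g = 1) : p ^ (a - 1) ∣ fieldDeg χ := by
  obtain ⟨f, hf⟩ := Helper79.isCharacter_linear hχ h1
  have hinj : Function.Injective f := by
    rw [injective_iff_map_eq_one]
    intro g hg
    apply hfaith
    rw [hf g, hg, h1]
    rfl
  have hinj' : Function.Injective ((Units.coeHom ℂ).comp f) :=
    Units.val_injective.comp hinj
  have hcyc : IsCyclic P := isCyclic_of_injective_ringHom ((Units.coeHom ℂ).comp f) hinj'
  obtain ⟨g, hg⟩ := IsCyclic.exists_ofOrder_eq_natCard (α := P)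
  have hord : orderOf ((f g : ℂˣ) : ℂ) = p ^ a := by
    rw [orderOf_units, orderOf_injective f hinj g, hg, hP]
  have hprim : IsPrimitiveRoot ((f g : ℂˣ) : ℂ) (p ^ a) := by
    rw [← hord]; exact IsPrimitiveRoot.orderOf _
  have hpa : p ^ a ≠ 0 := pow_ne_zero _ hp.ne_zero
  have hle : Helper75.cycField (p ^ a) ≤ IntermediateField.adjoin ℚ (Set.range χ) := by
    unfold Helper75.cycField
    rw [IntermediateField.adjoin_le_iff]
    rintro b ⟨m, hm, -, hb⟩
    rw [Set.mem_singleton_iff] at hm
    subst hm
    have : NeZero (p ^ a) := ⟨hpa⟩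
    obtain ⟨i, -, hi⟩ := hprim.eq_pow_of_pow_eq_one hb
    apply IntermediateField.subset_adjoin ℚ
    refine ⟨g ^ i, ?_⟩
    rw [hf, map_pow, Units.val_pow_eq_pow_val, hi]
  have hcyc2 := Helper75.isCyclotomicExtension_cycField (p ^ a) hpa
  have : NeZero (p ^ a) := ⟨hpa⟩
  have hfin : Module.finrank ℚ (Helper75.cycField (p ^ a)) = (p ^ a).totient :=
    IsCyclotomicExtension.finrank (Helper75.cycField (p ^ a))
      (Polynomial.cyclotomic.irreducible_rat (Nat.pos_of_ne_zero hpa))
  have hdvd := IntermediateField.finrank_dvd_of_le_right hle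
  rw [hfin, Nat.totient_prime_pow hp ha] at hdvd
  exact (Dvd.intro _ rfl).trans hdvd

theorem pgf_arithA (q g b τ : ℕ) (hq : 1 ≤ q) (IH : q * b ≤ g + q * (τ + 1 + 1) * (g + 1)) :
    q * (b + 1) ≤ (q * (g + 1) + g) + q * (τ + 1) * ((q + 1) * (g + 1)) := by
  have h1 : q * (τ + 1 + 1) * (g + 1) + q ≤
      q * (g + 1) + q * (τ + 1) * ((q + 1) * (g + 1)) := by
    have h2 : q * (τ + 1) * (2 * (g + 1)) ≤ q * (τ + 1) * ((q + 1) * (g + 1)) :=
      Nat.mul_le_mul_left _ (Nat.mul_le_mul_right _ (by omega))
    have h3 : q * (τ + 1 + 1) * (g + 1) + q ≤ q * (g + 1) + q * (τ + 1) * (2 * (g + 1)) := by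
      have e1 : q * (τ + 1 + 1) * (g + 1) = q * τ * g + q * τ + 2 * (q * g) + 2 * q := by ring
      have e2 : q * (g + 1) + q * (τ + 1) * (2 * (g + 1)) =
          2 * (q * τ * g) + 2 * (q * τ) + 3 * (q * g) + 3 * q := by ring
      rw [e1, e2]
      omega
    exact h3.trans (Nat.add_le_add_left h2 _)
  have e3 : q * (b + 1) = q * b + q := by ring
  rw [e3]
  omega

theorem pgf_arithB (q g a a' τ : ℕ) (h : a ≤ a' * (q + 1) + 1)
    (IH : q * a' ≤ g + q * (τ + 1) * (g + 1)) :
    q * a ≤ (q * (g + 1) + g) + q * (τ + 1) * ((q + 1) * (g + 1)) := by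
  calc q * a ≤ q * (a' * (q + 1) + 1) := Nat.mul_le_mul_left _ h
    _ = (q * a') * (q + 1) + q := by ring
    _ ≤ (g + q * (τ + 1) * (g + 1)) * (q + 1) + q :=
        Nat.add_le_add_right (Nat.mul_le_mul_right _ IH) _
    _ = (q * (g + 1) + g) + q * (τ + 1) * ((q + 1) * (g + 1)) := by ring

/-- The main bound, by induction on the order: for a faithful irreducible character `χ` of degree
`f` of a group of order `p ^ a`, `(p - 1) a ≤ (f - 1) + (p - 1) (t + 1) f` where `p ^ t` is the
`p`-part of the degree of the field of values of `χ`. -/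
theorem pgf_main (p : ℕ) (hp : p.Prime) (n : ℕ) :
    ∀ (P : Type u) [Group P] [Fintype P] (a : ℕ), Nat.card P = n → Nat.card P = p ^ a →
      ∀ χ : P → ℂ, IsIrrCharacter P χ → (∀ g : P, χ g = χ 1 → g = 1) →
        ∀ f : ℕ, χ 1 = (f : ℂ) →
          (p - 1) * a ≤ (f - 1) + (p - 1) * ((fieldDeg χ).factorization p + 1) * f := by
  induction n using Nat.strong_induction_on with
  | _ n ih =>
    intro P _ _ a hn hP χ hirr hfaith f hf1
    classical
    have hχc := Helper79.isCharacter_of_irr hirr
    have hfpos : 0 < fieldDeg χ := pgf_fieldDeg_pos hχc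
    by_cases ha0 : a = 0
    · subst ha0; simp
    have ha : 0 < a := Nat.pos_of_ne_zero ha0
    by_cases hlin : χ 1 = 1
    · -- base case
      have hf : f = 1 := by
        rw [hlin] at hf1; exact_mod_cast hf1.symm
      subst hf
      have hdvd := pgf_base p a hp ha hP hχc hlin hfaith
      have hle : a - 1 ≤ (fieldDeg χ).factorization p :=
        (hp.pow_dvd_iff_le_factorization hfpos.ne').mp hdvd
      have hle2 : a ≤ (fieldDeg χ).factorization p + 1 := by omega
      calc (p - 1) * a ≤ (p - 1) * ((fieldDeg χ).factorization p + 1) :=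
            Nat.mul_le_mul_left _ hle2
        _ = _ := by simp
    · -- inductive step
      have hfact : Fact p.Prime := ⟨hp⟩
      have hpg : IsPGroup p P := IsPGroup.of_card hP
      have hnil : Group.IsNilpotent P := hpg.isNilpotent
      obtain ⟨H, lam, hχeq⟩ := Helper3.nilpotent_mgroup χ hirr
      have hHtop : H ≠ ⊤ := by
        intro hH
        subst hH
        apply hlin
        have hc : (Nat.card P : ℂ) ≠ 0 := by exact_mod_cast Nat.card_pos.ne'
        rw [hχeq, Helper75.indFun_one, Subgroup.card_top, div_self hc, one_mul]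
        simp
      have hdvdH : Nat.card H ∣ p ^ a := by
        rw [← hP]; exact Subgroup.card_subgroup_dvd_card H
      obtain ⟨k, hka, hk⟩ := (Nat.dvd_prime_pow hp).mp hdvdH
      have hklt : k < a := by
        rcases lt_or_eq_of_le hka with h | h
        · exact h
        · exfalso
          apply hHtop
          apply Subgroup.eq_top_of_card_eq
          rw [hk, h, hP]
      have hdvdM : p ^ (a - 1) ∣ Nat.card P := by
        rw [hP]; exact pow_dvd_pow _ (Nat.sub_le _ _)
      obtain ⟨M, hMcard, hHM⟩ :=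
        @Sylow.exists_subgroup_card_pow_prime_le P _ _ p k (a - 1) _ hdvdM H hk (by omega)
      have hpow : p ^ a = p ^ (a - 1) * p := by
        rw [← pow_succ]; congr 1; omega
      have hMidx : M.index = p := by
        have h1 := Subgroup.card_mul_index M
        rw [hMcard, hP, hpow] at h1
        exact Nat.eq_of_mul_eq_mul_left (pow_pos hp.pos _) h1
      have hMnorm : M.Normal := by
        apply Subgroup.normal_of_index_eq_minFac_card
        rw [hMidx, hP, Nat.pow_minFac ha0, hp.minFac_eq]
      let _ : Fintype M := Fintype.ofFinite M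
      -- the character ψ of M
      have hθirr : IsIrrCharacter (H.subgroupOf M)
          (fun x => ((lam ⟨((x : M) : P), Subgroup.mem_subgroupOf.mp x.2⟩ : ℂˣ) : ℂ)) :=
        Helper79.isIrrCharacter_of_hom (lam.comp (Subgroup.subgroupOfEquivOfLe hHM).toMonoidHom)
      obtain ⟨ψ, hψdef⟩ : ∃ ψ : M → ℂ, ψ = indFun (H.subgroupOf M)
          (fun x => ((lam ⟨((x : M) : P), Subgroup.mem_subgroupOf.mp x.2⟩ : ℂˣ) : ℂ)) := ⟨_, rfl⟩
      have hχψ : χ = indFun M ψ := by
        rw [hχeq, hψdef]
        exact (Helper3.indFun_trans H M hHM (fun h => ((lam h : ℂˣ) : ℂ))).symm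
      have hψc : IsCharacter M ψ := by
        rw [hψdef]
        exact Helper3.isCharacter_indFun _ _ (Helper79.isCharacter_of_irr hθirr)
      have hirr' : IsIrrCharacter P (indFun M ψ) := by rw [← hχψ]; exact hirr
      have hψirr : IsIrrCharacter M ψ := pgf_irr_of_ind_irr M hψc hirr'
      have hfaith' : ∀ g : P, indFun M ψ g = indFun M ψ 1 → g = 1 := by
        rw [← hχψ]; exact hfaith
      -- degrees
      have hψ1 := Helper80.isCharacter_one_eq hψc
      obtain ⟨f', hf'⟩ : ∃ f' : ℕ, f' = charDegree ψ := ⟨_, rfl⟩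
      rw [← hf'] at hψ1
      have hff' : f = p * f' := by
        have h1 : χ 1 = (p : ℂ) * (f' : ℂ) := by
          rw [hχψ, Helper75.indFun_one, hψ1, hP, hMcard, hpow]
          congr 1
          push_cast
          have hne : ((p : ℂ) ^ (a - 1)) ≠ 0 := pow_ne_zero _ (by exact_mod_cast hp.ne_zero)
          field_simp
        rw [hf1] at h1
        exact_mod_cast h1
      have hf'pos : 0 < f' := by
        by_contra h0
        have h0' : f' = 0 := by omega
        have h7 := Helper80.irr_one_ne_zero ⟨ψ, hψirr⟩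
        apply h7
        change ψ 1 = 0
        rw [hψ1, h0']; simp
      -- quotient by the kernel
      have hKn : (Helper79.charKer hψc).Normal := Helper79.charKer_normal hψc
      obtain ⟨ψb, hψbirr, hψb⟩ :=
        Helper79.exists_irr_deflation (Helper79.charKer hψc) hψirr (fun x hx => hx)
      have hψb1' : ψb 1 = ψ 1 := by
        have h1 : ψb ((1 : M) : M ⧸ Helper79.charKer hψc) = ψ 1 := hψb 1
        rw [QuotientGroup.mk_one] at h1
        exact h1
      have hψbfaith : ∀ q : M ⧸ Helper79.charKer hψc, ψb q = ψb 1 → q = 1 := by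
        intro q hq
        obtain ⟨m, rfl⟩ := QuotientGroup.mk_surjective q
        rw [hψb m, hψb1'] at hq
        exact (QuotientGroup.eq_one_iff m).mpr hq
      have hfd : fieldDeg ψb = fieldDeg ψ := by
        unfold fieldDeg
        have hr : Set.range ψb = Set.range ψ := by
          ext z; constructor
          · rintro ⟨q, rfl⟩
            obtain ⟨m, rfl⟩ := QuotientGroup.mk_surjective q
            exact ⟨m, (hψb m).symm⟩
          · rintro ⟨m, rfl⟩
            exact ⟨_, hψb m⟩
        rw [hr]
      have hψb1 : ψb 1 = (f' : ℂ) := by rw [hψb1', hψ1]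
      have hdvdK : (Helper79.charKer hψc).index ∣ p ^ (a - 1) := by
        rw [← hMcard]; exact Subgroup.index_dvd_card _
      obtain ⟨a', ha'le, ha'⟩ := (Nat.dvd_prime_pow hp).mp hdvdK
      have hcardQ : Nat.card (M ⧸ Helper79.charKer hψc) = p ^ a' := ha'
      have hlt : Nat.card (M ⧸ Helper79.charKer hψc) < n := by
        rw [hcardQ, ← hn, hP]
        exact Nat.pow_lt_pow_right hp.one_lt (by omega)
      let _ : Fintype (M ⧸ Helper79.charKer hψc) := Fintype.ofFinite _
      have IH := ih _ hlt (M ⧸ Helper79.charKer hψc) a' rfl hcardQ ψb hψbirr hψbfaith f' hψb1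
      rw [hfd] at IH
      -- orbit counting
      obtain ⟨hcount, hcount_eq⟩ := pgf_orbit_count M hψirr hirr'
      rw [hMidx, ← hχψ] at hcount hcount_eq
      have hdvdF : fieldDeg χ ∣ fieldDeg ψ := by
        rw [hχψ]; exact pgf_fieldDeg_dvd M ψ
      obtain ⟨D, hD⟩ := hdvdF
      have hψpos : 0 < fieldDeg ψ := pgf_fieldDeg_pos hψc
      have hDpos : 0 < D := by
        rcases Nat.eq_zero_or_pos D with h | h
        · rw [h, mul_zero] at hD; omega
        · exact h
      have hDle : D ≤ p := by
        rw [hD, mul_comm] at hcount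
        exact Nat.le_of_mul_le_mul_right hcount hfpos
      have hcard := pgf_card_le_index_pow M hψc hfaith'
      rw [hMcard, hMidx, ha', ← pow_mul] at hcard
      have h3 : a - 1 ≤ a' * p := (Nat.pow_le_pow_iff_right hp.one_lt).mp hcard
      have hq1 : 1 ≤ p - 1 := by have := hp.two_le; omega
      obtain ⟨g, hg⟩ : ∃ g, f' = g + 1 := ⟨f' - 1, by omega⟩
      have hpq : p = (p - 1) + 1 := by omega
      have e1 : p * (g + 1) - 1 = (p - 1) * (g + 1) + g := by
        have e2 : p * (g + 1) = (p - 1) * (g + 1) + g + 1 := by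
          conv_lhs => rw [hpq]
          ring
        rw [e2, Nat.add_sub_cancel]
      rw [hff', hg, e1]
      rw [hg, Nat.add_sub_cancel] at IH
      rcases lt_or_eq_of_le hDle with hDlt | hDeq
      · -- D < p
        have hfac : (fieldDeg ψ).factorization p = (fieldDeg χ).factorization p := by
          rw [hD, Nat.factorization_mul hfpos.ne' hDpos.ne', Finsupp.add_apply,
            Nat.factorization_eq_zero_of_lt hDlt, add_zero]
        rw [hfac] at IH
        have hB := pgf_arithB (p - 1) g a a' ((fieldDeg χ).factorization p)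
          (by rw [← hpq]; omega) IH
        rw [← hpq] at hB
        exact hB
      · -- D = p
        have hgal := hcount_eq (by rw [hD, hDeq, mul_comm])
        have hbot := pgf_ker_bot M hψc hfaith' hgal
        have ha'eq : a' = a - 1 := by
          have h1 : (Helper79.charKer hψc).index = Nat.card M := by
            rw [hbot, Subgroup.index_bot]
          rw [h1, hMcard] at ha'
          exact (Nat.pow_right_injective hp.two_le ha').symm
        have hfac : (fieldDeg ψ).factorization p = (fieldDeg χ).factorization p + 1 := by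
          rw [hD, Nat.factorization_mul hfpos.ne' hDpos.ne', Finsupp.add_apply, hDeq,
            hp.factorization_self]
        rw [hfac, ha'eq] at IH
        have hA := pgf_arithA (p - 1) g (a - 1) ((fieldDeg χ).factorization p) hq1 IH
        have haa : a - 1 + 1 = a := by omega
        rw [haa, ← hpq] at hA
        exact hA

end Cfsg.Agent.Helper73
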