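import Cfsg.Agent.Helper85.PiDefs
import Cfsg.Agent.Helper85.PiGen

set_option autoImplicit false

namespace Cfsg.Agent.Helper73.PiFRAT

open Cfsg Cfsg.FusionSystem Cfsg.Agent.Helper85 Cfsg.Agent.Helper88

variable {Ω : Type*} [Group Ω] {S : Subgroup Ω}

theorem pi_frattini [Finite S] {p : ℕ} [Fact p.Prime] (hS : IsPGroup p S) {F : FusionSystem S}
    {T : Subgroup Ω} (hh : PiHyp F p T) (hc : PiConjS F p T) : PiFrat F p T := by
  intro P f hf hPT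
  have key : ∃ s ∈ S, PiGen F p T (P ⊓ T) (fun x => s⁻¹ * f x * s) := by
    refine alperin_induction hS hh.sat
      (fun P f => ∃ s ∈ S, PiGen F p T (P ⊓ T) (fun x => s⁻¹ * f x * s)) ?_ ?_ ?_ hf
    · intro R hRa _ _ _ α hα P hP
      have hRS : R ≤ S := hRa.1
      have : Finite R := Cfsg.Agent.Helper88.finite_of_le hRS
      obtain ⟨P₀, hP₀⟩ := hRa.2
      obtain ⟨σ, hσ, β, hβ, hαeq⟩ := exists_sylow_mul_pResidual P₀ ⟨α, hα⟩
      have hαeq' : α = (σ : MulAut R) * (β : MulAut R) := congrArg Subtype.val hαeq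
      rw [hP₀, Subgroup.mem_subgroupOf] at hσ
      obtain ⟨s, hs, hsc⟩ := (Cfsg.Agent.Helper88.mem_autInducedBy_iff S R _).1 hσ
      have hinv : ∀ γ ∈ F.autGroup R, ∀ x ∈ R ⊓ T, autFun γ x ∈ R ⊓ T := by
        intro γ hγ x hx
        exact ⟨autFun_mem γ hx.1,
          pi_mapsTo hS hh (IsMap.of_mem_autGroup hRS hγ) x hx.1 hx.2⟩
      obtain ⟨Ψ, hΨ⟩ := exists_restrictHom (F.autGroup R) (inf_le_left : R ⊓ T ≤ R) hinv
      have hRTS : R ⊓ T ≤ S := inf_le_left.trans hRS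
      have hΨmem : ∀ γ : F.autGroup R, Ψ γ ∈ F.autGroup (R ⊓ T) := by
        intro γ
        rw [Cfsg.Agent.Helper88.mem_autGroup_iff F hRTS]
        exact ((IsMap.of_mem_autGroup hRS γ.2).restrict inf_le_left).congr
          (fun x hx => hΨ γ x hx)
      let Ψ' : F.autGroup R →* F.autGroup (R ⊓ T) := Ψ.codRestrict (F.autGroup (R ⊓ T)) hΨmem
      have hβ' : Ψ' β ∈ pResidual p (F.autGroup (R ⊓ T)) := map_pResidual_le p Ψ' hβ
      have hβO : Ψ β ∈ PiO F p (R ⊓ T) := ⟨Ψ' β, hβ', rfl⟩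
      refine ⟨s, hs, PiGen.congr (PiGen.base inf_le_right hβO (inf_le_inf_right T hP)) ?_⟩
      intro x hx
      have hxR : x ∈ R := hP hx.1
      have hxRT : x ∈ R ⊓ T := ⟨hxR, hx.2⟩
      show s⁻¹ * autFun α x * s = autFun (Ψ β) x
      rw [hΨ β x hxRT]
      have hβR : autFun (β : MulAut R) x ∈ R := autFun_mem _ hxR
      rw [hαeq', autFun_mul _ _ hxR, autFun_apply' _ hβR, hsc]
      show s⁻¹ * (s * autFun (β : MulAut R) x * s⁻¹) * s = autFun (β : MulAut R) x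
      group
    · intro P Q f g hf hg hCf hCg hPQ
      obtain ⟨s₁, hs₁, h₁⟩ := hCf
      obtain ⟨s₂, hs₂, h₂⟩ := hCg
      have hconj := hc (Q ⊓ T) _ s₁⁻¹ h₂ (S.inv_mem hs₁)
      have hQTS : Q ⊓ T ≤ S := inf_le_right.trans hh.le
      have hmem : ∀ x ∈ P ⊓ T, (fun x => s₁⁻¹ * f x * s₁) x ∈
          img (Q ⊓ T) (fun x => s₁⁻¹ * x * s₁⁻¹⁻¹) := by
        intro x hx
        have hfx : f x ∈ Q ⊓ T := ⟨hPQ x hx.1, pi_mapsTo hS hh hf x hx.1 hx.2⟩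
        have h3 := (isMap_conj F hQTS (S.inv_mem hs₁)).apply_mem_img hfx
        have h4 : s₁⁻¹ * f x * s₁ = s₁⁻¹ * f x * s₁⁻¹⁻¹ := by rw [inv_inv]
        show s₁⁻¹ * f x * s₁ ∈ img (Q ⊓ T) (fun x => s₁⁻¹ * x * s₁⁻¹⁻¹)
        rw [h4]
        exact h3
      refine ⟨s₂ * s₁, S.mul_mem hs₂ hs₁, PiGen.congr (PiGen.comp h₁ hconj hmem) ?_⟩
      intro x hx
      show (s₂ * s₁)⁻¹ * g (f x) * (s₂ * s₁) =
        s₁⁻¹ * (s₂⁻¹ * g (s₁⁻¹⁻¹ * (s₁⁻¹ * f x * s₁) * s₁⁻¹) * s₂) * s₁⁻¹⁻¹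
      have h4 : s₁⁻¹⁻¹ * (s₁⁻¹ * f x * s₁) * s₁⁻¹ = f x := by group
      rw [h4]
      group
    · intro P f g _ hCf hfg
      obtain ⟨s, hs, h⟩ := hCf
      refine ⟨s, hs, PiGen.congr h ?_⟩
      intro x hx
      show s⁻¹ * g x * s = s⁻¹ * f x * s
      rw [hfg x hx.1]
  rw [inf_eq_left.mpr hPT] at key
  exact key

end Cfsg.Agent.Helper73.PiFRAT
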