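import Cfsg.Agent.Helper73.SumSqDeg
import Cfsg.Agent.Helper77.BlockRank
import Cfsg.Agent.Helper77.Defect

/-!
# Blocks of `p`-regular rank one

If `l(B) = 1` then all `χ°` (`χ ∈ B`) are natural multiples `d_χ φ` of a single function `φ` which
is an integer combination of `B` on the `p`-regular elements, and `∑ d_χ^2 = p^d`.
-/

set_option autoImplicit false
open Cfsg
open scoped ComplexConjugate

namespace Cfsg.Agent.Helper73

universe u

variable {G : Type u} [Group G] [Fintype G]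

omit [Fintype G] in
/-- Rank one: the members of `B` are proportional on the `p`-regular elements. -/
theorem pRegular_prop_of_blockRank_one [Finite G] {p : ℕ} (hp : p.Prime)
    {B : Set (Cfsg.IrrCharacter G)}
    (hl : Cfsg.blockRank p B = 1) {χ₀ χ : Cfsg.IrrCharacter G} (hχ₀ : χ₀ ∈ B) (hχ : χ ∈ B)
    (x : G) (hx : ¬ p ∣ orderOf x) :
    (χ : G → ℂ) x * (χ₀ : G → ℂ) 1 = (χ : G → ℂ) 1 * (χ₀ : G → ℂ) x := by
  classical
  unfold Cfsg.blockRank at hl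
  have hv₀ : Cfsg.pRegularPart p (χ₀ : G → ℂ) ∈ Submodule.span ℂ
      ((fun χ : Cfsg.IrrCharacter G => Cfsg.pRegularPart p (χ : G → ℂ)) '' B) :=
    Submodule.subset_span ⟨χ₀, hχ₀, rfl⟩
  have hv : Cfsg.pRegularPart p (χ : G → ℂ) ∈ Submodule.span ℂ
      ((fun χ : Cfsg.IrrCharacter G => Cfsg.pRegularPart p (χ : G → ℂ)) '' B) :=
    Submodule.subset_span ⟨χ, hχ, rfl⟩
  have h1 : ¬ p ∣ orderOf (1 : G) := by
    rw [orderOf_one]
    exact hp.one_lt.ne' ∘ Nat.dvd_one.mp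
  have hne : (⟨_, hv₀⟩ : ↥(Submodule.span ℂ
      ((fun χ : Cfsg.IrrCharacter G => Cfsg.pRegularPart p (χ : G → ℂ)) '' B))) ≠ 0 := by
    intro h
    have h2 := congrArg (fun v : ↥(Submodule.span ℂ
      ((fun χ : Cfsg.IrrCharacter G => Cfsg.pRegularPart p (χ : G → ℂ)) '' B)) =>
        (v : G → ℂ) 1) h
    simp only [Submodule.coe_zero, Pi.zero_apply] at h2
    rw [Helper77.pRegularPart_apply, if_pos h1] at h2
    exact Helper81.irr_one_ne_zero χ₀ h2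
  obtain ⟨c, hc⟩ := (finrank_eq_one_iff_of_nonzero' _ hne).mp hl ⟨_, hv⟩
  have hc' : ∀ y, c * Cfsg.pRegularPart p (χ₀ : G → ℂ) y = Cfsg.pRegularPart p (χ : G → ℂ) y := by
    intro y
    have h2 := congrArg (fun v : ↥(Submodule.span ℂ
      ((fun χ : Cfsg.IrrCharacter G => Cfsg.pRegularPart p (χ : G → ℂ)) '' B)) =>
        (v : G → ℂ) y) hc
    simpa using h2
  have e1 := hc' 1
  have ex := hc' x
  rw [Helper77.pRegularPart_apply, Helper77.pRegularPart_apply, if_pos h1, if_pos h1] at e1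
  rw [Helper77.pRegularPart_apply, Helper77.pRegularPart_apply, if_pos hx, if_pos hx] at ex
  rw [← ex, ← e1]
  ring

/-- **Blocks with one Brauer character**: the unique Cartan invariant is `p^d`. -/
theorem rank_one_cartan {p : ℕ} {M : Ideal Cfsg.AlgInt} (hM : Cfsg.IsPModular p M)
    {B : Set (Cfsg.IrrCharacter G)} (hB : Cfsg.IsPBlock M B) (hl : Cfsg.blockRank p B = 1) :
    ∃ φ : G → ℂ, ∃ d : Cfsg.IrrCharacter G → ℕ,
      (∃ n : Cfsg.IrrCharacter G → ℤ, ∀ x : G, ¬ p ∣ orderOf x →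
        φ x = ∑ᶠ ψ ∈ B, (n ψ : ℂ) * (ψ : G → ℂ) x) ∧
      (∀ χ ∈ B, ∀ x : G, ¬ p ∣ orderOf x → (χ : G → ℂ) x = (d χ : ℂ) * φ x) ∧
      ∑ᶠ χ ∈ B, d χ ^ 2 = p ^ Cfsg.blockDefect p B := by
  classical
  have hp := hM.1
  have hpf : Fact p.Prime := ⟨hp⟩
  have hMm := hM.2.1
  have := Fintype.ofFinite (Cfsg.IrrCharacter G)
  have hG : (Nat.card G : ℂ) ≠ 0 := by exact_mod_cast Nat.card_pos.ne'
  obtain ⟨χ₀, hχ₀, h0⟩ := Helper16.exists_height_zero (p := p) hMm hB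
  have hadd := Helper16.factorization_charDegree_add_blockDefect hχ₀ h0
  obtain ⟨s, hsdef⟩ : ∃ s : Finset (Cfsg.IrrCharacter G),
      s = Finset.univ.filter (fun ψ => ψ ∈ B) := ⟨_, rfl⟩
  have hmem : ∀ ψ, ψ ∈ s ↔ ψ ∈ B := fun ψ => by simp [hsdef]
  have htf : (Set.toFinite B).toFinset = s := by
    ext ψ
    simp [hsdef]
  obtain ⟨f, hfdef⟩ : ∃ f : Cfsg.IrrCharacter G → ℤ,
      ∀ ψ, f ψ = (Cfsg.charDegree (ψ : G → ℂ) : ℤ) := ⟨_, fun _ => rfl⟩
  obtain ⟨n, hn⟩ := Finset.gcd_eq_sum_mul s f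
  have hgdvd : ∀ ψ ∈ B, s.gcd f ∣ f ψ := fun ψ hψ => Finset.gcd_dvd ((hmem ψ).mpr hψ)
  have hgnn : 0 ≤ s.gcd f := Int.nonneg_of_normalize_eq_self Finset.normalize_gcd
  obtain ⟨g, hg⟩ : ∃ g : ℕ, (g : ℤ) = s.gcd f := ⟨(s.gcd f).toNat, Int.toNat_of_nonneg hgnn⟩
  have hn' : (g : ℤ) = ∑ ψ ∈ s, f ψ * n ψ := hg.trans hn
  have hgdvd' : ∀ ψ ∈ B, g ∣ Cfsg.charDegree (ψ : G → ℂ) := fun ψ hψ => by
    have := hgdvd ψ hψ
    rw [← hg, hfdef] at this
    exact Int.natCast_dvd_natCast.mp this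
  have hg0 : g ≠ 0 := by
    rintro rfl
    have := hgdvd' χ₀ hχ₀
    rw [zero_dvd_iff] at this
    exact (Helper81.charDegree_pos χ₀).ne' this
  obtain ⟨d, hddef⟩ : ∃ d : Cfsg.IrrCharacter G → ℕ,
      ∀ ψ, d ψ = Cfsg.charDegree (ψ : G → ℂ) / g := ⟨_, fun _ => rfl⟩
  have hd : ∀ ψ ∈ B, Cfsg.charDegree (ψ : G → ℂ) = d ψ * g := fun ψ hψ => by
    rw [hddef]
    exact (Nat.div_mul_cancel (hgdvd' ψ hψ)).symm
  have hbez : (g : ℂ) = ∑ ψ ∈ s, (Cfsg.charDegree (ψ : G → ℂ) : ℂ) * (n ψ : ℂ) := by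
    have h1 : ((g : ℤ) : ℂ) = ((∑ ψ ∈ s, f ψ * n ψ : ℤ) : ℂ) := by rw [hn']
    push_cast at h1
    rw [h1]
    refine Finset.sum_congr rfl fun ψ _ => ?_
    rw [hfdef]
    push_cast
    ring
  have hbez1 : ∑ ψ ∈ s, (d ψ : ℤ) * n ψ = 1 := by
    have h1 : (g : ℤ) * ∑ ψ ∈ s, (d ψ : ℤ) * n ψ = (g : ℤ) * 1 := by
      rw [mul_one, Finset.mul_sum]
      conv_rhs => rw [hn']
      refine Finset.sum_congr rfl fun ψ hψ => ?_
      have h2 : f ψ = (d ψ : ℤ) * (g : ℤ) := by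
        rw [hfdef]
        exact_mod_cast hd ψ ((hmem ψ).mp hψ)
      rw [h2]
      ring
    exact mul_left_cancel₀ (by exact_mod_cast hg0) h1
  have hprop : ∀ χ ∈ B, ∀ x : G, ¬ p ∣ orderOf x →
      (χ : G → ℂ) x * (χ₀ : G → ℂ) 1 = (χ : G → ℂ) 1 * (χ₀ : G → ℂ) x :=
    fun χ hχ x hx => pRegular_prop_of_blockRank_one hp hl hχ₀ hχ x hx
  have hχ₀1 := Helper81.irr_one_ne_zero χ₀
  obtain ⟨φ, hφdef⟩ : ∃ φ : G → ℂ,
      ∀ x, φ x = (g : ℂ) * (χ₀ : G → ℂ) x / (χ₀ : G → ℂ) 1 := ⟨_, fun _ => rfl⟩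
  have hχφ : ∀ χ ∈ B, ∀ x : G, ¬ p ∣ orderOf x → (χ : G → ℂ) x = (d χ : ℂ) * φ x := by
    intro χ hχ x hx
    have h1 := hprop χ hχ x hx
    rw [Helper81.irr_one_eq_charDegree χ, hd χ hχ] at h1
    push_cast at h1
    rw [hφdef, ← mul_div_assoc, eq_div_iff hχ₀1, h1]
    ring
  have hφn : ∀ x : G, ¬ p ∣ orderOf x → φ x = ∑ᶠ ψ ∈ B, (n ψ : ℂ) * (ψ : G → ℂ) x := by
    intro x hx
    rw [finsum_mem_eq_finite_toFinset_sum _ (Set.toFinite B), htf]
    have h1 : ∀ ψ ∈ s, (n ψ : ℂ) * (ψ : G → ℂ) x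
        = (Cfsg.charDegree (ψ : G → ℂ) : ℂ) * n ψ
          * ((χ₀ : G → ℂ) x / (χ₀ : G → ℂ) 1) := by
      intro ψ hψ
      have h2 := hprop ψ ((hmem ψ).mp hψ) x hx
      rw [Helper81.irr_one_eq_charDegree ψ] at h2
      rw [← mul_div_assoc, eq_div_iff hχ₀1]
      linear_combination (n ψ : ℂ) * h2
    rw [Finset.sum_congr rfl h1, ← Finset.sum_mul, ← hbez, hφdef]
    ring
  refine ⟨φ, d, ⟨n, hφn⟩, hχφ, ?_⟩
  rw [finsum_mem_eq_finite_toFinset_sum _ (Set.toFinite B), htf]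
  obtain ⟨c, hcdef⟩ : ∃ c : ℕ, c = ∑ χ ∈ s, d χ ^ 2 := ⟨_, rfl⟩
  rw [← hcdef]
  have hρ : ∑ᶠ χ ∈ B, Cfsg.charDegree (χ : G → ℂ) ^ 2 = g ^ 2 * c := by
    rw [finsum_mem_eq_finite_toFinset_sum _ (Set.toFinite B), htf, hcdef, Finset.mul_sum]
    refine Finset.sum_congr rfl fun χ hχ => ?_
    rw [hd χ ((hmem χ).mp hχ)]
    ring
  have hc0 : c ≠ 0 := by
    have h1 : d χ₀ ^ 2 ≤ c := by
      rw [hcdef]
      exact Finset.single_le_sum (f := fun χ => d χ ^ 2) (fun _ _ => Nat.zero_le _)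
        ((hmem χ₀).mpr hχ₀)
    have h2 : d χ₀ ≠ 0 := by
      intro h
      have := hd χ₀ hχ₀
      rw [h, zero_mul] at this
      exact (Helper81.charDegree_pos χ₀).ne' this
    have h3 : 0 < d χ₀ ^ 2 := by positivity
    omega
  -- valuations
  have hval := factorization_sum_sq_charDegree hM hB
  rw [hρ, Nat.factorization_mul (pow_ne_zero 2 hg0) hc0, Nat.factorization_pow] at hval
  simp only [Finsupp.coe_add, Finsupp.coe_smul, Pi.add_apply, Pi.smul_apply, smul_eq_mul] at hval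
  have hgval : g.factorization p = (Cfsg.charDegree (χ₀ : G → ℂ)).factorization p := by
    apply le_antisymm
    · exact (Nat.factorization_le_iff_dvd hg0 (Helper81.charDegree_pos χ₀).ne').mpr
        (hgdvd' χ₀ hχ₀) p
    · have h1 : ((p ^ (Cfsg.charDegree (χ₀ : G → ℂ)).factorization p : ℕ) : ℤ) ∣ s.gcd f := by
        apply Finset.dvd_gcd
        intro ψ hψ
        have hfac := factorization_eq_add_height hχ₀ h0 ((hmem ψ).mp hψ)
        have h2 : p ^ (Cfsg.charDegree (χ₀ : G → ℂ)).factorization p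
            ∣ Cfsg.charDegree (ψ : G → ℂ) :=
          (pow_dvd_pow p (by omega)).trans (Nat.ordProj_dvd _ _)
        rw [hfdef]
        exact Int.natCast_dvd_natCast.mpr h2
      rw [← hg] at h1
      exact (hp.pow_dvd_iff_le_factorization hg0).mp (Int.natCast_dvd_natCast.mp h1)
  have hcval : c.factorization p = Cfsg.blockDefect p B := by omega
  -- the inner products on the `p`-regular elements
  obtain ⟨S, hSdef⟩ : ∃ S : ℂ, S = Helper77.pregInner p φ φ := ⟨_, rfl⟩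
  have hpreg : ∀ ψ ∈ B, ∀ χ ∈ B, Helper77.pregInner p (ψ : G → ℂ) (χ : G → ℂ)
      = (d ψ : ℂ) * (d χ : ℂ) * S := by
    intro ψ hψ χ hχ
    rw [hSdef]
    unfold Helper77.pregInner
    rw [Finset.mul_sum]
    refine Finset.sum_congr rfl fun x _ => ?_
    by_cases hx : p ∣ orderOf x
    · simp [hx]
    · simp only [hx, not_false_eq_true, if_true]
      rw [hχφ ψ hψ x hx, hχφ χ hχ x hx, map_mul, Complex.conj_natCast]
      ring
  have hcS : (c : ℂ) * S = (Nat.card G : ℂ) := by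
    have h1 := Helper77.card_mul_blockRank hM hB
    rw [hl, Nat.cast_one, mul_one, ← hsdef] at h1
    rw [h1, hcdef]
    push_cast
    rw [Finset.sum_mul]
    refine Finset.sum_congr rfl fun χ hχ => ?_
    rw [hpreg χ ((hmem χ).mp hχ) χ ((hmem χ).mp hχ)]
    ring
  have hS0 : S ≠ 0 := by
    intro h
    rw [h, mul_zero] at hcS
    exact hG hcS.symm
  have hc0' : (c : ℂ) ≠ 0 := by exact_mod_cast hc0
  have hint : ∀ ψ ∈ B, ∀ χ ∈ B, ∃ k : ℤ,
      ((p ^ Cfsg.blockDefect p B * d ψ * d χ : ℕ) : ℤ) = (c : ℤ) * k := by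
    intro ψ hψ χ hχ
    have hmemZ : pregScal p ((p : ℂ) ^ Cfsg.blockDefect p B) (ψ : G → ℂ) ∈ blockSpanZ B :=
      pRegular_mem_blockSpanZ hp hM hB hψ _ (fun x hx => by simp [pregScal, hx])
        (fun x hx => by simp [pregScal, hx])
    obtain ⟨k, hk⟩ := classInner_int_of_mem_genSpanZ hmemZ.1 χ
    refine ⟨k, ?_⟩
    have h1 : Cfsg.classInner (pregScal p ((p : ℂ) ^ Cfsg.blockDefect p B) (ψ : G → ℂ))
        (χ : G → ℂ) = (Nat.card G : ℂ)⁻¹ * ((p : ℂ) ^ Cfsg.blockDefect p B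
          * Helper77.pregInner p (ψ : G → ℂ) (χ : G → ℂ)) := by
      unfold Cfsg.classInner pregScal Helper77.pregInner
      congr 1
      rw [Finset.mul_sum]
      refine Finset.sum_congr rfl fun x _ => ?_
      by_cases hx : p ∣ orderOf x
      · simp [hx]
      · simp only [hx, not_false_eq_true, if_true, if_false]
        ring
    rw [h1, hpreg ψ hψ χ hχ, ← hcS] at hk
    have h2 : ((p : ℂ) ^ Cfsg.blockDefect p B * d ψ * d χ) = (c : ℂ) * k := by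
      rw [← hk]
      field_simp
    exact_mod_cast h2
  have hcdvd : c ∣ p ^ Cfsg.blockDefect p B := by
    choose! K hK using hint
    have h1 : ((p ^ Cfsg.blockDefect p B : ℕ) : ℤ)
        = (c : ℤ) * ∑ ψ ∈ s, ∑ χ ∈ s, n ψ * n χ * K ψ χ := by
      calc ((p ^ Cfsg.blockDefect p B : ℕ) : ℤ)
          = ((p ^ Cfsg.blockDefect p B : ℕ) : ℤ) * ((∑ ψ ∈ s, (d ψ : ℤ) * n ψ)
              * (∑ χ ∈ s, (d χ : ℤ) * n χ)) := by rw [hbez1]; ring
        _ = ∑ ψ ∈ s, ∑ χ ∈ s, n ψ * n χ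
              * ((p ^ Cfsg.blockDefect p B * d ψ * d χ : ℕ) : ℤ) := by
            rw [Finset.sum_mul_sum, Finset.mul_sum]
            refine Finset.sum_congr rfl fun ψ _ => ?_
            rw [Finset.mul_sum]
            refine Finset.sum_congr rfl fun χ _ => ?_
            push_cast
            ring
        _ = ∑ ψ ∈ s, ∑ χ ∈ s, n ψ * n χ * ((c : ℤ) * K ψ χ) := by
            refine Finset.sum_congr rfl fun ψ hψ => Finset.sum_congr rfl fun χ hχ => ?_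
            rw [hK ψ ((hmem ψ).mp hψ) χ ((hmem χ).mp hχ)]
        _ = (c : ℤ) * ∑ ψ ∈ s, ∑ χ ∈ s, n ψ * n χ * K ψ χ := by
            rw [Finset.mul_sum]
            refine Finset.sum_congr rfl fun ψ _ => ?_
            rw [Finset.mul_sum]
            refine Finset.sum_congr rfl fun χ _ => ?_
            ring
    exact Int.natCast_dvd_natCast.mp ⟨_, h1⟩
  obtain ⟨j, -, hcj⟩ := (Nat.dvd_prime_pow hp).mp hcdvd
  have h1 := factorization_pow_mul_of_not_dvd hp j 1 (fun h => hp.one_lt.ne' (Nat.dvd_one.mp h))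
  rw [mul_one, ← hcj, hcval] at h1
  rw [hcj, h1]

end Cfsg.Agent.Helper73
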