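/-
helper73: CALL S88OE (helper43), piece AB (double): `oe_arith_bad`.
-/
import Mathlib
import Cfsg.Agent.Helper43.S88OEDefs

set_option autoImplicit false

namespace Cfsg.Agent.Helper73.S88OE

open Cfsg.Agent.Helper43.S88OE

/-- AB [pure ℕ]: if the condition of the row fails (and `i ≤ 2 d`), either the hypothesis of NDIV
holds or the maximal profile `A = d / (i / 2)`, `k₀ = d % (i / 2)` has no admissible pair. -/
theorem oe_arith_bad (d m i : ℕ) (hd : 4 ≤ d) (hm : 2 ≤ m) (hme : Even m) (hmd : m < d)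
    (hi : 2 ≤ i) (heven : Even i) (hid : i ≤ 2 * d)
    (hcond : ¬ (((2 * d) % i = 0 ∧ (Odd ((2 * d) / i) ∨ (m % i = 0 ∧ Odd (m / i)))) ∨
      (i ≤ m ∧ ((0 < m % i ∧ m % i < (2 * d) % i) ∨
        (0 < m % i ∧ m % i = (2 * d) % i ∧ Odd ((2 * d + m - 2 * ((2 * d) % i)) / i)) ∨
        (m % i = 0 ∧ 0 < (2 * d) % i ∧ Odd (m / i)))))) :
    (m < i ∧ (m < (2 * d) % i ∨ (m = (2 * d) % i ∧ Odd ((2 * d) / i)))) ∨
      ∃ A k₀, 1 ≤ A ∧ d = k₀ + i / 2 * A ∧ (k₀ = 0 → Even A) ∧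
        ∀ s w₂, Val A k₀ s w₂ → m ≠ 2 * (i / 2 * s + w₂) := by
  obtain ⟨j, hj⟩ := heven
  obtain ⟨m', hm'⟩ := hme
  have hj2 : i / 2 = j := by omega
  rw [hj2]
  have hjpos : 0 < j := by omega
  have hipos : 0 < i := by omega
  obtain ⟨a, b, hab, hb⟩ : ∃ a b, j * a + b = m' ∧ b < j :=
    ⟨m' / j, m' % j, Nat.div_add_mod m' j, Nat.mod_lt _ hjpos⟩
  obtain ⟨c, e, hce, he⟩ : ∃ c e, j * c + e = d ∧ e < j :=
    ⟨d / j, d % j, Nat.div_add_mod d j, Nat.mod_lt _ hjpos⟩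
  have hia : i * a = 2 * (j * a) := by rw [hj]; ring
  have hic : i * c = 2 * (j * c) := by rw [hj]; ring
  have hiac : i * (c + a) = i * c + i * a := by ring
  have hia1 : 1 ≤ a → i ≤ i * a := fun h => Nat.le_mul_of_pos_right i h
  have hia0 : a = 0 → i * a = 0 := fun h => by rw [h, Nat.mul_zero]
  have hm_dm : m / i = a ∧ m % i = 2 * b :=
    (Nat.div_mod_unique hipos).mpr ⟨by omega, by omega⟩
  have h2d : (2 * d) / i = c ∧ (2 * d) % i = 2 * e :=
    (Nat.div_mod_unique hipos).mpr ⟨by omega, by omega⟩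
  have hT : b = e → (2 * d + m - 2 * (2 * e)) / i = c + a := by
    intro hbe
    have h5 : 2 * d + m - 2 * (2 * e) = i * (c + a) := by omega
    rw [h5, Nat.mul_div_cancel_left _ hipos]
  rw [hm_dm.1, hm_dm.2, h2d.1, h2d.2] at hcond
  rw [h2d.1, h2d.2]
  simp only [Nat.odd_iff] at hcond ⊢
  have hc1 : 1 ≤ c := by
    by_contra hcon
    have hc0 : c = 0 := by omega
    rw [hc0, Nat.mul_zero] at hce
    omega
  by_cases hnd : m < i ∧ (m < 2 * e ∨ (m = 2 * e ∧ c % 2 = 1))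
  · exact Or.inl hnd
  · right
    refine ⟨c, e, hc1, by omega, ?_, ?_⟩
    · intro he0
      rw [Nat.even_iff]
      omega
    · intro s w₂ hV hms
      obtain ⟨hsA, hwk, hV3⟩ := hV
      have hm's : j * s + w₂ = m' := by omega
      have h1 : m' / j = s ∧ m' % j = w₂ :=
        (Nat.div_mod_unique hjpos).mpr ⟨by omega, by omega⟩
      have h2 : m' / j = a ∧ m' % j = b :=
        (Nat.div_mod_unique hjpos).mpr ⟨by omega, by omega⟩
      have hsa : s = a := h1.1.symm.trans h2.1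
      have hwb : w₂ = b := h1.2.symm.trans h2.2
      rw [hsa, hwb] at hV3
      simp only [Nat.odd_iff] at hV3
      omega

end Cfsg.Agent.Helper73.S88OE
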