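/-
helper73: CALL S88OE (helper43), piece AG (double): `oe_arith_good`.
-/
import Mathlib
import Cfsg.Agent.Helper43.S88OEDefs

set_option autoImplicit false

namespace Cfsg.Agent.Helper73.S88OE

open Cfsg.Agent.Helper43.S88OE

/-- AG [pure ℕ]: under the condition of the row, every profile `(A, k₀)` has an admissible pair. -/
theorem oe_arith_good (d m i : ℕ) (hd : 4 ≤ d) (hm : 2 ≤ m) (hme : Even m) (hmd : m < d)
    (hi : 2 ≤ i) (heven : Even i)
    (hcond : ((2 * d) % i = 0 ∧ (Odd ((2 * d) / i) ∨ (m % i = 0 ∧ Odd (m / i)))) ∨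
      (i ≤ m ∧ ((0 < m % i ∧ m % i < (2 * d) % i) ∨
        (0 < m % i ∧ m % i = (2 * d) % i ∧ Odd ((2 * d + m - 2 * ((2 * d) % i)) / i)) ∨
        (m % i = 0 ∧ 0 < (2 * d) % i ∧ Odd (m / i)))))
    (A k₀ : ℕ) (hA : 1 ≤ A) (hdk : d = k₀ + i / 2 * A) (hk₀ : k₀ = 0 → Even A) :
    ∃ s w₂, Val A k₀ s w₂ ∧ m = 2 * (i / 2 * s + w₂) := by
  obtain ⟨j, hj⟩ := heven
  obtain ⟨m', hm'⟩ := hme
  have hj2 : i / 2 = j := by omega
  rw [hj2] at hdk ⊢
  have hjpos : 0 < j := by omega
  have hipos : 0 < i := by omega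
  obtain ⟨a, b, hab, hb⟩ : ∃ a b, j * a + b = m' ∧ b < j :=
    ⟨m' / j, m' % j, Nat.div_add_mod m' j, Nat.mod_lt _ hjpos⟩
  have hia : i * a = 2 * (j * a) := by rw [hj]; ring
  have hiA : i * A = 2 * (j * A) := by rw [hj]; ring
  have hiA1 : i * (A + 1) = i * A + i := by ring
  have hiaA : i * (a + A) = i * a + i * A := by ring
  have hm_dm : m / i = a ∧ m % i = 2 * b :=
    (Nat.div_mod_unique hipos).mpr ⟨by omega, by omega⟩
  have hk₀' : k₀ = 0 → A % 2 = 0 := fun h => Nat.even_iff.mp (hk₀ h)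
  rcases Nat.lt_or_ge a A with haA | haA
  · -- `a < A`
    rcases Nat.eq_zero_or_pos b with hb0 | hbpos
    · -- `b = 0`
      have ha1 : 1 ≤ a := by
        by_contra hcon
        have ha0 : a = 0 := by omega
        rw [ha0, Nat.mul_zero] at hab
        omega
      rcases Nat.even_or_odd a with hae | hao
      · have hae' : a % 2 = 0 := Nat.even_iff.mp hae
        have hja : j * a = j * (a - 1) + j := by
          obtain ⟨a', rfl⟩ : ∃ a', a = a' + 1 := ⟨a - 1, by omega⟩
          rw [Nat.add_sub_cancel]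
          ring
        by_cases h1 : j < k₀
        · exact ⟨a - 1, j, ⟨by omega, by omega, Or.inl ⟨hjpos, h1⟩⟩, by omega⟩
        · by_cases h2 : j = k₀ ∧ A % 2 = 0
          · refine ⟨a - 1, j, ⟨by omega, by omega, Or.inr (Or.inr ⟨h2.1, ?_⟩)⟩, by omega⟩
            rw [Nat.odd_iff]
            omega
          · exfalso
            rcases Nat.lt_or_ge k₀ j with h3 | h3
            · have h2d : (2 * d) / i = A ∧ (2 * d) % i = 2 * k₀ :=
                (Nat.div_mod_unique hipos).mpr ⟨by omega, by omega⟩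
              rw [hm_dm.1, hm_dm.2, h2d.1, h2d.2] at hcond
              simp only [Nat.odd_iff] at hcond
              omega
            · have h2d : (2 * d) / i = A + 1 ∧ (2 * d) % i = 0 :=
                (Nat.div_mod_unique hipos).mpr ⟨by omega, by omega⟩
              rw [hm_dm.1, hm_dm.2, h2d.1, h2d.2] at hcond
              simp only [Nat.odd_iff] at hcond
              omega
      · exact ⟨a, 0, ⟨by omega, Nat.zero_le _, Or.inr (Or.inl ⟨rfl, hao⟩)⟩, by omega⟩
    · -- `0 < b`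
      by_cases h1 : b < k₀
      · exact ⟨a, b, ⟨by omega, by omega, Or.inl ⟨hbpos, h1⟩⟩, by omega⟩
      · by_cases h2 : b = k₀ ∧ (a + A) % 2 = 1
        · exact ⟨a, b, ⟨by omega, by omega, Or.inr (Or.inr ⟨h2.1, Nat.odd_iff.mpr h2.2⟩)⟩,
            by omega⟩
        · exfalso
          have h2d : (2 * d) / i = A ∧ (2 * d) % i = 2 * k₀ :=
            (Nat.div_mod_unique hipos).mpr ⟨by omega, by omega⟩
          have hT : b = k₀ → (2 * d + m - 2 * (2 * k₀)) / i = a + A := by
            intro hbk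
            have h5 : 2 * d + m - 2 * (2 * k₀) = i * (a + A) := by omega
            rw [h5, Nat.mul_div_cancel_left _ hipos]
          rw [hm_dm.1, hm_dm.2, h2d.1, h2d.2] at hcond
          simp only [Nat.odd_iff] at hcond
          omega
  · -- `A ≤ a`
    have hjA : j * A ≤ j * a := Nat.mul_le_mul_left j haA
    by_cases hz : m' = j * A
    · rcases Nat.even_or_odd A with hAe | hAo
      · have hAe' : A % 2 = 0 := Nat.even_iff.mp hAe
        have hjA' : j * A = j * (A - 1) + j := by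
          obtain ⟨A', rfl⟩ : ∃ A', A = A' + 1 := ⟨A - 1, by omega⟩
          rw [Nat.add_sub_cancel]
          ring
        exact ⟨A - 1, j, ⟨by omega, by omega, Or.inl ⟨hjpos, by omega⟩⟩, by omega⟩
      · exact ⟨A, 0, ⟨le_refl _, Nat.zero_le _, Or.inr (Or.inl ⟨rfl, hAo⟩)⟩, by omega⟩
    · exact ⟨A, m' - j * A, ⟨le_refl _, by omega, Or.inl ⟨by omega, by omega⟩⟩, by omega⟩

end Cfsg.Agent.Helper73.S88OE
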