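/-
helper73: CALL SL2L (helper2, for row S1383), piece G3 (double): `sl2l_lines_card`.
-/
import Mathlib

set_option autoImplicit false

namespace Cfsg.Agent.Helper73

open Subgroup

universe u

variable {Γ : Type u} [Group Γ] [Finite Γ]

/-- The number of elements of `B` outside `A`, for subgroups `A ≤ B`. -/
theorem sl2lg3_card_diff {A B : Subgroup Γ} (hAB : A ≤ B) :
    Nat.card {a : Γ // a ∈ B ∧ a ∉ A} = Nat.card B - Nat.card A := by
  have h1 : Nat.card {a : Γ // a ∈ B ∧ a ∉ A} = ((B : Set Γ) \ (A : Set Γ)).ncard :=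
    _root_.Nat.card_coe_set_eq ((B : Set Γ) \ (A : Set Γ))
  have h2 : ((B : Set Γ) \ (A : Set Γ)).ncard = (B : Set Γ).ncard - (A : Set Γ).ncard :=
    Set.ncard_sdiff (fun x hx => hAB hx)
  have h3 : (B : Set Γ).ncard = Nat.card B := (_root_.Nat.card_coe_set_eq (B : Set Γ)).symm
  have h4 : (A : Set Γ).ncard = Nat.card A := (_root_.Nat.card_coe_set_eq (A : Set Γ)).symm
  rw [h1, h2, h3, h4]

/-- PIECE G3 (count of lines): the subgroups `L` with `Z ≤ L ≤ P` of order `p²` are `p + 1` in number: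
`a ↦ ⟨a⟩ Z` maps `P ∖ Z` (`p³ - p` elements) onto them, with fibres `L ∖ Z` of `p² - p` elements. -/
theorem sl2l_lines_card {p : ℕ} (hp : p.Prime) {P Z : Subgroup Γ} (hPc : Nat.card P = p ^ 3)
    (hZP : Z ≤ P) (hZc : Nat.card Z = p) (hpow : ∀ a ∈ P, a ^ p ∈ Z)
    (hZcen : ∀ z ∈ Z, ∀ a ∈ P, z * a = a * z) :
    Nat.card {L : Subgroup Γ // Z ≤ L ∧ L ≤ P ∧ Nat.card L = p ^ 2} = p + 1 := by
  classical
  have hp2 : 2 ≤ p := hp.two_le
  -- (A) the order of `Z ⊔ ⟨a⟩`
  have hline : ∀ a ∈ P, a ∉ Z → Nat.card ↥(Z ⊔ zpowers a) = p ^ 2 := by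
    intro a haP haZ
    have hnorm : zpowers a ≤ normalizer (Z : Set Γ) := by
      rw [zpowers_le, mem_normalizer_iff]
      intro h
      constructor
      · intro hh
        have e : a * h * a⁻¹ = h := by rw [← hZcen h hh a haP, mul_inv_cancel_right]
        rw [e]; exact hh
      · intro hh
        have h1 := hZcen _ hh a haP
        have h3 : a * h = a * (a * h * a⁻¹) := by
          rw [← h1]; group
        have h2 : h = a * h * a⁻¹ := mul_left_cancel h3
        rw [h2]; exact hh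
    have hmem : ∀ x ∈ Z ⊔ zpowers a, ∃ z ∈ Z, ∃ i : ℕ, i < p ∧ x = z * a ^ i := by
      intro x hx
      have hx' : x ∈ ((Z ⊔ zpowers a : Subgroup Γ) : Set Γ) := hx
      rw [Subgroup.coe_mul_of_right_le_normalizer_left Z (zpowers a) hnorm, Set.mem_mul] at hx'
      obtain ⟨z, hz, y, hy, rfl⟩ := hx'
      obtain ⟨n, rfl⟩ := Subgroup.mem_zpowers_iff.mp hy
      have hpz : (p : ℤ) ≠ 0 := by exact_mod_cast hp.ne_zero
      have hr0 : 0 ≤ n % (p : ℤ) := Int.emod_nonneg n hpz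
      have hrp : n % (p : ℤ) < p := Int.emod_lt_of_pos n (by exact_mod_cast hp.pos)
      have hn : (p : ℤ) * (n / p) + n % p = n := Int.mul_ediv_add_emod n p
      refine ⟨z * (a ^ p) ^ (n / (p : ℤ)), Z.mul_mem hz (Z.zpow_mem (hpow a haP) _),
        (n % (p : ℤ)).toNat, by omega, ?_⟩
      have h1 : (a ^ (n % (p : ℤ)).toNat : Γ) = a ^ (n % (p : ℤ)) := by
        rw [← zpow_natCast, Int.toNat_of_nonneg hr0]
      rw [h1, mul_assoc]
      congr 1
      rw [← zpow_natCast a p, ← zpow_mul, ← zpow_add, hn]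
    have hle : Nat.card ↥(Z ⊔ zpowers a) ≤ p ^ 2 := by
      let g : ↥Z × Fin p → ↥(Z ⊔ zpowers a) := fun t =>
        ⟨(t.1 : Γ) * a ^ (t.2 : ℕ),
          mul_mem (mem_sup_left t.1.2) (mem_sup_right (pow_mem (mem_zpowers a) _))⟩
      have hsurj : Function.Surjective g := by
        rintro ⟨x, hx⟩
        obtain ⟨z, hz, i, hi, rfl⟩ := hmem x hx
        exact ⟨(⟨z, hz⟩, ⟨i, hi⟩), rfl⟩
      have h1 := Nat.card_le_card_of_surjective g hsurj
      rw [Nat.card_prod, hZc, Nat.card_fin] at h1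
      rw [pow_two]; exact h1
    have hdvd : Nat.card ↥(Z ⊔ zpowers a) ∣ p ^ 3 := by
      rw [← hPc]
      exact Subgroup.card_dvd_of_le (sup_le hZP (zpowers_le.mpr haP))
    obtain ⟨j, hj3, hj⟩ := (Nat.dvd_prime_pow hp).mp hdvd
    have hZdvd : p ∣ Nat.card ↥(Z ⊔ zpowers a) := by
      rw [← hZc]
      exact Subgroup.card_dvd_of_le le_sup_left
    have hj1 : j ≠ 1 := by
      intro h
      rw [h, pow_one] at hj
      have hEq : Z = Z ⊔ zpowers a :=
        Subgroup.eq_of_le_of_card_ge le_sup_left (by rw [hj, hZc])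
      apply haZ
      rw [hEq]
      exact mem_sup_right (mem_zpowers a)
    have hj0 : j ≠ 0 := by
      intro h
      rw [h, pow_zero] at hj
      rw [hj] at hZdvd
      exact hp.one_lt.ne' (Nat.dvd_one.mp hZdvd)
    have hj2 : j ≤ 2 := by
      by_contra hcon
      have hj3' : j = 3 := by omega
      rw [hj, hj3'] at hle
      have : p ^ 2 < p ^ 3 := Nat.pow_lt_pow_right hp.one_lt (by norm_num)
      omega
    have hj' : j = 2 := by omega
    rw [hj, hj']
  -- (B) the fibres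
  let S := {a : Γ // a ∈ P ∧ a ∉ Z}
  let f : S → {L : Subgroup Γ // Z ≤ L ∧ L ≤ P ∧ Nat.card L = p ^ 2} := fun a =>
    ⟨Z ⊔ zpowers a.1, le_sup_left, sup_le hZP (zpowers_le.mpr a.2.1), hline a.1 a.2.1 a.2.2⟩
  have hfib : ∀ L : {L : Subgroup Γ // Z ≤ L ∧ L ≤ P ∧ Nat.card L = p ^ 2},
      Nat.card {a : S // f a = L} = p ^ 2 - p := by
    intro L
    have e : {a : S // f a = L} ≃ {a : Γ // a ∈ L.1 ∧ a ∉ Z} :=
      { toFun := fun a => ⟨a.1.1, by
          have h := congrArg Subtype.val a.2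
          have h' : Z ⊔ zpowers a.1.1 = L.1 := h
          rw [← h']
          exact mem_sup_right (mem_zpowers a.1.1), a.1.2.2⟩
        invFun := fun a => ⟨⟨a.1, L.2.2.1 a.2.1, a.2.2⟩, by
          apply Subtype.ext
          show Z ⊔ zpowers a.1 = L.1
          refine Subgroup.eq_of_le_of_card_ge (sup_le L.2.1 (zpowers_le.mpr a.2.1)) ?_
          rw [L.2.2.2, hline a.1 (L.2.2.1 a.2.1) a.2.2]⟩
        left_inv := fun a => rfl
        right_inv := fun a => rfl }
    rw [Nat.card_congr e, sl2lg3_card_diff L.2.1, L.2.2.2, hZc]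
  have hS : Nat.card S = p ^ 3 - p := by
    have h := sl2lg3_card_diff hZP
    rw [hPc, hZc] at h
    exact h
  have hsum : Nat.card S =
      Nat.card {L : Subgroup Γ // Z ≤ L ∧ L ≤ P ∧ Nat.card L = p ^ 2} * (p ^ 2 - p) := by
    let _ : Fintype {L : Subgroup Γ // Z ≤ L ∧ L ≤ P ∧ Nat.card L = p ^ 2} := Fintype.ofFinite _
    rw [Nat.card_congr (Equiv.sigmaFiberEquiv f).symm, Nat.card_sigma]
    rw [Finset.sum_congr rfl (fun L _ => hfib L), Finset.sum_const, Finset.card_univ,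
      smul_eq_mul, Nat.card_eq_fintype_card]
  rw [hS] at hsum
  have h1 : p ≤ p ^ 2 := by nlinarith
  have h2 : p ≤ p ^ 3 := by
    have : p ^ 3 = p * p ^ 2 := by ring
    nlinarith
  have hpos : 0 < p ^ 2 - p := by
    have : p < p ^ 2 := by nlinarith
    omega
  have hfac : p ^ 3 - p = (p + 1) * (p ^ 2 - p) := by
    zify [h1, h2]
    ring
  rw [hfac] at hsum
  exact (Nat.eq_of_mul_eq_mul_right hpos hsum).symm

end Cfsg.Agent.Helper73
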