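import Cfsg.Agent.Helper73.SchurBoundB

/-!
# Schur's bound for `p`-rational characters

If `G` has a faithful `p`-rational character of degree `n` then
`ν_p(|G|) ≤ ∑_{i ≥ 0} ⌊n / ((p - 1) p^i)⌋`.
-/

set_option autoImplicit false
open Cfsg
open scoped ComplexConjugate

namespace Cfsg.Agent.Helper73

theorem schur_bound {G : Type*} [Group G] [Finite G] (p : ℕ) (hp : p.Prime) (χ : G → ℂ)
    (hχ : Cfsg.IsCharacter G χ) (hfaith : ∀ g : G, χ g = χ 1 → g = 1)
    (hrat : ∃ r : ℕ, 0 < r ∧ ¬ p ∣ r ∧ ∀ g : G, χ g ∈ IntermediateField.adjoin ℚ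
      ({Complex.exp (2 * Real.pi * Complex.I / r)} : Set ℂ))
    (n : ℕ) (hn : Cfsg.charDegree χ = n) :
    (Nat.card G).factorization p ≤ ∑ i ∈ Finset.range (n + 1), n / ((p - 1) * p ^ i) := by
  classical
  have hpf : Fact p.Prime := ⟨hp⟩
  obtain ⟨r, hr0, hpr, hrat⟩ := hrat
  have hχ1 : χ 1 = (n : ℂ) := by rw [Helper79.isCharacter_one_eq_charDegree hχ, hn]
  obtain ⟨P'⟩ : Nonempty (Sylow p G) := inferInstance
  obtain ⟨a, ha⟩ : ∃ a, a = (Nat.card G).factorization p := ⟨_, rfl⟩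
  obtain ⟨P, hPdef⟩ : ∃ P : Subgroup G, P = (P' : Subgroup G) := ⟨_, rfl⟩
  have hPcard : Nat.card P = p ^ a := by
    rw [ha, hPdef]
    exact P'.card_eq_multiplicity
  have : Fintype P := Fintype.ofFinite _
  obtain ⟨T, hT⟩ : ∃ T, T = n / (p - 1) := ⟨_, rfl⟩
  have hp1 : 0 < p - 1 := by
    have := hp.two_le
    omega
  have hvals : ∀ x : P, x ≠ 1 → ∃ t : ℕ, t ∈ Finset.Ico 1 (T + 1) ∧
      χ (x : G) = (n : ℂ) - (p : ℂ) * (t : ℂ) := by
    intro x hx
    have hxp : (x : G) ^ p ^ a = 1 := by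
      have h1 : x ^ Nat.card P = 1 := pow_card_eq_one'
      rw [hPcard] at h1
      have h2 := congrArg Subtype.val h1
      simpa using h2
    obtain ⟨z, hz⟩ := pElement_value_int hp hχ r hr0 hpr hrat (x : G) a hxp
    have hx1 : χ (x : G) ≠ χ 1 := by
      intro h
      apply hx
      exact Subtype.ext (hfaith _ h)
    obtain ⟨t, ht1, ht2, ht3⟩ := pElement_value_bounds hp hχ n hχ1 (x : G) a hxp z hz hx1
    refine ⟨t, Finset.mem_Ico.mpr ⟨ht1, Nat.lt_succ_of_le ?_⟩, ht3⟩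
    rw [hT]
    exact (Nat.le_div_iff_mul_le hp1).mpr (by rw [mul_comm]; exact ht2)
  obtain ⟨θ, hθ⟩ : ∃ θ : P → ℂ, θ = fun x : P => χ (x : G) := ⟨_, rfl⟩
  have hθc : Cfsg.IsCharacter P θ := by
    rw [hθ]
    exact Helper79.isCharacter_restrict hχ P
  have hθmem : θ ∈ genSpanZ P := isCharacter_mem_genSpanZ hθc
  have hone : (1 : P → ℂ) ∈ genSpanZ P :=
    isCharacter_mem_genSpanZ Helper79.isCharacter_one
  have hconst : ∀ c : ℤ, (fun _ : P => (c : ℂ)) ∈ genSpanZ P := by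
    intro c
    have h1 := Submodule.smul_mem (genSpanZ P) c hone
    have h2 : (fun _ : P => (c : ℂ)) = c • (1 : P → ℂ) := by
      funext x
      simp
    rw [h2]
    exact h1
  obtain ⟨F, hF⟩ : ∃ F : P → ℂ, F = ∏ t ∈ Finset.Ico 1 (T + 1),
      (θ - fun _ : P => ((((n : ℤ) - (p : ℤ) * (t : ℤ)) : ℤ) : ℂ)) := ⟨_, rfl⟩
  have hFmem : F ∈ genSpanZ P := by
    rw [hF]
    apply Finset.prod_induction _ (fun f => f ∈ genSpanZ P)
    · intro f g hf hg
      exact genSpanZ_mul hf hg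
    · exact hone
    · intro t _
      exact sub_mem hθmem (hconst _)
  have hFapply : ∀ x : P, F x = ∏ t ∈ Finset.Ico 1 (T + 1),
      (χ (x : G) - ((n : ℂ) - (p : ℂ) * (t : ℂ))) := by
    intro x
    rw [hF, Finset.prod_apply]
    refine Finset.prod_congr rfl fun t _ => ?_
    rw [Pi.sub_apply, hθ]
    push_cast
    rfl
  have hF0 : ∀ x : P, x ≠ 1 → F x = 0 := by
    intro x hx
    obtain ⟨t, ht, hval⟩ := hvals x hx
    rw [hFapply]
    exact Finset.prod_eq_zero ht (by rw [hval, sub_self])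
  have hF1 : F 1 = ((p ^ T * T.factorial : ℕ) : ℂ) := by
    rw [hFapply]
    simp only [Subgroup.coe_one, hχ1]
    have h1 : ∀ t ∈ Finset.Ico 1 (T + 1), ((n : ℂ) - ((n : ℂ) - (p : ℂ) * (t : ℂ)))
        = ((p * t : ℕ) : ℂ) := by
      intro t _
      push_cast
      ring
    rw [Finset.prod_congr rfl h1, ← Nat.cast_prod, Finset.prod_mul_distrib, Finset.prod_const,
      Nat.card_Ico, Finset.prod_Ico_id_eq_factorial]
    simp
  obtain ⟨j, hj⟩ := classInner_int_of_mem_genSpanZ hFmem (Helper79.trivIrr P)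
  have hsum : ∑ x : P, F x = F 1 := by
    rw [Finset.sum_eq_single (1 : P)]
    · intro x _ hx
      exact hF0 x hx
    · intro h
      exact absurd (Finset.mem_univ _) h
  have hcl : Cfsg.classInner F (Helper79.trivIrr P : P → ℂ)
      = (Nat.card P : ℂ)⁻¹ * ∑ x : P, F x := by
    unfold Cfsg.classInner
    congr 1
    refine Finset.sum_congr rfl fun x _ => ?_
    show F x * conj (1 : ℂ) = F x
    simp
  rw [hcl, hsum, hF1, hPcard] at hj
  have hpa : ((p ^ a : ℕ) : ℂ) ≠ 0 := by exact_mod_cast (pow_pos hp.pos a).ne'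
  have hdvd : p ^ a ∣ p ^ T * T.factorial := by
    have h1 : ((p ^ T * T.factorial : ℕ) : ℂ) = ((p ^ a : ℕ) : ℂ) * (j : ℂ) := by
      rw [← hj, ← mul_assoc, mul_inv_cancel₀ hpa, one_mul]
    have h2 : ((p ^ T * T.factorial : ℕ) : ℤ) = ((p ^ a : ℕ) : ℤ) * j := by exact_mod_cast h1
    exact Int.natCast_dvd_natCast.mp ⟨j, h2⟩
  have hval : a ≤ (p ^ T * T.factorial).factorization p :=
    (hp.pow_dvd_iff_le_factorization
      (mul_ne_zero (pow_ne_zero _ hp.ne_zero) (Nat.factorial_ne_zero _))).mp hdvd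
  rw [Nat.factorization_mul (pow_ne_zero _ hp.ne_zero) (Nat.factorial_ne_zero _)] at hval
  simp only [Finsupp.coe_add, Pi.add_apply, hp.factorization_pow, Finsupp.single_eq_same] at hval
  have hleg : (T.factorial).factorization p = ∑ i ∈ Finset.Ico 1 (n + 1), T / p ^ i := by
    rw [Nat.factorization_def _ hp]
    apply padicValNat_factorial
    calc Nat.log p T ≤ T := Nat.log_le_self p T
      _ ≤ n := by rw [hT]; exact Nat.div_le_self n (p - 1)
      _ < n + 1 := Nat.lt_succ_self n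
  rw [hleg] at hval
  have hrhs : ∑ i ∈ Finset.range (n + 1), n / ((p - 1) * p ^ i)
      = T + ∑ i ∈ Finset.Ico 1 (n + 1), T / p ^ i := by
    rw [Finset.range_eq_Ico, Finset.sum_eq_sum_Ico_succ_bot (Nat.succ_pos n)]
    simp only [pow_zero, mul_one, zero_add]
    rw [← hT]
    congr 1
    refine Finset.sum_congr rfl fun i _ => ?_
    rw [hT, Nat.div_div_eq_div_mul]
  rw [← ha, hrhs]
  exact hval

end Cfsg.Agent.Helper73
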