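import Cfsg.Agent.Helper73.GenSpan
import Cfsg.Agent.Helper75.Eigen
import Cfsg.Agent.Helper75.Galois
import Cfsg.Agent.Helper75.Rational
import Cfsg.Agent.Helper75.RationalChar
import Cfsg.Agent.Helper77.LocalRing
import Cfsg.Agent.Helper81.LocalRing
import Cfsg.Agent.Helper78.Counting
import Cfsg.Agent.Helper79.Basic

/-!
# Schur's bound for `p`-rational characters: auxiliary lemmas

* `ringEquiv_fixes_adjoin`: an automorphism fixing `ζ` fixes `ℚ(ζ)`.
* `int_dvd_of_memLocalIdeal`: an integer in the local ideal is divisible by `p`.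
* `sum_range_pow_roots`: `∑_{k<N} ∑_{μ ∈ s} μ^k = N · #{μ ∈ s | μ = 1}` for `N`-th roots of unity.
* `pElement_value_int`: a `p`-rational character is integer valued at `p`-elements.
-/

set_option autoImplicit false
open Cfsg

namespace Cfsg.Agent.Helper73

theorem ringEquiv_fixes_adjoin (σ : ℂ ≃+* ℂ) (ζ : ℂ) (hσ : σ ζ = ζ) {c : ℂ}
    (hc : c ∈ IntermediateField.adjoin ℚ ({ζ} : Set ℂ)) : σ c = c := by
  let K : IntermediateField ℚ ℂ :=
    { carrier := {z | σ z = z}
      mul_mem' := fun {a b} (ha : σ a = a) (hb : σ b = b) => by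
        show σ (a * b) = a * b
        rw [map_mul, ha, hb]
      one_mem' := map_one σ
      add_mem' := fun {a b} (ha : σ a = a) (hb : σ b = b) => by
        show σ (a + b) = a + b
        rw [map_add, ha, hb]
      zero_mem' := map_zero σ
      algebraMap_mem' := fun q => by
        show σ (algebraMap ℚ ℂ q) = algebraMap ℚ ℂ q
        rw [eq_ratCast, map_ratCast]
      inv_mem' := fun a (ha : σ a = a) => by
        show σ a⁻¹ = a⁻¹
        rw [map_inv₀, ha] }
  have hle : IntermediateField.adjoin ℚ ({ζ} : Set ℂ) ≤ K := by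
    rw [IntermediateField.adjoin_le_iff]
    intro z hz
    rw [Set.mem_singleton_iff] at hz
    subst hz
    exact hσ
  exact hle hc

theorem int_dvd_of_memLocalIdeal {p : ℕ} {M : Ideal Cfsg.AlgInt} (hM : Cfsg.IsPModular p M)
    (w : ℤ) (h : Cfsg.MemLocalIdeal M (w : ℂ)) : (p : ℤ) ∣ w := by
  obtain ⟨m, rfl | rfl⟩ := Int.eq_nat_or_neg w
  · have h1 : Cfsg.MemLocalIdeal M ((m : ℕ) : ℂ) := by simpa using h
    exact Int.natCast_dvd_natCast.mpr ((Helper81.memLocalIdeal_natCast_iff hM).mp h1)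
  · have h1 : Cfsg.MemLocalIdeal M ((m : ℕ) : ℂ) := by
      have h2 := Helper77.memLocalIdeal_neg h
      simpa using h2
    exact (dvd_neg).mpr (Int.natCast_dvd_natCast.mpr
      ((Helper81.memLocalIdeal_natCast_iff hM).mp h1))

/-- Geometric sums of roots of unity. -/
theorem sum_range_pow_root (N : ℕ) (μ : ℂ) (hμ : μ ^ N = 1) :
    ∑ k ∈ Finset.range N, μ ^ k = if μ = 1 then (N : ℂ) else 0 := by
  by_cases h : μ = 1
  · rw [if_pos h, h]
    simp
  · rw [if_neg h]
    have h1 := mul_geom_sum μ N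
    rw [hμ, sub_self] at h1
    rcases mul_eq_zero.mp h1 with h2 | h2
    · exact absurd (sub_eq_zero.mp h2) h
    · exact h2

theorem sum_range_pow_roots (N : ℕ) (s : Multiset ℂ) (hs : ∀ μ ∈ s, μ ^ N = 1) :
    ∑ k ∈ Finset.range N, (s.map (fun μ => μ ^ k)).sum
      = (N : ℂ) * ((s.filter (fun μ => μ = 1)).card : ℂ) := by
  classical
  induction s using Multiset.induction with
  | empty => simp
  | cons μ s ih =>
    have hs' : ∀ ν ∈ s, ν ^ N = 1 := fun ν hν => hs ν (Multiset.mem_cons_of_mem hν)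
    have hμ := hs μ (Multiset.mem_cons_self μ s)
    simp only [Multiset.map_cons, Multiset.sum_cons, Finset.sum_add_distrib]
    rw [ih hs', sum_range_pow_root N μ hμ, Multiset.filter_cons]
    by_cases h : μ = 1
    · simp only [h, if_true, Multiset.singleton_add, Multiset.card_cons]
      push_cast
      ring
    · simp only [h, if_false, zero_add]

/-- A `p`-rational character takes integer values at `p`-elements. -/
theorem pElement_value_int {G : Type*} [Group G] [Finite G] {p : ℕ} (hp : p.Prime) {χ : G → ℂ}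
    (hχ : Cfsg.IsCharacter G χ) (r : ℕ) (hr0 : 0 < r) (hpr : ¬ p ∣ r)
    (hrat : ∀ g : G, χ g ∈ IntermediateField.adjoin ℚ
      ({Complex.exp (2 * Real.pi * Complex.I / r)} : Set ℂ))
    (x : G) (a : ℕ) (hx : x ^ p ^ a = 1) : ∃ z : ℤ, χ x = (z : ℂ) := by
  obtain ⟨d, ρ, rfl⟩ := hχ
  have hN0 : p ^ a ≠ 0 := (pow_pos hp.pos a).ne'
  apply Helper75.int_of_fixed (Nat.card G) Nat.card_pos.ne' _ (Helper75.character_mem_cycField ρ x)
    (Helper75.character_isIntegral ρ x)
  intro σ
  have hf : (ρ x) ^ (p ^ a) = 1 := by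
    rw [← map_pow, hx, map_one]
  obtain ⟨s, hs1, -, hs3⟩ := Helper75.exists_eigen_multiset (ρ x) (p ^ a) hN0 hf
  have hval : ρ.character x = s.sum := by
    have h1 := hs3 1
    simp only [pow_one, Multiset.map_id'] at h1
    exact h1
  obtain ⟨k, hk, hσk⟩ := Helper75.exists_pow_of_ringEquiv σ (p ^ a) hN0
  have hcop : Nat.Coprime (p ^ a) r :=
    Nat.Coprime.pow_left a ((Nat.Prime.coprime_iff_not_dvd hp).mpr hpr)
  obtain ⟨k', hk'1, hk'2⟩ := Nat.chineseRemainder hcop k 1
  have hk'cop : Nat.Coprime k' (p ^ a * r) := by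
    apply Nat.Coprime.mul_right
    · have := hk'1.gcd_eq
      rw [Nat.Coprime, this]
      exact hk
    · have := hk'2.gcd_eq
      rw [Nat.Coprime, this]
      exact Nat.gcd_one_left r
  obtain ⟨σ', hσ'⟩ := Helper75.exists_ringEquiv_pow (p ^ a * r)
    (mul_ne_zero hN0 hr0.ne') k' hk'cop
  have hζr : σ' (Complex.exp (2 * Real.pi * Complex.I / r))
      = Complex.exp (2 * Real.pi * Complex.I / r) := by
    have hζ := Complex.isPrimitiveRoot_exp r hr0.ne'
    have h1 : (Complex.exp (2 * Real.pi * Complex.I / r)) ^ (p ^ a * r) = 1 := by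
      rw [mul_comm (p ^ a) r, pow_mul, hζ.pow_eq_one, one_pow]
    rw [hσ' _ h1, pow_eq_pow_mod k' hζ.pow_eq_one, hk'2]
    rcases Nat.lt_or_ge 1 r with h2 | h2
    · rw [Nat.mod_eq_of_lt h2, pow_one]
    · have hr1 : r = 1 := by omega
      subst hr1
      simp
  have hfix' : σ' (ρ.character x) = ρ.character x := ringEquiv_fixes_adjoin σ' _ hζr (hrat x)
  have hagree : ∀ μ ∈ s, σ μ = σ' μ := by
    intro μ hμ
    have h1 := hs1 μ hμ
    rw [hσk μ h1, hσ' μ (by rw [pow_mul, h1, one_pow]), pow_eq_pow_mod k h1,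
      pow_eq_pow_mod k' h1, hk'1]
  calc σ (ρ.character x) = σ' (ρ.character x) := by
        rw [hval, map_multiset_sum, map_multiset_sum, Multiset.map_congr rfl hagree]
    _ = ρ.character x := hfix'

end Cfsg.Agent.Helper73
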