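import Cfsg.Agent.Helper73.SchurBoundA

/-!
# Schur's bound for `p`-rational characters: values at `p`-elements

`pElement_value_bounds`: if `χ` is a character of degree `n`, `x` a `p`-element with
`χ x = z ∈ ℤ` and `χ x ≠ χ 1`, then `χ x = n - p t` with `1 ≤ t` and `(p - 1) t ≤ n`.
-/

set_option autoImplicit false
open Cfsg

namespace Cfsg.Agent.Helper73

theorem multiset_sum_sub_card_memLocalIdeal {M : Ideal Cfsg.AlgInt} (hM : M.IsMaximal)
    (s : Multiset ℂ) (h : ∀ μ ∈ s, Cfsg.MemLocalIdeal M (μ - 1)) :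
    Cfsg.MemLocalIdeal M (s.sum - (Multiset.card s : ℂ)) := by
  induction s using Multiset.induction with
  | empty =>
    simp only [Multiset.sum_zero, Multiset.card_zero, Nat.cast_zero, sub_zero]
    exact Helper77.memLocalIdeal_zero hM
  | cons μ s ih =>
    have h1 := h μ (Multiset.mem_cons_self μ s)
    have h2 := ih (fun ν hν => h ν (Multiset.mem_cons_of_mem hν))
    have e : (μ ::ₘ s).sum - (Multiset.card (μ ::ₘ s) : ℂ)
        = (μ - 1) + (s.sum - (Multiset.card s : ℂ)) := by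
      rw [Multiset.sum_cons, Multiset.card_cons]
      push_cast
      ring
    rw [e]
    exact Helper77.memLocalIdeal_add hM h1 h2

theorem pElement_value_bounds {G : Type*} [Group G] [Finite G] {p : ℕ} (hp : p.Prime)
    {χ : G → ℂ} (hχ : Cfsg.IsCharacter G χ) (n : ℕ) (hn : χ 1 = (n : ℂ))
    (x : G) (a : ℕ) (hx : x ^ p ^ a = 1) (z : ℤ) (hz : χ x = (z : ℂ)) (hx1 : χ x ≠ χ 1) :
    ∃ t : ℕ, 1 ≤ t ∧ (p - 1) * t ≤ n ∧ χ x = (n : ℂ) - (p : ℂ) * (t : ℂ) := by
  classical
  obtain ⟨d, ρ, rfl⟩ := hχ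
  rcases Nat.eq_zero_or_pos a with ha0 | ha0
  · subst ha0
    rw [pow_zero, pow_one] at hx
    subst hx
    exact absurd rfl hx1
  obtain ⟨a', rfl⟩ : ∃ a', a = a' + 1 := ⟨a - 1, by omega⟩
  obtain ⟨N', hN'⟩ : ∃ N', N' = p ^ a' := ⟨_, rfl⟩
  have hN'0 : N' ≠ 0 := by rw [hN']; exact (pow_pos hp.pos a').ne'
  have hNeq : p ^ (a' + 1) = p * N' := by rw [hN', pow_succ, mul_comm]
  rw [hNeq] at hx
  have hN0 : p * N' ≠ 0 := mul_ne_zero hp.ne_zero hN'0
  have hf : (ρ x) ^ (p * N') = 1 := by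
    rw [← map_pow, hx, map_one]
  obtain ⟨s, hs1, -, hs3⟩ := Helper75.exists_eigen_multiset (ρ x) (p * N') hN0 hf
  have hchar : ∀ k : ℕ, ρ.character (x ^ k) = (s.map (fun μ => μ ^ k)).sum := by
    intro k
    rw [← hs3 k]
    unfold Representation.character
    rw [map_pow]
  have hval : ρ.character x = s.sum := by
    have h1 := hchar 1
    simp only [pow_one, Multiset.map_id'] at h1
    exact h1
  have hcard : n = Multiset.card s := by
    have h1 := hchar 0
    simp only [pow_zero, Multiset.map_const', Multiset.sum_replicate, nsmul_eq_mul, mul_one] at h1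
    rw [hn] at h1
    exact_mod_cast h1
  -- coprime powers
  have hcop : ∀ m : ℕ, Nat.Coprime m p → ρ.character (x ^ m) = (z : ℂ) := by
    intro m hm
    have hmN : Nat.Coprime m (p * N') := by
      rw [hN', ← pow_succ']
      exact Nat.Coprime.pow_right _ hm
    obtain ⟨σ, hσ⟩ := Helper75.exists_ringEquiv_pow (p * N') hN0 m hmN
    rw [hchar m]
    have h1 : s.map (fun μ => μ ^ m) = s.map σ :=
      Multiset.map_congr rfl (fun μ hμ => (hσ μ (hs1 μ hμ)).symm)
    rw [h1, ← map_multiset_sum, ← hval, hz, map_intCast]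
  -- the two sums
  have hSall := sum_range_pow_roots (p * N') s hs1
  have hs1' : ∀ ν ∈ s.map (fun μ => μ ^ p), ν ^ N' = 1 := by
    intro ν hν
    obtain ⟨μ, hμ, rfl⟩ := Multiset.mem_map.mp hν
    rw [← pow_mul]
    exact hs1 μ hμ
  have hSp := sum_range_pow_roots N' (s.map (fun μ => μ ^ p)) hs1'
  obtain ⟨c₁, hc₁⟩ : ∃ c₁ : ℕ, c₁ = Multiset.card (s.filter (fun μ => μ = 1)) := ⟨_, rfl⟩
  obtain ⟨cp, hcp⟩ : ∃ cp : ℕ, cp = Multiset.card ((s.map (fun μ => μ ^ p)).filter
      (fun μ => μ = 1)) := ⟨_, rfl⟩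
  rw [← hc₁] at hSall
  rw [← hcp] at hSp
  have hc₁p : c₁ ≤ cp := by
    rw [hc₁, hcp, Multiset.filter_map, Multiset.card_map]
    apply Multiset.card_le_card
    apply Multiset.monotone_filter_right
    intro μ h
    show μ ^ p = 1
    rw [h, one_pow]
  have hcpn : cp ≤ n := by
    rw [hcp, hcard]
    calc Multiset.card ((s.map (fun μ => μ ^ p)).filter (fun μ => μ = 1))
        ≤ Multiset.card (s.map (fun μ => μ ^ p)) := Multiset.card_le_card (Multiset.filter_le _ _)
      _ = Multiset.card s := Multiset.card_map _ _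
  -- the partition identity
  have hpart : ∑ k ∈ Finset.range (p * N'), (ρ.character (x ^ k) - (z : ℂ))
      = ∑ l ∈ Finset.range N', (ρ.character (x ^ (p * l)) - (z : ℂ)) := by
    have hinj : Set.InjOn (fun l : ℕ => p * l) (Finset.range N' : Set ℕ) := by
      intro l _ l' _ h
      exact Nat.eq_of_mul_eq_mul_left hp.pos h
    rw [← Finset.sum_image (f := fun k => ρ.character (x ^ k) - (z : ℂ)) hinj]
    symm
    apply Finset.sum_subset
    · intro k hk
      obtain ⟨l, hl, rfl⟩ := Finset.mem_image.mp hk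
      rw [Finset.mem_range] at hl ⊢
      exact Nat.mul_lt_mul_of_pos_left hl hp.pos
    · intro k hk hk'
      have hpk : ¬ p ∣ k := by
        rintro ⟨l, rfl⟩
        apply hk'
        rw [Finset.mem_range] at hk
        exact Finset.mem_image.mpr ⟨l, Finset.mem_range.mpr (Nat.lt_of_mul_lt_mul_left hk), rfl⟩
      rw [hcop k ((Nat.Prime.coprime_iff_not_dvd hp).mpr hpk).symm, sub_self]
  have hSp' : ∑ l ∈ Finset.range N', ρ.character (x ^ (p * l)) = (N' : ℂ) * (cp : ℂ) := by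
    rw [← hSp]
    refine Finset.sum_congr rfl fun l _ => ?_
    rw [hchar (p * l), Multiset.map_map]
    congr 1
    refine Multiset.map_congr rfl fun μ _ => ?_
    simp only [Function.comp_apply]
    rw [pow_mul]
  have hSall' : ∑ k ∈ Finset.range (p * N'), ρ.character (x ^ k)
      = ((p * N' : ℕ) : ℂ) * (c₁ : ℂ) := by
    rw [← hSall]
    exact Finset.sum_congr rfl fun k _ => hchar k
  rw [Finset.sum_sub_distrib, Finset.sum_sub_distrib, hSall', hSp', Finset.sum_const,
    Finset.sum_const, Finset.card_range, Finset.card_range] at hpart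
  have hE : ((p : ℤ) - 1) * z = (p : ℤ) * (c₁ : ℤ) - (cp : ℤ) := by
    have h1 : ((N' : ℤ) : ℂ) * ((((p : ℤ) - 1) * z : ℤ) : ℂ)
        = ((N' : ℤ) : ℂ) * ((((p : ℤ) * (c₁ : ℤ) - (cp : ℤ)) : ℤ) : ℂ) := by
      push_cast
      simp only [nsmul_eq_mul] at hpart
      push_cast at hpart
      linear_combination -hpart
    have h2 : (N' : ℤ) * (((p : ℤ) - 1) * z) = (N' : ℤ) * ((p : ℤ) * (c₁ : ℤ) - (cp : ℤ)) := by
      exact_mod_cast h1
    exact mul_left_cancel₀ (by exact_mod_cast hN'0) h2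
  -- divisibility
  obtain ⟨M, hM⟩ := Helper78.exists_isPModular p hp
  have hdvd : (p : ℤ) ∣ z - (n : ℤ) := by
    apply int_dvd_of_memLocalIdeal hM
    have h1 := multiset_sum_sub_card_memLocalIdeal hM.2.1 s (fun μ hμ => by
      have h2 := hs1 μ hμ
      rw [hN', ← pow_succ'] at h2
      exact Helper77.memLocalIdeal_root_sub_one hM h2)
    rw [← hval, hz, ← hcard] at h1
    push_cast
    exact h1
  obtain ⟨w, hw⟩ := hdvd
  have hp2 : (2 : ℤ) ≤ (p : ℤ) := by exact_mod_cast hp.two_le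
  have hzn : z ≠ (n : ℤ) := by
    intro h
    apply hx1
    rw [hz, hn, h]
    push_cast
    rfl
  have hc₁p' : (c₁ : ℤ) ≤ (cp : ℤ) := by exact_mod_cast hc₁p
  have hcpn' : (cp : ℤ) ≤ (n : ℤ) := by exact_mod_cast hcpn
  have hc₁0 : (0 : ℤ) ≤ (c₁ : ℤ) := by positivity
  have hzle : z ≤ (n : ℤ) := by nlinarith
  have hw0 : w ≤ -1 := by
    have h1 : (p : ℤ) * w ≤ 0 := by rw [← hw]; linarith
    have h2 : w ≤ 0 := by nlinarith
    have h3 : w ≠ 0 := by
      rintro rfl
      apply hzn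
      linarith
    omega
  refine ⟨(-w).toNat, ?_, ?_, ?_⟩
  · omega
  · have h1 : (((-w).toNat : ℕ) : ℤ) = -w := Int.toNat_of_nonneg (by omega)
    have h2 : (((p - 1) * (-w).toNat : ℕ) : ℤ) ≤ (n : ℤ) := by
      push_cast
      rw [h1, Nat.cast_sub hp.one_le]
      push_cast
      nlinarith
    exact_mod_cast h2
  · have h1 : (((-w).toNat : ℕ) : ℤ) = -w := Int.toNat_of_nonneg (by omega)
    have h2 : (z : ℂ) = (n : ℂ) - (p : ℂ) * (((-w).toNat : ℕ) : ℂ) := by
      have h3 : z = (n : ℤ) - (p : ℤ) * (((-w).toNat : ℕ) : ℤ) := by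
        rw [h1]
        linarith
      exact_mod_cast h3
    rw [hz, h2]

end Cfsg.Agent.Helper73
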